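import Mathlib
import Cfsg.Prelude.Def_LocalStructure
import Cfsg.Agent.Lib.Helper46.Amalgam2

set_option autoImplicit false

/-!
Helper lemmas on the coset graph of a rank-two amalgam with strongly `p`-embedded residues
(on top of helper46's `Amalgam` files): equivariance of `V_δ^{(n)}`, `Z_δ ≠ 1`,
`O^{p'}(H) = O^p(O^{p'}(H)) T`, and a Nakayama-type lemma for `p`-groups.
-/

namespace Cfsg.Agent.Lib.Helper12.Amal

open Cfsg Cfsg.Agent.Lib.Helper46
open scoped commutatorElement

section General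

variable {X : Type*} [Group X]

theorem pres_normal (p : ℕ) (G : Type*) [Group G] : (Cfsg.pResidual p G).Normal := by
  constructor
  intro n hn g
  unfold Cfsg.pResidual at hn ⊢
  induction hn using Subgroup.closure_induction with
  | mem x hx =>
    apply Subgroup.subset_closure
    change Nat.Coprime (orderOf (g * x * g⁻¹)) p
    have : orderOf (g * x * g⁻¹) = orderOf x :=
      orderOf_injective (MulAut.conj g).toMonoidHom (MulAut.conj g).injective x
    rw [this]; exact hx
  | one => simp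
  | mul a b _ _ iha ihb =>
    have : g * (a * b) * g⁻¹ = (g * a * g⁻¹) * (g * b * g⁻¹) := by group
    rw [this]; exact Subgroup.mul_mem _ iha ihb
  | inv a _ iha =>
    have : g * a⁻¹ * g⁻¹ = (g * a * g⁻¹)⁻¹ := by group
    rw [this]; exact Subgroup.inv_mem _ iha

theorem pres_quotient_isPGroup (p : ℕ) [Fact p.Prime] (G : Type*) [Group G] [Finite G]
    [(Cfsg.pResidual p G).Normal] : IsPGroup p (G ⧸ Cfsg.pResidual p G) := by
  intro y
  obtain ⟨g, rfl⟩ := QuotientGroup.mk_surjective y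
  have hp : p.Prime := Fact.out
  have hpos : orderOf g ≠ 0 := (orderOf_pos g).ne'
  obtain ⟨e, m, hm, hem⟩ := Nat.exists_eq_pow_mul_and_not_dvd hpos p hp.ne_one
  refine ⟨e, ?_⟩
  have h1 : (g ^ (p ^ e)) ^ m = 1 := by
    rw [← pow_mul, ← hem, pow_orderOf_eq_one]
  have h2 : (orderOf (g ^ (p ^ e))).Coprime p := by
    have d : orderOf (g ^ (p ^ e)) ∣ m := orderOf_dvd_of_pow_eq_one h1
    have hmp : m.Coprime p := (Nat.Prime.coprime_iff_not_dvd hp).mpr hm |>.symm
    exact Nat.Coprime.coprime_dvd_left d hmp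
  have h3 : g ^ (p ^ e) ∈ Cfsg.pResidual p G := Subgroup.subset_closure h2
  rw [← QuotientGroup.mk_pow]
  exact (QuotientGroup.eq_one_iff _).mpr h3

theorem pres_sup_sylow {G : Type*} [Group G] [Finite G] {p : ℕ} [Fact p.Prime]
    (T : Sylow p G) : Cfsg.pResidual p G ⊔ (T : Subgroup G) = ⊤ := by
  have hnorm := pres_normal p G
  have hq := pres_quotient_isPGroup p G
  obtain ⟨n, hn⟩ := IsPGroup.iff_card.mp hq
  have hidx : (Cfsg.pResidual p G).index = p ^ n := by
    rw [Subgroup.index_eq_card]; exact hn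
  rw [← Subgroup.index_eq_one]
  have d1 : (Cfsg.pResidual p G ⊔ (T : Subgroup G)).index ∣ (T : Subgroup G).index :=
    Subgroup.index_dvd_of_le le_sup_right
  have d2 : (Cfsg.pResidual p G ⊔ (T : Subgroup G)).index ∣ p ^ n := by
    rw [← hidx]; exact Subgroup.index_dvd_of_le le_sup_left
  have hT : ¬ p ∣ (T : Subgroup G).index := T.not_dvd_index
  have hp : p.Prime := Fact.out
  have hcop : ((T : Subgroup G).index).Coprime (p ^ n) :=
    Nat.Coprime.pow_right n ((Nat.Prime.coprime_iff_not_dvd hp).mpr hT).symm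
  exact Nat.eq_one_of_dvd_coprimes hcop d1 d2

/-- `O^{p'}(H) = O^p(O^{p'}(H)) T` for a Sylow `p`-subgroup `T` of the finite subgroup `H`:
a subgroup containing both factors contains `O^{p'}(H)`. -/
theorem pElementClosure_le_of {p : ℕ} [Fact p.Prime] {H T N : Subgroup X} [Finite H]
    (hT : IsSylowIn p T H)
    (hR : (Cfsg.pResidual p ↥(pElementClosure p H)).map (pElementClosure p H).subtype ≤ N)
    (hTN : T ≤ N) : pElementClosure p H ≤ N := by
  have hLle := pElementClosure_le p H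
  have hfL : Finite (pElementClosure p H) :=
    Finite.of_injective (Subgroup.inclusion hLle) (Subgroup.inclusion_injective _)
  have hTL : IsSylowIn p T (pElementClosure p H) :=
    hT.of_le (le_pElementClosure hT.isPGroup hT.1) hLle
  obtain ⟨S, hS⟩ := hTL.exists_sylow
  have h1 := pres_sup_sylow S
  have h2 : ((Cfsg.pResidual p ↥(pElementClosure p H)) ⊔ (S : Subgroup ↥(pElementClosure p H))).map
      (pElementClosure p H).subtype = pElementClosure p H := by
    rw [h1, ← MonoidHom.range_eq_map, Subgroup.range_subtype]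
  rw [Subgroup.map_sup, hS] at h2
  rw [← h2]
  exact sup_le hR hTN

theorem sylowCenterClosure_map_le {p : ℕ} [Fact p.Prime] {H : Subgroup X} [Finite H]
    (φ : X ≃* X) :
    (sylowCenterClosure p H).map φ.toMonoidHom ≤ sylowCenterClosure p (H.map φ.toMonoidHom) := by
  have hf : Finite (H.map φ.toMonoidHom) :=
    Finite.of_equiv _ (Subgroup.equivMapOfInjective H φ.toMonoidHom φ.injective).toEquiv
  rw [Subgroup.map_le_iff_le_comap]
  apply sylowCenterClosure_le_of
  intro E hE
  rw [← Subgroup.map_le_iff_le_comap, omegaZ_map]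
  exact omegaZ_le_sylowCenterClosure (hE.map φ)

theorem omegaZ_ne_bot {p : ℕ} [Fact p.Prime] {T : Subgroup X} [Finite T] (hT : IsPGroup p T)
    (hT1 : T ≠ ⊥) : omegaOne p (T ⊓ Subgroup.centralizer (T : Set X)) ≠ ⊥ := by
  have hnt : Nontrivial T := (Subgroup.nontrivial_iff_ne_bot T).2 hT1
  have hcn : Nontrivial (Subgroup.center T) := hT.center_nontrivial
  have hcp : IsPGroup p (Subgroup.center T) := hT.to_subgroup _
  have hdvd : p ∣ Nat.card (Subgroup.center T) := by
    rcases hcp.card_eq_or_dvd with h1 | h1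
    · exact absurd h1 (Finite.one_lt_card_iff_nontrivial.2 hcn).ne'
    · exact h1
  obtain ⟨z, hz⟩ := exists_prime_orderOf_dvd_card' p hdvd
  intro hbot
  have hxT : ((z : T) : X) ∈ T := (z : T).2
  have hxC : ((z : T) : X) ∈ Subgroup.centralizer (T : Set X) := by
    rw [Subgroup.mem_centralizer_iff]
    intro t ht
    have := (Subgroup.mem_center_iff.1 z.2) ⟨t, ht⟩
    exact congrArg Subtype.val this
  have hxp : ((z : T) : X) ^ p = 1 := by
    have : z ^ p = 1 := by rw [← hz]; exact pow_orderOf_eq_one z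
    have h2 := congrArg (fun w : Subgroup.center T => ((w : T) : X)) this
    simpa using h2
  have hmem : ((z : T) : X) ∈ omegaOne p (T ⊓ Subgroup.centralizer (T : Set X)) :=
    Subgroup.subset_closure ⟨⟨hxT, hxC⟩, hxp⟩
  rw [hbot, Subgroup.mem_bot] at hmem
  have hz1 : z = 1 := by
    apply Subtype.ext; apply Subtype.ext; simpa using hmem
  rw [hz1, orderOf_one] at hz
  exact (Fact.out : p.Prime).one_lt.ne hz

theorem stabilizer_le_normalizer_pCoreOf (p : ℕ) (H : Subgroup X) :
    H ≤ Subgroup.normalizer (pCoreOf p H : Set X) := by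
  intro g hg
  rw [Subgroup.mem_normalizer_iff_map_conj_eq]
  have := pCoreOf_map p H (MulAut.conj g)
  rw [map_conj_eq_of_mem hg] at this
  exact this.symm

/-- If `g` normalizes `A` and `B` then it normalizes `A ⊔ B`. -/
theorem mem_normalizer_sup {A B : Subgroup X} {g : X}
    (hA : g ∈ Subgroup.normalizer (A : Set X)) (hB : g ∈ Subgroup.normalizer (B : Set X)) :
    g ∈ Subgroup.normalizer ((A ⊔ B : Subgroup X) : Set X) := by
  rw [Subgroup.mem_normalizer_iff_map_conj_eq] at hA hB ⊢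
  rw [Subgroup.map_sup, hA, hB]

/-- If `g` normalizes `A` and `B` then it normalizes `⁅A, B⁆`. -/
theorem mem_normalizer_commutator {A B : Subgroup X} {g : X}
    (hA : g ∈ Subgroup.normalizer (A : Set X)) (hB : g ∈ Subgroup.normalizer (B : Set X)) :
    g ∈ Subgroup.normalizer ((⁅A, B⁆ : Subgroup X) : Set X) := by
  rw [Subgroup.mem_normalizer_iff_map_conj_eq] at hA hB ⊢
  rw [Subgroup.map_commutator, hA, hB]

/-- The chain `[V, Q; i]`. -/
def commChain (V Q : Subgroup X) : ℕ → Subgroup X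
  | 0 => V
  | i + 1 => ⁅commChain V Q i, Q⁆

/-- Nakayama-type lemma: `V ≤ Q` a finite `p`-group, `A ≤ V` both `Q`-invariant,
`V ≤ A [V, Q]` implies `V ≤ A`. -/
theorem le_of_le_sup_commutator {p : ℕ} [Fact p.Prime] {Q V A : Subgroup X} [Finite Q]
    (hQ : IsPGroup p Q) (hVQ : V ≤ Q) (hAV : A ≤ V)
    (hQV : Q ≤ Subgroup.normalizer (V : Set X)) (hQA : Q ≤ Subgroup.normalizer (A : Set X))
    (h : V ≤ A ⊔ ⁅V, Q⁆) : V ≤ A := by
  have hnil : Group.IsNilpotent Q := hQ.isNilpotent
  obtain ⟨k, hk⟩ := (Subgroup.isNilpotent_iff_lowerCentralSeries Q).1 hnil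
  -- the chain D i = [V, Q; i]
  let D : ℕ → Subgroup X := commChain V Q
  have hD0 : D 0 = V := rfl
  have hDs : ∀ i, D (i + 1) = ⁅D i, Q⁆ := fun i => rfl
  have hDlcs : ∀ i, D i ≤ Q.lowerCentralSeries i := by
    intro i
    induction i with
    | zero => exact hVQ
    | succ i ih =>
      rw [hDs, Subgroup.lowerCentralSeries_succ]
      exact Subgroup.commutator_mono ih le_rfl
  have hDQ : ∀ i, D i ≤ Q := fun i =>
    (hDlcs i).trans ((Subgroup.lowerCentralSeries_antitone Q) (Nat.zero_le i))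
  have hDn : ∀ i, Q ≤ Subgroup.normalizer (SetLike.coe (D i)) := by
    intro i
    induction i with
    | zero => exact hQV
    | succ i ih =>
      rw [hDs]
      exact Subgroup.normalizer_commutator_ge_right (H₁ := D i) (H₂ := Q)
  have hAQ : A ≤ Q := hAV.trans hVQ
  have key : ∀ i, V ≤ A ⊔ D i := by
    intro i
    induction i with
    | zero => rw [hD0]; exact le_sup_right
    | succ i ih =>
      refine h.trans (sup_le le_sup_left ?_)
      -- ⁅V, Q⁆ ≤ ⁅A ⊔ D i, Q⁆ ≤ A ⊔ D (i+1)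
      refine (Subgroup.commutator_mono ih le_rfl).trans ?_
      have hNn : Q ≤ Subgroup.normalizer ((A ⊔ D (i + 1) : Subgroup X) : Set X) :=
        fun q hq => mem_normalizer_sup (hQA hq) (hDn (i + 1) hq)
      rw [Subgroup.commutator_le]
      intro x hx q hq
      -- the set of x ∈ Q with ⁅x, q⁆ ∈ N is a subgroup containing A and D i
      let S : Subgroup X :=
        { carrier := {x | x ∈ Q ∧ ⁅x, q⁆ ∈ A ⊔ D (i + 1)}
          one_mem' := by
            refine ⟨Subgroup.one_mem _, ?_⟩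
            rw [commutatorElement_def]; simp
          mul_mem' := by
            rintro a b ⟨haQ, ha⟩ ⟨hbQ, hb⟩
            refine ⟨Subgroup.mul_mem _ haQ hbQ, ?_⟩
            have e : ⁅a * b, q⁆ = (a * ⁅b, q⁆ * a⁻¹) * ⁅a, q⁆ := by
              simp only [commutatorElement_def]; group
            rw [e]
            exact Subgroup.mul_mem _ ((Subgroup.mem_normalizer_iff.1 (hNn haQ) _).1 hb) ha
          inv_mem' := by
            rintro a ⟨haQ, ha⟩
            refine ⟨Subgroup.inv_mem _ haQ, ?_⟩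
            have e : ⁅a⁻¹, q⁆ = a⁻¹ * (⁅a, q⁆)⁻¹ * (a⁻¹)⁻¹ := by
              simp only [commutatorElement_def]; group
            rw [e]
            exact (Subgroup.mem_normalizer_iff.1 (hNn (Subgroup.inv_mem _ haQ)) _).1
              (Subgroup.inv_mem _ ha) }
      have hAS : A ≤ S := by
        intro a ha
        refine ⟨hAQ ha, Subgroup.mem_sup_left ?_⟩
        have e : ⁅a, q⁆ = a * (q * a⁻¹ * q⁻¹) := by
          simp only [commutatorElement_def]; group
        rw [e]
        exact Subgroup.mul_mem _ ha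
          ((Subgroup.mem_normalizer_iff.1 (hQA hq) _).1 (Subgroup.inv_mem _ ha))
      have hDS : D i ≤ S := by
        intro d hd
        refine ⟨hDQ i hd, Subgroup.mem_sup_right ?_⟩
        rw [hDs]
        exact Subgroup.commutator_mem_commutator hd hq
      exact ((sup_le hAS hDS) hx).2
  have h1 := key k
  have h2 : D k = ⊥ := le_bot_iff.1 ((hDlcs k).trans hk.le)
  rw [h2, sup_bot_eq] at h1
  exact h1

end General

section Graph

variable {X : Type*} [Group X] {p : ℕ} [Fact p.Prime] {M₁ M₂ : Subgroup X}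

omit [Fact p.Prime] in
theorem dist_smul_le (hgen : M₁ ⊔ M₂ = ⊤) (g : X) (a b : CosetVertex M₁ M₂) :
    (cosetGraph M₁ M₂).dist (g • a) (g • b) ≤ (cosetGraph M₁ M₂).dist a b := by
  have hconn := cosetGraph_connected M₁ M₂ hgen
  obtain ⟨w, hw⟩ := hconn.exists_walk_length_eq_dist a b
  have := SimpleGraph.dist_le (w.map (smulHom M₁ M₂ g))
  rw [SimpleGraph.Walk.length_map, hw] at this
  exact this

omit [Fact p.Prime] in
theorem dist_smul (hgen : M₁ ⊔ M₂ = ⊤) (g : X) (a b : CosetVertex M₁ M₂) :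
    (cosetGraph M₁ M₂).dist (g • a) (g • b) = (cosetGraph M₁ M₂).dist a b := by
  apply le_antisymm (dist_smul_le hgen g a b)
  have := dist_smul_le hgen g⁻¹ (g • a) (g • b)
  rwa [inv_smul_smul, inv_smul_smul] at this

theorem vertexZ_smul_le (h : IsCharPAmalgamPair p M₁ M₂) (g : X) (ν : CosetVertex M₁ M₂) :
    (vertexZ p ν).map (MulAut.conj g).toMonoidHom ≤ vertexZ p (g • ν) := by
  have := finite_stabilizer h ν
  change (sylowCenterClosure p (MulAction.stabilizer X ν)).map (MulAut.conj g).toMonoidHom ≤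
    sylowCenterClosure p (MulAction.stabilizer X (g • ν))
  rw [MulAction.stabilizer_smul_eq_stabilizer_map_conj]
  exact sylowCenterClosure_map_le (MulAut.conj g)

theorem vertexVIter_smul_le (h : IsCharPAmalgamPair p M₁ M₂) (g : X) (k : ℕ)
    (ν : CosetVertex M₁ M₂) :
    (vertexVIter p M₁ M₂ k ν).map (MulAut.conj g).toMonoidHom ≤
      vertexVIter p M₁ M₂ k (g • ν) := by
  unfold vertexVIter
  rw [Subgroup.map_iSup]
  apply iSup_le
  rintro ⟨μ, hμ⟩
  refine (vertexZ_smul_le h g μ).trans ?_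
  exact le_iSup (fun μ : {μ : CosetVertex M₁ M₂ // (cosetGraph M₁ M₂).dist (g • ν) μ ≤ k} =>
    vertexZ p (μ : CosetVertex M₁ M₂)) ⟨g • μ, by rw [dist_smul h.1.1]; exact hμ⟩

theorem vertexVIter_smul_ge (h : IsCharPAmalgamPair p M₁ M₂) (g : X) (k : ℕ)
    (ν : CosetVertex M₁ M₂) :
    vertexVIter p M₁ M₂ k (g • ν) ≤
      (vertexVIter p M₁ M₂ k ν).map (MulAut.conj g).toMonoidHom := by
  have h1 := vertexVIter_smul_le h g⁻¹ k (g • ν)
  rw [inv_smul_smul] at h1
  intro x hx
  have h2 : (MulAut.conj g⁻¹) x ∈ vertexVIter p M₁ M₂ k ν := h1 ⟨x, hx, rfl⟩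
  refine ⟨(MulAut.conj g⁻¹) x, h2, ?_⟩
  simp [MulAut.conj_apply, mul_assoc]

theorem stabilizer_le_normalizer_vertexVIter (h : IsCharPAmalgamPair p M₁ M₂) (k : ℕ)
    (ν : CosetVertex M₁ M₂) :
    MulAction.stabilizer X ν ≤ Subgroup.normalizer (vertexVIter p M₁ M₂ k ν : Set X) := by
  intro g hg
  have hgν : g • ν = ν := MulAction.mem_stabilizer_iff.1 hg
  rw [Subgroup.mem_normalizer_iff_map_conj_eq]
  apply le_antisymm
  · have := vertexVIter_smul_le h g k ν
    rwa [hgν] at this
  · have := vertexVIter_smul_ge h g k ν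
    rwa [hgν] at this

omit [Fact p.Prime] in
theorem vertexZ_le_vertexVIter (k : ℕ) (ν : CosetVertex M₁ M₂) :
    vertexZ p ν ≤ vertexVIter p M₁ M₂ k ν := by
  unfold vertexVIter
  exact le_iSup (fun μ : {μ : CosetVertex M₁ M₂ // (cosetGraph M₁ M₂).dist ν μ ≤ k} =>
    vertexZ p (μ : CosetVertex M₁ M₂)) ⟨ν, by simp⟩

omit [Fact p.Prime] in
/-- `V_μ^{(k)} ≤ V_λ^{(k+1)}` for adjacent `λ`, `μ`. -/
theorem vertexVIter_adj_le (hgen : M₁ ⊔ M₂ = ⊤) {lam μ : CosetVertex M₁ M₂}
    (hadj : (cosetGraph M₁ M₂).Adj lam μ) {k n : ℕ} (hkn : k + 1 ≤ n) :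
    vertexVIter p M₁ M₂ k μ ≤ vertexVIter p M₁ M₂ n lam := by
  have hconn := cosetGraph_connected M₁ M₂ hgen
  have hd1 : (cosetGraph M₁ M₂).dist lam μ = 1 := SimpleGraph.dist_eq_one_iff_adj.2 hadj
  unfold vertexVIter
  apply iSup_le
  rintro ⟨ν, hν⟩
  refine le_iSup (fun ν : {ν : CosetVertex M₁ M₂ // (cosetGraph M₁ M₂).dist lam ν ≤ n} =>
    vertexZ p (ν : CosetVertex M₁ M₂)) ⟨ν, ?_⟩
  have := hconn.dist_triangle (u := lam) (v := μ) (w := ν)
  omega

theorem vertexZ_ne_bot (h : IsCharPAmalgamPair p M₁ M₂) (ν : CosetVertex M₁ M₂) :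
    vertexZ p ν ≠ ⊥ := by
  have hf := finite_stabilizer h ν
  have hdvd : p ∣ Nat.card (MulAction.stabilizer X ν) := by
    obtain ⟨_, _, _, hd1, hd2, _⟩ := h
    obtain ⟨x, rfl | rfl⟩ := exists_rep M₁ M₂ ν
    · rw [stabilizer_inl,
        Subgroup.card_map_of_injective (f := (MulAut.conj x).toMonoidHom) (MulAut.conj x).injective]
      exact hd1
    · rw [stabilizer_inr,
        Subgroup.card_map_of_injective (f := (MulAut.conj x).toMonoidHom) (MulAut.conj x).injective]
      exact hd2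
  obtain ⟨S⟩ : Nonempty (Sylow p (MulAction.stabilizer X ν)) := inferInstance
  have hE := isSylowIn_of_sylow S
  set E := (S : Subgroup (MulAction.stabilizer X ν)).map (MulAction.stabilizer X ν).subtype with hEdef
  have hpos : 0 < (Nat.card (MulAction.stabilizer X ν)).factorization p :=
    (Fact.out : p.Prime).factorization_pos_of_dvd Nat.card_pos.ne' hdvd
  have hcard : 1 < Nat.card E := by
    rw [hE.2]
    exact Nat.one_lt_pow hpos.ne' (Fact.out : p.Prime).one_lt
  have hfE : Finite E := Nat.finite_of_card_ne_zero (by omega)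
  have hE1 : E ≠ ⊥ := by
    intro hb
    rw [hb, Subgroup.card_bot] at hcard
    exact lt_irrefl _ hcard
  have h1 := omegaZ_ne_bot hE.isPGroup hE1
  intro hbot
  apply h1
  have h2 := omegaZ_le_sylowCenterClosure hE
  change _ ≤ vertexZ p ν at h2
  rw [hbot] at h2
  exact le_bot_iff.1 h2

omit [Fact p.Prime] in
theorem exists_adj (lam : CosetVertex M₁ M₂) : ∃ μ, (cosetGraph M₁ M₂).Adj lam μ := by
  obtain ⟨x, rfl | rfl⟩ := exists_rep M₁ M₂ lam
  · exact ⟨_, adj_inl_inr M₁ M₂ x⟩
  · exact ⟨_, (adj_inl_inr M₁ M₂ x).symm⟩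

end Graph

end Cfsg.Agent.Lib.Helper12.Amal
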