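import Mathlib
import Cfsg.Prelude.Def_LocalStructure
import Cfsg.Agent.Lib.Helper46.Amalgam2
import Cfsg.Agent.Lib.Helper12.Amal

set_option autoImplicit false

/-!
Noncentral chief factors in `V_λ^{(n)}` for rank-two amalgams with strongly `p`-embedded
residues (cores of S2856 and S2857).
-/

namespace Cfsg.Agent.Lib.Helper12.Amal

open Cfsg Cfsg.Agent.Lib.Helper46
open scoped commutatorElement

variable {X : Type*} [Group X] {p : ℕ} [Fact p.Prime]

/-- Core of S2857: `[V_λ^{(n)}, O^p(L_λ)] ≰ V_λ^{(n-2)}` when `V_λ^{(n)} ≤ Q_λ`, `n ≥ 2`. -/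
theorem two_step (M₁ M₂ : Subgroup X) (h : IsSpeAmalgamPair p M₁ M₂)
    (lam : CosetVertex M₁ M₂) (n : ℕ) (hn : 2 ≤ n)
    (hVQ : vertexVIter p M₁ M₂ n lam ≤ vertexQ p lam) :
    ¬ ⁅vertexVIter p M₁ M₂ n lam,
        ((pResidual p ↥(pElementClosure p (MulAction.stabilizer X lam))).map
          (pElementClosure p (MulAction.stabilizer X lam)).subtype)⁆ ≤
      vertexVIter p M₁ M₂ (n - 2) lam := by
  intro hc
  have hchar := h.1
  have hgen : M₁ ⊔ M₂ = ⊤ := hchar.1.1
  obtain ⟨μ, hadj⟩ := exists_adj (M₁ := M₁) (M₂ := M₂) lam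
  have hfl := finite_stabilizer hchar lam
  obtain ⟨E, hE1, hE2⟩ := exists_edge_sylow hchar hadj
  have hT : IsSylowIn p E (edgeStabilizer lam μ) :=
    hE1.of_le (le_inf hE1.1 hE2.1) inf_le_left
  have hUV : vertexVIter p M₁ M₂ (n - 1) μ ≤ vertexVIter p M₁ M₂ n lam :=
    vertexVIter_adj_le hgen hadj (by omega)
  have hV2U : vertexVIter p M₁ M₂ (n - 2) lam ≤ vertexVIter p M₁ M₂ (n - 1) μ :=
    vertexVIter_adj_le hgen hadj.symm (by omega)
  have hUT : vertexVIter p M₁ M₂ (n - 1) μ ≤ E :=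
    hUV.trans (hVQ.trans (pCoreOf_le_of_isSylowIn hE1))
  have hμn := stabilizer_le_normalizer_vertexVIter hchar (n - 1) μ
  have hU2 : pElementClosure p (MulAction.stabilizer X μ) ≤
      Subgroup.normalizer (vertexVIter p M₁ M₂ (n - 1) μ : Set X) :=
    (pElementClosure_le p _).trans hμn
  have hU1 : pElementClosure p (MulAction.stabilizer X lam) ≤
      Subgroup.normalizer (vertexVIter p M₁ M₂ (n - 1) μ : Set X) := by
    apply pElementClosure_le_of hE1
    · rw [Subgroup.le_normalizer_iff_commutator_le_left]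
      exact (Subgroup.commutator_mono hUV le_rfl).trans (hc.trans hV2U)
    · exact hE2.1.trans hμn
  have hbot := spe_no_common_normal h hadj hT _ hUT hU1 hU2
  have hZ := vertexZ_le_vertexVIter (p := p) (n - 1) μ
  rw [hbot] at hZ
  exact vertexZ_ne_bot hchar μ (le_bot_iff.1 hZ)

/-- Core of S2856: `[V, O^p(L_λ)] ≰ [V, Q_λ]` for `V = V_λ^{(n)} ≤ Q_λ`, `n ≥ 1`. -/
theorem mod_core (M₁ M₂ : Subgroup X) (h : IsSpeAmalgamPair p M₁ M₂)
    (lam : CosetVertex M₁ M₂) (n : ℕ) (hn : 1 ≤ n) (V : Subgroup X)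
    (hV : V = vertexVIter p M₁ M₂ n lam) (hVQ : V ≤ vertexQ p lam) :
    ¬ ⁅V, ((pResidual p ↥(pElementClosure p (MulAction.stabilizer X lam))).map
          (pElementClosure p (MulAction.stabilizer X lam)).subtype)⁆ ≤ ⁅V, vertexQ p lam⁆ := by
  intro hc
  have hchar := h.1
  have hgen : M₁ ⊔ M₂ = ⊤ := hchar.1.1
  have hconn := cosetGraph_connected M₁ M₂ hgen
  obtain ⟨μ, hadj⟩ := exists_adj (M₁ := M₁) (M₂ := M₂) lam
  have hfl := finite_stabilizer hchar lam
  have hfm := finite_stabilizer hchar μ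
  obtain ⟨E, hE1, hE2⟩ := exists_edge_sylow hchar hadj
  have hT : IsSylowIn p E (edgeStabilizer lam μ) :=
    hE1.of_le (le_inf hE1.1 hE2.1) inf_le_left
  obtain ⟨Q, hQdef⟩ : ∃ Q : Subgroup X, Q = vertexQ p lam := ⟨_, rfl⟩
  obtain ⟨A, hAdef⟩ : ∃ A : Subgroup X, A = vertexVIter p M₁ M₂ (n - 1) μ := ⟨_, rfl⟩
  rw [← hQdef] at hc hVQ
  have hQE : Q ≤ E := by rw [hQdef]; exact pCoreOf_le_of_isSylowIn hE1
  have hlamV : MulAction.stabilizer X lam ≤ Subgroup.normalizer (V : Set X) := by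
    rw [hV]; exact stabilizer_le_normalizer_vertexVIter hchar n lam
  have hlamQ : MulAction.stabilizer X lam ≤ Subgroup.normalizer (Q : Set X) := by
    rw [hQdef]; exact stabilizer_le_normalizer_pCoreOf p _
  have hμA : MulAction.stabilizer X μ ≤ Subgroup.normalizer (A : Set X) := by
    rw [hAdef]; exact stabilizer_le_normalizer_vertexVIter hchar (n - 1) μ
  have hAV : A ≤ V := by
    rw [hV, hAdef]; exact vertexVIter_adj_le hgen hadj (by omega)
  have hQlam : Q ≤ MulAction.stabilizer X lam := hQE.trans hE1.1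
  have hCV : ⁅V, Q⁆ ≤ V :=
    (Subgroup.le_normalizer_iff_commutator_le_left).1 (hQlam.trans hlamV)
  have hlamC : MulAction.stabilizer X lam ≤
      Subgroup.normalizer ((⁅V, Q⁆ : Subgroup X) : Set X) :=
    fun g hg => mem_normalizer_commutator (hlamV hg) (hlamQ hg)
  have hWV : A ⊔ ⁅V, Q⁆ ≤ V := sup_le hAV hCV
  have hedgeW : MulAction.stabilizer X lam ⊓ MulAction.stabilizer X μ ≤
      Subgroup.normalizer ((A ⊔ ⁅V, Q⁆ : Subgroup X) : Set X) :=
    fun g hg => mem_normalizer_sup (hμA hg.2) (hlamC hg.1)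
  have hLW : pElementClosure p (MulAction.stabilizer X lam) ≤
      Subgroup.normalizer ((A ⊔ ⁅V, Q⁆ : Subgroup X) : Set X) := by
    apply pElementClosure_le_of hE1
    · rw [Subgroup.le_normalizer_iff_commutator_le_left]
      exact (Subgroup.commutator_mono hWV le_rfl).trans (hc.trans le_sup_right)
    · exact (le_inf hE1.1 hE2.1).trans hedgeW
  have hlamW : MulAction.stabilizer X lam ≤
      Subgroup.normalizer ((A ⊔ ⁅V, Q⁆ : Subgroup X) : Set X) := by
    intro g hg
    obtain ⟨l, hl, hlg⟩ := frattini_edge h hadj hT hg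
    have h1 : l⁻¹ * g ∈ MulAction.stabilizer X lam :=
      Subgroup.mul_mem _ (Subgroup.inv_mem _ (pElementClosure_le p _ hl)) hg
    have h2 := Subgroup.mul_mem _ (hLW hl) (hedgeW ⟨h1, hlg⟩)
    rwa [mul_inv_cancel_left] at h2
  have hZμ : omegaOne p (E ⊓ Subgroup.centralizer (E : Set X)) ≤ A ⊔ ⁅V, Q⁆ := by
    refine (omegaZ_le_sylowCenterClosure hE2).trans (le_trans ?_ le_sup_left)
    rw [hAdef]
    exact vertexZ_le_vertexVIter (n - 1) μ
  have hVW' : vertexVIter p M₁ M₂ n lam ≤ A ⊔ ⁅V, Q⁆ := by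
    unfold vertexVIter
    apply iSup_le
    rintro ⟨ν, hν⟩
    by_cases hne : lam = ν
    · subst hne
      change sylowCenterClosure p (MulAction.stabilizer X lam) ≤ _
      apply sylowCenterClosure_le_of
      intro E' hE'
      obtain ⟨g, hg, rfl⟩ := hE1.exists_conj hE'
      rw [← omegaZ_map]
      have hgW := hlamW hg
      rw [Subgroup.mem_normalizer_iff_map_conj_eq] at hgW
      rw [← hgW]
      exact Subgroup.map_mono hZμ
    · obtain ⟨w, hw, hd⟩ := exists_adj_dist_succ hconn hne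
      obtain ⟨g, hg, hgw⟩ := exists_stabilizer_smul_eq M₁ M₂ hadj hw
      have h1 : vertexZ p ν ≤ vertexVIter p M₁ M₂ (n - 1) w := by
        unfold vertexVIter
        exact le_iSup (fun ν : {ν : CosetVertex M₁ M₂ // (cosetGraph M₁ M₂).dist w ν ≤ n - 1} =>
          vertexZ p (ν : CosetVertex M₁ M₂)) ⟨ν, by omega⟩
      have h2 : vertexVIter p M₁ M₂ (n - 1) w ≤ A.map (MulAut.conj g).toMonoidHom := by
        rw [← hgw, hAdef]; exact vertexVIter_smul_ge hchar g (n - 1) μ
      have hgW := hlamW hg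
      rw [Subgroup.mem_normalizer_iff_map_conj_eq] at hgW
      exact h1.trans (h2.trans ((Subgroup.map_mono le_sup_left).trans hgW.le))
  have hVW : V ≤ A ⊔ ⁅V, Q⁆ := hV.le.trans hVW'
  have hfQ : Finite Q :=
    Finite.of_injective (Subgroup.inclusion hQlam) (Subgroup.inclusion_injective _)
  have hQp : IsPGroup p Q := by rw [hQdef]; exact pCoreOf_isPGroup p _
  have hVA : V ≤ A :=
    le_of_le_sup_commutator hQp hVQ hAV (hQlam.trans hlamV) (hQE.trans (hE2.1.trans hμA)) hVW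
  have hVeq : V = A := le_antisymm hVA hAV
  have hU1 : pElementClosure p (MulAction.stabilizer X lam) ≤
      Subgroup.normalizer (V : Set X) := (pElementClosure_le p _).trans hlamV
  have hU2 : pElementClosure p (MulAction.stabilizer X μ) ≤
      Subgroup.normalizer (V : Set X) := by
    rw [hVeq]; exact (pElementClosure_le p _).trans hμA
  have hbot := spe_no_common_normal h hadj hT V (hVQ.trans hQE) hU1 hU2
  have hZ : vertexZ p lam ≤ V := by rw [hV]; exact vertexZ_le_vertexVIter n lam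
  rw [hbot] at hZ
  exact vertexZ_ne_bot hchar lam (le_bot_iff.1 hZ)

end Cfsg.Agent.Lib.Helper12.Amal
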