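import Mathlib
import Cfsg.Agent.Lib.Helper12.PermChar
import Cfsg.Agent.S0717

set_option autoImplicit false

/-!
Algebra of `G`-invariant integer kernels on `Ω × Ω` and of their coefficients at irreducible
characters: linearity, multiplicativity at constituents of multiplicity one (the coefficient is
then the eigenvalue of the kernel on that constituent).
-/

namespace Cfsg.Agent.Lib.Helper12.Coef

open MulAction Cfsg.Agent.Lib.Helper12.Hecke Cfsg.Agent.Lib.Helper12.Subdeg
  Cfsg.Agent.Lib.Helper12.PermChar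
  Cfsg.Agent.Lib.Helper3 Cfsg.Agent.Lib.Helper75 Cfsg.Agent.Lib.Helper74
open scoped ComplexConjugate

section inv

variable (G : Type*) [Group G] {Ω : Type*} [MulAction G Ω]

/-- `G`-invariant kernels -/
def IsInv (B : Matrix Ω Ω ℤ) : Prop := ∀ (g : G) (x y : Ω), B (g • x) (g • y) = B x y

variable {G}

theorem isInv_orbMat (a b : Ω) : IsInv G (orbMat G a b) := orbMat_invariant G a b

theorem isInv_one [DecidableEq Ω] : IsInv G (1 : Matrix Ω Ω ℤ) := one_invariant

theorem isInv_add {B B' : Matrix Ω Ω ℤ} (hB : IsInv G B) (hB' : IsInv G B') :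
    IsInv G (B + B') := by
  intro g x y
  rw [Matrix.add_apply, Matrix.add_apply, hB, hB']

theorem isInv_zsmul (z : ℤ) {B : Matrix Ω Ω ℤ} (hB : IsInv G B) : IsInv G (z • B) := by
  intro g x y
  rw [Matrix.smul_apply, Matrix.smul_apply, hB]

theorem isInv_transpose {B : Matrix Ω Ω ℤ} (hB : IsInv G B) : IsInv G B.transpose := by
  intro g x y
  rw [Matrix.transpose_apply, Matrix.transpose_apply, hB]

theorem isInv_allOnes : IsInv G (fun _ _ => 1 : Matrix Ω Ω ℤ) := fun _ _ _ => rfl

theorem isInv_mul [Fintype Ω] {B B' : Matrix Ω Ω ℤ} (hB : IsInv G B) (hB' : IsInv G B') :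
    IsInv G (B * B') := by
  intro g x y
  rw [Matrix.mul_apply, Matrix.mul_apply]
  symm
  refine Fintype.sum_equiv (MulAction.toPerm g) _ _ (fun z => ?_)
  rw [MulAction.toPerm_apply, hB, hB']

/-- invariant kernels of a transitive action are determined by one row -/
theorem ext_of_isInv [IsPretransitive G Ω] (a : Ω) {B B' : Matrix Ω Ω ℤ} (hB : IsInv G B)
    (hB' : IsInv G B') (h : ∀ y : Ω, B a y = B' a y) : B = B' := by
  ext x y
  obtain ⟨g, rfl⟩ := exists_smul_eq G a x
  have e1 := hB g a (g⁻¹ • y)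
  have e2 := hB' g a (g⁻¹ • y)
  rw [smul_inv_smul] at e1 e2
  rw [e1, e2, h]

/-- row sums of an invariant kernel are constant -/
theorem row_sum_eq [Fintype Ω] [IsPretransitive G Ω] {B : Matrix Ω Ω ℤ} (hB : IsInv G B)
    (a x : Ω) : ∑ y : Ω, B x y = ∑ y : Ω, B a y := by
  obtain ⟨g, rfl⟩ := exists_smul_eq G a x
  symm
  refine Fintype.sum_equiv (MulAction.toPerm g) _ _ (fun z => ?_)
  rw [MulAction.toPerm_apply, hB]

end inv

section coef

variable {G : Type*} [Group G] [Fintype G] {Ω : Type*} [Fintype Ω] [MulAction G Ω]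
  [IsPretransitive G Ω] [DecidableEq Ω]

omit [Fintype Ω] [IsPretransitive G Ω] [DecidableEq Ω] in
theorem coef_add (a : Ω) (B B' : Matrix Ω Ω ℤ) (χ : G → ℂ) :
    coef a (B + B') χ = coef a B χ + coef a B' χ := by
  unfold coef
  rw [← mul_add, ← Finset.sum_add_distrib]
  congr 1
  refine Finset.sum_congr rfl (fun g _ => ?_)
  rw [Matrix.add_apply, Int.cast_add, add_mul]

omit [Fintype Ω] [IsPretransitive G Ω] [DecidableEq Ω] in
theorem coef_zsmul (a : Ω) (z : ℤ) (B : Matrix Ω Ω ℤ) (χ : G → ℂ) :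
    coef a (z • B) χ = (z : ℂ) * coef a B χ := by
  unfold coef
  have h : ∀ g : G, (((z • B) a (g • a) : ℤ) : ℂ) * χ g =
      (z : ℂ) * ((B a (g • a) : ℂ) * χ g) := by
    intro g
    rw [Matrix.smul_apply, smul_eq_mul, Int.cast_mul, mul_assoc]
  rw [Finset.sum_congr rfl (fun g _ => h g), ← Finset.mul_sum]
  ring

/-- the coefficient of the identity kernel is the (conjugate) multiplicity -/
theorem coef_one_mat (a : Ω) {χ : G → ℂ} (hχ : Cfsg.IsClassFunction G χ) :
    coef a (1 : Matrix Ω Ω ℤ) χ = conj (Cfsg.classInner (permChar G Ω) χ) := by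
  classical
  have : Fintype (stabilizer G a) := Fintype.ofFinite _
  unfold coef
  rw [classInner_permChar a hχ, sum_one_mat G a χ, map_mul, map_sum]
  congr 1
  · simp
  · refine Finset.sum_congr rfl (fun h _ => ?_)
    simp

omit [Fintype Ω] [IsPretransitive G Ω] [DecidableEq Ω] in
/-- the coefficient of the all-ones kernel -/
theorem coef_allOnes (a : Ω) (χ : G → ℂ) :
    coef a (fun _ _ => 1 : Matrix Ω Ω ℤ) χ =
      (Nat.card (stabilizer G a) : ℂ)⁻¹ * ((Nat.card G : ℂ) *
        conj (Cfsg.classInner (fun _ : G => (1 : ℂ)) χ)) := by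
  unfold coef Cfsg.classInner
  congr 1
  rw [map_mul, map_sum, ← mul_assoc]
  have hG : (Nat.card G : ℂ) ≠ 0 := card_ne_zero'
  have : (Nat.card G : ℂ) * conj ((Nat.card G : ℂ)⁻¹) = 1 := by
    rw [map_inv₀, Complex.conj_natCast, mul_inv_cancel₀ hG]
  rw [this, one_mul]
  refine Finset.sum_congr rfl (fun g _ => ?_)
  simp

/-- at a constituent of multiplicity one every Hecke operator is a multiple of the projection -/
theorem heckeHom_eq_coef_smul (a : Ω) {V : Type*} [AddCommGroup V] [Module ℂ V]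
    [FiniteDimensional ℂ V] (ρ : Representation ℂ G V)
    (h1 : Cfsg.classInner (permChar G Ω) ρ.character = 1) {B : Matrix Ω Ω ℤ} (hB : IsInv G B) :
    heckeHom ρ a B = coef a B ρ.character • heckeHom ρ a (1 : Matrix Ω Ω ℤ) := by
  have hP := heckeHom_one_idem ρ a
  have htr := Cfsg.Agent.S0717.trace_heckeHom_one ρ a
  rw [h1, RingHom.map_one] at htr
  have e1 := heckeHom_mul ρ a 1 B hB
  rw [one_mul] at e1
  have e2 := heckeHom_mul ρ a B 1 one_invariant
  rw [mul_one] at e2
  have key := Cfsg.Agent.S0717.rank_one_lemma _ _ hP htr e1.symm e2.symm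
  rw [trace_heckeHom] at key
  exact key

/-- multiplicativity of the coefficient at a constituent of multiplicity one -/
theorem coef_mul (a : Ω) {χ : G → ℂ} (hχ : Cfsg.IsIrrCharacter G χ)
    (h1 : Cfsg.classInner (permChar G Ω) χ = 1) {B B' : Matrix Ω Ω ℤ} (hB : IsInv G B)
    (hB' : IsInv G B') : coef a (B * B') χ = coef a B χ * coef a B' χ := by
  obtain ⟨n, ρ, hirr, rfl⟩ := hχ
  have hP := heckeHom_one_idem ρ a
  have htr := Cfsg.Agent.S0717.trace_heckeHom_one ρ a
  rw [h1, RingHom.map_one] at htr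
  have e := heckeHom_mul ρ a B B' hB'
  rw [heckeHom_eq_coef_smul a ρ h1 hB, heckeHom_eq_coef_smul a ρ h1 hB', smul_mul_smul_comm,
    hP.eq] at e
  have e' := congrArg (LinearMap.trace ℂ _) e
  rw [trace_heckeHom, map_smul, htr, smul_eq_mul, mul_one] at e'
  exact e'

end coef

end Cfsg.Agent.Lib.Helper12.Coef
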