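import Mathlib

set_option autoImplicit false
set_option linter.unusedSectionVars false

/-!
A symmetric difference set in `ZMod p` containing `0` is `{0}` (group algebra over `ZMod p`,
Frobenius), and the consequence for two actions of a group on sets of size `p` in which an element
of order `p` and an involution inverting it have the same coordinates: the stabiliser of a point
of the first set fixes a point of the second.
-/

namespace Cfsg.Agent.Lib.Helper12.DiffSet

open AddMonoidAlgebra in
/-- a symmetric difference set `D ∋ 0` in `ZMod p`, `p` odd, `|D| < p`, is `{0}` -/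
theorem diffset_trivial {p : ℕ} [Fact p.Prime] (hp2 : p ≠ 2) (D : Finset (ZMod p)) (h0 : 0 ∈ D)
    (hneg : ∀ d, d ∈ D → -d ∈ D) (hcard : D.card < p) (lam : ℕ)
    (hlam : ∀ d : ZMod p, d ≠ 0 → (D.filter (fun z => z + d ∈ D)).card = lam) : D = {0} := by
  classical
  have hp : p.Prime := Fact.out
  have hchar : CharP (AddMonoidAlgebra (ZMod p) (ZMod p)) p := by
    apply charP_of_injective_algebraMap (R := ZMod p)
    rw [AddMonoidAlgebra.coe_algebraMap]
    exact (AddMonoidAlgebra.single_right_injective).comp (fun x y h => h)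
  obtain ⟨a, ha⟩ : ∃ a : AddMonoidAlgebra (ZMod p) (ZMod p), a = ∑ d ∈ D, single d 1 := ⟨_, rfl⟩
  obtain ⟨J, hJ⟩ : ∃ J : AddMonoidAlgebra (ZMod p) (ZMod p), J = ∑ c : ZMod p, single c 1 :=
    ⟨_, rfl⟩
  have hcoeff_a : ∀ c, a.coeff c = if c ∈ D then 1 else 0 := by
    intro c
    rw [ha, coeff_sum, Finsupp.finsetSum_apply]
    simp_rw [coeff_single, Finsupp.single_apply]
    rw [Finset.sum_ite_eq']
  have hcoeff_J : ∀ c, J.coeff c = 1 := by
    intro c
    rw [hJ, coeff_sum, Finsupp.finsetSum_apply]
    simp_rw [coeff_single, Finsupp.single_apply]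
    rw [Finset.sum_ite_eq', if_pos (Finset.mem_univ _)]
  have hcoeff_one : ∀ c, (1 : AddMonoidAlgebra (ZMod p) (ZMod p)).coeff c =
      if c = 0 then 1 else 0 := by
    intro c
    rw [one_def, coeff_single, Finsupp.single_apply]
    by_cases hc : c = 0
    · rw [if_pos hc, if_pos hc.symm]
    · rw [if_neg hc, if_neg (Ne.symm hc)]
  have hap : a ^ p = (D.card : ZMod p) • (1 : AddMonoidAlgebra (ZMod p) (ZMod p)) := by
    rw [ha, sum_pow_char p D]
    have h1 : ∀ d ∈ D, (single d (1 : ZMod p) : AddMonoidAlgebra (ZMod p) (ZMod p)) ^ p = 1 := by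
      intro d _
      rw [single_pow, one_pow, one_def]
      congr 1
      rw [nsmul_eq_mul, CharP.cast_eq_zero, zero_mul]
    rw [Finset.sum_congr rfl h1, Finset.sum_const, Nat.cast_smul_eq_nsmul]
  have haa : a * a = ((D.card : ZMod p) - lam) • (1 : AddMonoidAlgebra (ZMod p) (ZMod p)) +
      (lam : ZMod p) • J := by
    have hmul : a * a = ∑ d1 ∈ D, ∑ d2 ∈ D, single (d1 + d2) 1 := by
      rw [ha, Finset.sum_mul_sum]
      refine Finset.sum_congr rfl (fun d1 _ => Finset.sum_congr rfl (fun d2 _ => ?_))
      rw [single_mul_single, mul_one]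
    apply coeff_injective
    ext c
    rw [coeff_add, Finsupp.add_apply, coeff_smul, coeff_smul, Finsupp.smul_apply,
      Finsupp.smul_apply, hcoeff_J, hcoeff_one, hmul, coeff_sum, Finsupp.finsetSum_apply]
    have h1 : ∀ d1 ∈ D, (∑ d2 ∈ D, (single (d1 + d2) (1 : ZMod p) :
        AddMonoidAlgebra (ZMod p) (ZMod p))).coeff c = if c - d1 ∈ D then 1 else 0 := by
      intro d1 _
      rw [coeff_sum, Finsupp.finsetSum_apply]
      simp_rw [coeff_single, Finsupp.single_apply]
      have h2 : ∀ d2 : ZMod p, (d1 + d2 = c) = (d2 = c - d1) := by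
        intro d2
        apply propext
        constructor
        · intro h; rw [← h]; ring
        · intro h; rw [h]; ring
      simp_rw [h2]
      rw [Finset.sum_ite_eq']
    rw [Finset.sum_congr rfl h1, Finset.sum_boole]
    have h3 : D.filter (fun z => c - z ∈ D) = D.filter (fun z => z + (-c) ∈ D) := by
      apply Finset.filter_congr
      intro z _
      constructor
      · intro h
        have := hneg _ h
        rw [neg_sub] at this
        rw [← sub_eq_add_neg]
        exact this
      · intro h
        have := hneg _ h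
        rw [neg_add, neg_neg, add_comm, ← sub_eq_add_neg] at this
        exact this
    rw [h3]
    by_cases hc : c = 0
    · rw [if_pos hc, hc, neg_zero]
      have h4 : D.filter (fun z => z + 0 ∈ D) = D := by
        apply Finset.filter_true_of_mem
        intro z hz
        rw [add_zero]
        exact hz
      rw [h4]
      simp
    · rw [if_neg hc, hlam (-c) (neg_ne_zero.mpr hc)]
      simp
  have hJJ : J * J = 0 := by
    have h1 : J * J = ∑ _x : ZMod p, J := by
      rw [hJ, Finset.sum_mul_sum]
      refine Finset.sum_congr rfl (fun x _ => ?_)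
      have h2 : ∀ y : ZMod p, (single x (1 : ZMod p) : AddMonoidAlgebra (ZMod p) (ZMod p)) *
          single y 1 = single (x + y) 1 := by
        intro y
        rw [single_mul_single, mul_one]
      simp_rw [h2]
      exact Equiv.sum_comp (Equiv.addLeft x)
        (fun y => (single y (1 : ZMod p) : AddMonoidAlgebra (ZMod p) (ZMod p)))
    rw [h1, Finset.sum_const, Finset.card_univ, ZMod.card, nsmul_eq_mul, CharP.cast_eq_zero,
      zero_mul]
  have hpow : ∀ m : ℕ, ∃ U V : ZMod p,
      (a * a) ^ m = U • (1 : AddMonoidAlgebra (ZMod p) (ZMod p)) + V • J := by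
    intro m
    induction m with
    | zero => exact ⟨1, 0, by simp⟩
    | succ m ih =>
      obtain ⟨U, V, h⟩ := ih
      refine ⟨U * ((D.card : ZMod p) - lam), U * lam + V * ((D.card : ZMod p) - lam), ?_⟩
      rw [pow_succ, h, haa]
      simp only [add_mul, mul_add, smul_mul_smul_comm, mul_one, one_mul, hJJ, smul_zero, add_zero]
      module
  have hodd : Odd p := hp.eq_two_or_odd'.resolve_left hp2
  obtain ⟨j, hj⟩ := hodd
  obtain ⟨U, V, hUV⟩ := hpow (j + 1)
  have h1 : (D.card : ZMod p) • a = U • (1 : AddMonoidAlgebra (ZMod p) (ZMod p)) + V • J := by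
    rw [← hUV, ← pow_two, ← pow_mul]
    have h2 : 2 * (j + 1) = p + 1 := by omega
    rw [h2, pow_succ, hap, smul_mul_assoc, one_mul]
  have h2 : ∀ d : ZMod p, d ≠ 0 → (D.card : ZMod p) * (if d ∈ D then 1 else 0) = V := by
    intro d hd
    have h3 := congrArg (fun x : AddMonoidAlgebra (ZMod p) (ZMod p) => x.coeff d) h1
    simp only [coeff_smul, coeff_add, Finsupp.smul_apply, Finsupp.add_apply, hcoeff_a, hcoeff_J,
      hcoeff_one, smul_eq_mul, if_neg hd, mul_zero, zero_add, mul_one] at h3
    exact h3
  have hk : (D.card : ZMod p) ≠ 0 := by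
    intro h
    rw [ZMod.natCast_eq_zero_iff] at h
    have hpos : 0 < D.card := Finset.card_pos.mpr ⟨0, h0⟩
    have := Nat.le_of_dvd hpos h
    omega
  by_contra hD
  obtain ⟨d₁, hd₁, hd₁0⟩ : ∃ d₁ ∈ D, d₁ ≠ 0 := by
    by_contra hcon
    push Not at hcon
    apply hD
    ext z
    rw [Finset.mem_singleton]
    constructor
    · exact hcon z
    · rintro rfl
      exact h0
  have hV : V = D.card := by
    rw [← h2 d₁ hd₁0, if_pos hd₁, mul_one]
  have hall : ∀ d : ZMod p, d ∈ D := by
    intro d
    by_cases hd : d = 0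
    · rw [hd]; exact h0
    · by_contra hdD
      have h3 := h2 d hd
      rw [if_neg hdD, mul_zero, hV] at h3
      exact hk h3.symm
  have huniv : D = Finset.univ := Finset.eq_univ_of_forall hall
  rw [huniv, Finset.card_univ, ZMod.card] at hcard
  omega

section actions

variable {G : Type*} [Group G] [Finite G] {X Y : Type*} [MulAction G X] [MulAction G Y]
  {p : ℕ} [Fact p.Prime]

/-- two actions on sets of size `p` with common coordinates for an element of order `p` and an
involution inverting it: if the first is doubly transitive and `p ^ 2 ∤ |G|`, the stabiliser of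
the point `0` of the first set fixes the point `0` of the second -/
theorem fix_of_coords (hp2 : p ≠ 2) (hsq : ¬ p ^ 2 ∣ Nat.card G)
    (h2 : MulAction.IsMultiplyPretransitive G X 2)
    (e : X ≃ ZMod p) (e' : Y ≃ ZMod p) (t s : G)
    (het : ∀ a, e (t • a) = e a + 1) (hes : ∀ a, e (s • a) = - e a)
    (he't : ∀ y, e' (t • y) = e' y + 1) (he's : ∀ y, e' (s • y) = - e' y) :
    ∀ g : G, g • e.symm 0 = e.symm 0 → g • e'.symm 0 = e'.symm 0 := by
  classical
  have hp : p.Prime := Fact.out
  obtain ⟨R, hRdef⟩ : ∃ R : ZMod p → ZMod p → Prop,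
      R = fun x y => ∃ g : G, e (g • e.symm 0) = x ∧ e' (g • e'.symm 0) = y := ⟨_, rfl⟩
  have hRg : ∀ (g : G) (x y : ZMod p), R x y → R (e (g • e.symm x)) (e' (g • e'.symm y)) := by
    intro g x y h
    rw [hRdef] at h ⊢
    obtain ⟨g₁, h1, h2⟩ := h
    refine ⟨g * g₁, ?_, ?_⟩
    · rw [mul_smul, ← h1, Equiv.symm_apply_apply]
    · rw [mul_smul, ← h2, Equiv.symm_apply_apply]
  have hRt : ∀ x y, R x y → R (x + 1) (y + 1) := by
    intro x y h
    have := hRg t x y h
    rw [het, he't, Equiv.apply_symm_apply, Equiv.apply_symm_apply] at this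
    exact this
  have het' : ∀ a, e (t⁻¹ • a) = e a - 1 := by
    intro a
    have := het (t⁻¹ • a)
    rw [smul_inv_smul] at this
    rw [this]
    ring
  have he't' : ∀ y, e' (t⁻¹ • y) = e' y - 1 := by
    intro y
    have := he't (t⁻¹ • y)
    rw [smul_inv_smul] at this
    rw [this]
    ring
  have hRt' : ∀ x y, R (x + 1) (y + 1) → R x y := by
    intro x y h
    have := hRg t⁻¹ _ _ h
    rw [het', he't', Equiv.apply_symm_apply, Equiv.apply_symm_apply, add_sub_cancel_right,
      add_sub_cancel_right] at this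
    exact this
  have hRn : ∀ (n : ℕ) (x y : ZMod p), R x y ↔ R (x + n) (y + n) := by
    intro n
    induction n with
    | zero => intro x y; simp
    | succ n ih =>
      intro x y
      rw [ih x y]
      push_cast
      rw [← add_assoc, ← add_assoc]
      exact ⟨hRt _ _, hRt' _ _⟩
  have hRs : ∀ x y, R x y → R (-x) (-y) := by
    intro x y h
    have := hRg s x y h
    rw [hes, he's, Equiv.apply_symm_apply, Equiv.apply_symm_apply] at this
    exact this
  obtain ⟨D, hDdef⟩ : ∃ D : Finset (ZMod p), D = Finset.univ.filter (fun d => R 0 d) := ⟨_, rfl⟩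
  have hDmem : ∀ d, d ∈ D ↔ R 0 d := by
    intro d
    rw [hDdef, Finset.mem_filter]
    exact ⟨fun h => h.2, fun h => ⟨Finset.mem_univ _, h⟩⟩
  have hRD : ∀ x y, R x y ↔ y - x ∈ D := by
    intro x y
    rw [hDmem, hRn (-x).val x y, ZMod.natCast_zmod_val, add_neg_cancel, sub_eq_add_neg]
  have hD0 : 0 ∈ D := by
    rw [hDmem, hRdef]
    exact ⟨1, by rw [one_smul, Equiv.apply_symm_apply], by rw [one_smul, Equiv.apply_symm_apply]⟩
  have hDneg : ∀ d, d ∈ D → -d ∈ D := by
    intro d hd
    rw [hDmem] at hd ⊢
    have := hRs 0 d hd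
    rw [neg_zero] at this
    exact this
  have hcard : D.card < p := by
    by_contra hcon
    have huniv : D = Finset.univ := by
      apply Finset.eq_univ_of_card
      have h1 : D.card ≤ (Finset.univ : Finset (ZMod p)).card := Finset.card_le_univ D
      rw [Finset.card_univ, ZMod.card] at h1
      rw [ZMod.card]
      omega
    have hall : ∀ x y, R x y := by
      intro x y
      rw [hRD, huniv]
      exact Finset.mem_univ _
    apply hsq
    have horb : MulAction.orbit G ((e.symm 0, e'.symm 0) : X × Y) = Set.univ := by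
      apply Set.eq_univ_of_forall
      rintro ⟨x, y⟩
      have h1 := hall (e x) (e' y)
      rw [hRdef] at h1
      obtain ⟨g, hg1, hg2⟩ := h1
      refine ⟨g, ?_⟩
      show (g • e.symm 0, g • e'.symm 0) = (x, y)
      rw [e.injective hg1, e'.injective hg2]
    have hidx := MulAction.index_stabilizer G ((e.symm 0, e'.symm 0) : X × Y)
    rw [horb, Set.ncard_univ, Nat.card_prod, Nat.card_congr e, Nat.card_congr e', Nat.card_zmod]
      at hidx
    rw [pow_two, ← hidx]
    exact Subgroup.index_dvd_card _
  -- the design property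
  have hN : ∀ x₁ x₂ x₁' x₂' : ZMod p, x₁ ≠ x₂ → x₁' ≠ x₂' →
      (Finset.univ.filter (fun y => R x₁ y ∧ R x₂ y)).card ≤
        (Finset.univ.filter (fun y => R x₁' y ∧ R x₂' y)).card := by
    intro x₁ x₂ x₁' x₂' hx hx'
    rw [MulAction.is_two_pretransitive_iff] at h2
    obtain ⟨g, hg1, hg2⟩ := h2 (a := e.symm x₁) (b := e.symm x₂) (c := e.symm x₁')
      (d := e.symm x₂') (fun h => hx (e.symm.injective h)) (fun h => hx' (e.symm.injective h))
    apply Finset.card_le_card_of_injOn (fun y => e' (g • e'.symm y))
    · intro y hy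
      have hy' := (Finset.mem_filter.mp hy).2
      apply Finset.mem_coe.mpr
      rw [Finset.mem_filter]
      refine ⟨Finset.mem_univ _, ?_, ?_⟩
      · have := hRg g _ _ hy'.1
        rw [hg1, Equiv.apply_symm_apply] at this
        exact this
      · have := hRg g _ _ hy'.2
        rw [hg2, Equiv.apply_symm_apply] at this
        exact this
    · intro y _ y' _ h
      have h1 := e'.injective h
      exact e'.symm.injective (smul_left_cancel g h1)
  have hfilter : ∀ d : ZMod p, Finset.univ.filter (fun y => R 0 y ∧ R (-d) y) =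
      D.filter (fun z => z + d ∈ D) := by
    intro d
    ext y
    rw [Finset.mem_filter, Finset.mem_filter, hRD, hRD, sub_zero, sub_neg_eq_add]
    exact ⟨fun h => h.2, fun h => ⟨Finset.mem_univ _, h⟩⟩
  have h10 : (1 : ZMod p) ≠ 0 := one_ne_zero
  have hlam : ∀ d : ZMod p, d ≠ 0 →
      (D.filter (fun z => z + d ∈ D)).card = (D.filter (fun z => z + 1 ∈ D)).card := by
    intro d hd
    rw [← hfilter, ← hfilter]
    apply le_antisymm
    · exact hN _ _ _ _ (fun h => hd (by rw [← neg_eq_zero]; exact h.symm))
        (fun h => h10 (by rw [← neg_eq_zero]; exact h.symm))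
    · exact hN _ _ _ _ (fun h => h10 (by rw [← neg_eq_zero]; exact h.symm))
        (fun h => hd (by rw [← neg_eq_zero]; exact h.symm))
  have hD := diffset_trivial hp2 D hD0 hDneg hcard _ hlam
  intro g hg
  have h1 : R (e (g • e.symm 0)) (e' (g • e'.symm 0)) := by
    rw [hRdef]
    exact ⟨g, rfl, rfl⟩
  rw [hRD, hg, Equiv.apply_symm_apply, sub_zero, hD, Finset.mem_singleton] at h1
  apply e'.injective
  rw [h1, Equiv.apply_symm_apply]

end actions

/-- a subgroup contained in another of the same index (finite group) -/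
theorem eq_of_le_of_index_eq {G : Type*} [Group G] [Finite G] {H K : Subgroup G} (h : H ≤ K)
    (hi : H.index = K.index) : H = K := by
  apply le_antisymm h
  rw [← Subgroup.relIndex_eq_one]
  have h1 := Subgroup.relIndex_mul_index h
  have h2 : K.index ≠ 0 := Subgroup.index_ne_zero_of_finite
  rw [hi] at h1
  exact Nat.eq_of_mul_eq_mul_right (Nat.pos_of_ne_zero h2) (by rw [h1, one_mul])

end Cfsg.Agent.Lib.Helper12.DiffSet
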