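import Mathlib

set_option autoImplicit false

/-!
Abstract lemmas on finite groups in which every abelian subgroup is cyclic (`AC`) and
which have at most one involution (`UI`): a non-trivial commutator that is central in the
subgroup generated by its two arguments is an involution, and suitable powers of the two
arguments generate a quaternion group of order eight.
-/

namespace Cfsg.Agent.Lib.Helper12.Fpf

/-- every abelian subgroup is cyclic -/
def AC (G : Type*) [Group G] : Prop :=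
  ∀ A : Subgroup G, IsMulCommutative A → IsCyclic A

/-- at most one involution -/
def UI (G : Type*) [Group G] : Prop :=
  ∀ a b : G, a * a = 1 → a ≠ 1 → b * b = 1 → b ≠ 1 → a = b

variable {G : Type*} [Group G]

theorem mem_powers_of_pow_orderOf [Finite G] (hAC : AC G) {u v : G} (huv : Commute u v)
    (hu : u ^ orderOf v = 1) : ∃ k : ℕ, u = v ^ k := by
  classical
  set K : Subgroup G := Subgroup.closure {u, v} with hK
  have hKc : IsMulCommutative K := by
    apply Subgroup.isMulCommutative_closure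
    intro a ha b hb
    simp only [Set.mem_insert_iff, Set.mem_singleton_iff] at ha hb
    rcases ha with rfl | rfl <;> rcases hb with rfl | rfl
    · rfl
    · exact huv.eq
    · exact huv.eq.symm
    · rfl
  have hcyc : IsCyclic K := hAC K hKc
  have huK : u ∈ K := Subgroup.subset_closure (by simp)
  have hvK : v ∈ K := Subgroup.subset_closure (by simp)
  let _ : Fintype K := Fintype.ofFinite K
  have hn : 0 < orderOf v := orderOf_pos v
  have hle := IsCyclic.card_pow_eq_one_le (α := K) hn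
  have hord : orderOf (⟨v, hvK⟩ : K) = orderOf v := by
    rw [← Subgroup.orderOf_coe]
  let T : Finset K := (Finset.range (orderOf v)).image (fun i => (⟨v, hvK⟩ : K) ^ i)
  have hTcard : T.card = orderOf v := by
    rw [Finset.card_image_of_injOn, Finset.card_range]
    intro i hi j hj hij
    apply pow_injOn_Iio_orderOf (x := (⟨v, hvK⟩ : K))
    · simpa [hord] using hi
    · simpa [hord] using hj
    · exact hij
  have hTsub : T ⊆ Finset.univ.filter (fun a : K => a ^ orderOf v = 1) := by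
    intro a ha
    obtain ⟨i, -, rfl⟩ := Finset.mem_image.mp ha
    simp only [Finset.mem_filter, Finset.mem_univ, true_and]
    rw [← pow_mul, mul_comm, pow_mul, ← hord, pow_orderOf_eq_one, one_pow]
  have hTeq : T = Finset.univ.filter (fun a : K => a ^ orderOf v = 1) := by
    apply Finset.eq_of_subset_of_card_le hTsub
    rw [hTcard]
    convert hle
  have hu' : (⟨u, huK⟩ : K) ∈ T := by
    rw [hTeq]
    simp only [Finset.mem_filter, Finset.mem_univ, true_and]
    exact Subtype.ext hu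
  obtain ⟨i, -, hi⟩ := Finset.mem_image.mp hu'
  refine ⟨i, ?_⟩
  have := congrArg Subtype.val hi
  simpa using this.symm

/-- `x ^ k * y = c ^ k * y * x ^ k` -/
theorem pow_left_rel {x y c : G} (h : x * y = c * y * x) (hcx : Commute c x) (k : ℕ) :
    x ^ k * y = c ^ k * y * x ^ k := by
  induction k with
  | zero => simp
  | succ k ih =>
    have h1 : x ^ k * c = c * x ^ k := (hcx.pow_right k).eq.symm
    calc x ^ (k + 1) * y = x ^ k * (x * y) := by rw [pow_succ, mul_assoc]
    _ = x ^ k * c * y * x := by rw [h]; simp only [mul_assoc]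
    _ = c * (x ^ k * y) * x := by rw [h1]; simp only [mul_assoc]
    _ = c * (c ^ k * y * x ^ k) * x := by rw [ih]
    _ = c ^ (k + 1) * y * x ^ (k + 1) := by rw [pow_succ', pow_succ]; simp only [mul_assoc]

/-- `x * y ^ k = c ^ k * y ^ k * x` -/
theorem pow_right_rel {x y c : G} (h : x * y = c * y * x) (hcy : Commute c y) (k : ℕ) :
    x * y ^ k = c ^ k * y ^ k * x := by
  have h1 : SemiconjBy x y (c * y) := h
  have h2 := h1.pow_right k
  rw [hcy.mul_pow] at h2
  exact h2

theorem pow_pow_rel {x y c : G} (h : x * y = c * y * x) (hcx : Commute c x) (hcy : Commute c y)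
    (k l : ℕ) : x ^ k * y ^ l = c ^ (k * l) * y ^ l * x ^ k := by
  have h1 := pow_left_rel h hcx k
  have h2 := pow_right_rel h1 (hcy.pow_left k) l
  rw [h2, pow_mul]

/-- `(y * x) ^ n = c ^ (∑ i < n, i) * y ^ n * x ^ n` -/
theorem mul_pow_rel {x y c : G} (h : x * y = c * y * x) (hcx : Commute c x) (hcy : Commute c y)
    (n : ℕ) : (y * x) ^ n = c ^ (∑ i ∈ Finset.range n, i) * y ^ n * x ^ n := by
  induction n with
  | zero => simp
  | succ n ih =>
    have h1 := pow_left_rel h hcx n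
    have h2 : y ^ n * c ^ n = c ^ n * y ^ n := ((hcy.pow_left n).pow_right n).eq.symm
    calc (y * x) ^ (n + 1) = c ^ (∑ i ∈ Finset.range n, i) * y ^ n * x ^ n * (y * x) := by
          rw [pow_succ, ih]
    _ = c ^ (∑ i ∈ Finset.range n, i) * y ^ n * (x ^ n * y) * x := by simp only [mul_assoc]
    _ = c ^ (∑ i ∈ Finset.range n, i) * (y ^ n * c ^ n) * y * x ^ n * x := by
          rw [h1]; simp only [mul_assoc]
    _ = c ^ (∑ i ∈ Finset.range (n + 1), i) * y ^ (n + 1) * x ^ (n + 1) := by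
          rw [h2, Finset.sum_range_succ, pow_add, pow_succ, pow_succ]; simp only [mul_assoc]

theorem eq_one_of_commute {x y c : G} (h : x * y = c * y * x) (hxy : Commute x y) : c = 1 := by
  have h1 : c * (y * x) = 1 * (y * x) := by
    rw [one_mul, ← mul_assoc, ← h, hxy.eq]
  exact mul_right_cancel h1

theorem swap_rel {x y c : G} (h : x * y = c * y * x) : y * x = c⁻¹ * x * y := by
  rw [mul_assoc, h]; group

theorem odd_pow_invol {z : G} (hz : z * z = 1) {k : ℕ} (hk : Odd k) : z ^ k = z := by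
  obtain ⟨j, rfl⟩ := hk
  rw [pow_succ, pow_mul, pow_two, hz, one_pow, one_mul]

theorem even_pow_invol {z : G} (hz : z * z = 1) {k : ℕ} (hk : Even k) : z ^ k = 1 := by
  obtain ⟨j, rfl⟩ := hk
  rw [← two_mul, pow_mul, pow_two, hz, one_pow]

theorem sq_cases (hUI : UI G) {z w : G} (hz1 : z ≠ 1) (hz : z * z = 1) (hw : w * w = 1) :
    w = 1 ∨ w = z := by
  by_cases h : w = 1
  · left; exact h
  · right; exact hUI w z hw h hz hz1

/-- core of the odd case: `x` an `r`-element, `y ^ r` of order dividing that of `x` -/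
theorem odd_core [Finite G] (hAC : AC G) {r : ℕ} (hr : r.Prime) (hodd : r ≠ 2) {x y c : G}
    (h : x * y = c * y * x) (hcx : Commute c x) (hcy : Commute c y) (hc : c ≠ 1)
    (hcr : c ^ r = 1) (hy : (y ^ r) ^ orderOf x = 1) (hxr : ∃ a : ℕ, orderOf x = r ^ a) :
    False := by
  have : Fact r.Prime := ⟨hr⟩
  have h1 : Commute (y ^ r) x := by
    have := pow_right_rel h hcy r
    rw [hcr, one_mul] at this
    exact this.symm
  obtain ⟨k, hk⟩ := mem_powers_of_pow_orderOf hAC h1 hy
  by_cases hrk : r ∣ k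
  · obtain ⟨j, rfl⟩ := hrk
    set n := orderOf x with hn
    have hnpos : 0 < n := orderOf_pos x
    set e := (n - 1) * j with he
    have hX : x ^ e * y = c ^ e * y * x ^ e := pow_left_rel h hcx e
    have hγx : Commute (c ^ e) (x ^ e) := (hcx.pow_left e).pow_right e
    have hγy : Commute (c ^ e) y := hcy.pow_left e
    have hP := mul_pow_rel hX hγx hγy r
    have htri : ∃ q, (∑ i ∈ Finset.range r, i) = r * q := by
      have h2 := Finset.sum_range_id_mul_two r
      have hodd' : Odd r := hr.odd_of_ne_two hodd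
      obtain ⟨q, hq⟩ := hodd'
      refine ⟨q, ?_⟩
      have h3 : r - 1 = 2 * q := by omega
      rw [h3] at h2
      have h4 : (∑ i ∈ Finset.range r, i) * 2 = (r * q) * 2 := by rw [h2]; ring
      exact Nat.eq_of_mul_eq_mul_right (by norm_num) h4
    obtain ⟨q, hq⟩ := htri
    have h5 : (c ^ e) ^ (∑ i ∈ Finset.range r, i) = 1 := by
      have h8 : e * (r * q) = r * (e * q) := by ring
      rw [hq, ← pow_mul, h8, pow_mul, hcr, one_pow]
    have h6 : y ^ r * (x ^ e) ^ r = 1 := by
      rw [hk, ← pow_mul, ← pow_add]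
      have h7 : r * j + e * r = n * (r * j) := by
        rw [he]
        obtain ⟨n', hn'⟩ : ∃ n', n = n' + 1 := ⟨n - 1, by omega⟩
        rw [hn']
        simp only [Nat.add_sub_cancel]
        ring
      rw [h7, pow_mul, hn, pow_orderOf_eq_one, one_pow]
    have hw : (y * x ^ e) ^ r = 1 := by
      rw [hP, h5, one_mul, h6]
    have hord : orderOf c = r := orderOf_eq_prime hcr hc
    have hwc : Commute (y * x ^ e) c := (hcy.symm).mul_left ((hcx.symm).pow_left e)
    have hw' : (y * x ^ e) ^ orderOf c = 1 := by rw [hord]; exact hw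
    obtain ⟨i, hi⟩ := mem_powers_of_pow_orderOf hAC hwc hw'
    have hy' : y = c ^ i * (x ^ e)⁻¹ := by
      rw [← hi]; group
    have hcomm : Commute x y := by
      rw [hy']
      exact ((hcx.pow_left i).symm).mul_right ((Commute.refl x).pow_right e).inv_right
    exact hc (eq_one_of_commute h hcomm)
  · obtain ⟨a, ha⟩ := hxr
    have hcop : Nat.Coprime k (orderOf x) := by
      rw [ha]
      exact Nat.Coprime.pow_right a (((Nat.Prime.coprime_iff_not_dvd hr).2 hrk).symm)
    obtain ⟨m, hm⟩ := exists_pow_eq_self_of_coprime hcop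
    have hcomm : Commute x y := by
      rw [← hm, ← hk, ← pow_mul]
      exact (Commute.refl y).pow_left _
    exact hc (eq_one_of_commute h hcomm)

/-- a non-trivial commutator, central in the group generated by its arguments, does not have
odd prime order -/
theorem no_odd_comm [Finite G] (hAC : AC G) {r : ℕ} (hr : r.Prime) (hodd : r ≠ 2) {x y c : G}
    (h : x * y = c * y * x) (hcx : Commute c x) (hcy : Commute c y) (hc : c ≠ 1)
    (hcr : c ^ r = 1) : False := by
  have : Fact r.Prime := ⟨hr⟩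
  obtain ⟨a, m, hm, hxa⟩ := Nat.exists_eq_pow_mul_and_not_dvd (orderOf_pos x).ne' r hr.ne_one
  obtain ⟨b, m', hm', hyb⟩ := Nat.exists_eq_pow_mul_and_not_dvd (orderOf_pos y).ne' r hr.ne_one
  have hm0 : m ≠ 0 := fun h0 => hm (h0 ▸ dvd_zero r)
  have hm0' : m' ≠ 0 := fun h0 => hm' (h0 ▸ dvd_zero r)
  have h' : x ^ m * y ^ m' = c ^ (m * m') * y ^ m' * x ^ m := pow_pow_rel h hcx hcy m m'
  have hord : orderOf c = r := orderOf_eq_prime hcr hc
  have hc' : c ^ (m * m') ≠ 1 := by
    intro h1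
    have h2 : r ∣ m * m' := by
      rw [← hord]; exact orderOf_dvd_of_pow_eq_one h1
    rcases (Nat.Prime.dvd_mul hr).1 h2 with h3 | h3
    · exact hm h3
    · exact hm' h3
  have hcr' : (c ^ (m * m')) ^ r = 1 := by
    rw [← pow_mul, mul_comm, pow_mul, hcr, one_pow]
  have hox : orderOf (x ^ m) = r ^ a := by
    rw [orderOf_pow_of_dvd hm0 (hxa ▸ dvd_mul_left m _), hxa]
    exact Nat.mul_div_cancel _ (Nat.pos_of_ne_zero hm0)
  have hoy : orderOf (y ^ m') = r ^ b := by
    rw [orderOf_pow_of_dvd hm0' (hyb ▸ dvd_mul_left m' _), hyb]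
    exact Nat.mul_div_cancel _ (Nat.pos_of_ne_zero hm0')
  have hcx' : Commute (c ^ (m * m')) (x ^ m) := (hcx.pow_left _).pow_right _
  have hcy' : Commute (c ^ (m * m')) (y ^ m') := (hcy.pow_left _).pow_right _
  rcases le_total b a with hba | hab
  · apply odd_core hAC hr hodd h' hcx' hcy' hc' hcr' _ ⟨a, hox⟩
    rw [← pow_mul]
    apply orderOf_dvd_iff_pow_eq_one.mp
    rw [hoy, hox]
    exact (pow_dvd_pow r hba).trans (dvd_mul_left _ _)
  · have h'' := swap_rel h'
    apply odd_core hAC hr hodd h'' hcy'.inv_left hcx'.inv_left (by simpa using hc')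
      (by rw [inv_pow, hcr', inv_one]) _ ⟨b, hoy⟩
    rw [← pow_mul]
    apply orderOf_dvd_iff_pow_eq_one.mp
    rw [hoy, hox]
    exact (pow_dvd_pow r hab).trans (dvd_mul_left _ _)

/-- if `x ^ 4 = 1` and `x` anticommutes with `y`, then `x * x = z` -/
theorem sq_eq_of_pow_four (hUI : UI G) {x y z : G} (h : x * y = z * y * x)
    (hzy : Commute z y) (hz1 : z ≠ 1) (hz : z * z = 1) (hx4 : (x * x) * (x * x) = 1) :
    x * x = z := by
  rcases sq_cases hUI hz1 hz hx4 with h1 | h1
  · exfalso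
    rcases sq_cases hUI hz1 hz h1 with h2 | h2
    · exact hz1 (eq_one_of_commute h (h2 ▸ Commute.one_left y))
    · exact hz1 (eq_one_of_commute h (h2 ▸ hzy))
  · exact h1

theorem orderOf_eq_four {y z : G} (hz1 : z ≠ 1) (hz : z * z = 1) (hy : y * y = z) :
    orderOf y = 4 := by
  have h1 : ¬ y ^ 2 ^ 1 = 1 := by
    rw [pow_one, pow_two, hy]; exact hz1
  have h2 : y ^ 2 ^ (1 + 1) = 1 := by
    have : y ^ 2 ^ (1 + 1) = (y * y) * (y * y) := by
      norm_num
      rw [show (4 : ℕ) = 2 + 2 from rfl, pow_add, pow_two]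
    rw [this, hy, hz]
  have := orderOf_eq_prime_pow (p := 2) h1 h2
  simpa using this

/-- Lemma A: if `y * y = z` and the 2-element `x` anticommutes with `y`, then `x * x = z` -/
theorem sq_eq_of_anticomm_sq [Finite G] (hAC : AC G) (hUI : UI G) {x y z : G}
    (h : x * y = z * y * x) (hzx : Commute z x) (hzy : Commute z y) (hz1 : z ≠ 1)
    (hz : z * z = 1) (hy : y * y = z) (hx : ∃ a : ℕ, orderOf x = 2 ^ a) : x * x = z := by
  apply sq_eq_of_pow_four hUI h hzy hz1 hz
  obtain ⟨a, ha⟩ := hx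
  have hoy : orderOf y = 4 := orderOf_eq_four hz1 hz hy
  by_contra hne
  have ha3 : 3 ≤ a := by
    by_contra hlt
    apply hne
    have h4 : x ^ 4 = 1 := by
      apply orderOf_dvd_iff_pow_eq_one.mp
      rw [ha]
      exact (pow_dvd_pow 2 (by omega : a ≤ 2))
    rw [← pow_two, ← pow_two, ← pow_mul]
    exact h4
  obtain ⟨a', rfl⟩ : ∃ a', a = a' + 3 := ⟨a - 3, by omega⟩
  -- x' = x ^ (2 ^ (a' + 1)) has order 4 and commutes with y
  have hrel := pow_left_rel h hzx (2 ^ (a' + 1))
  have hzp : z ^ 2 ^ (a' + 1) = 1 := by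
    apply even_pow_invol hz
    rw [pow_succ]; exact even_two.mul_left _
  rw [hzp, one_mul] at hrel
  have hcomm : Commute (x ^ 2 ^ (a' + 1)) y := hrel
  have hx'4 : (x ^ 2 ^ (a' + 1)) ^ orderOf y = 1 := by
    rw [hoy, ← pow_mul]
    have : 2 ^ (a' + 1) * 4 = 2 ^ (a' + 3) := by ring
    rw [this, ← ha, pow_orderOf_eq_one]
  obtain ⟨i, hi⟩ := mem_powers_of_pow_orderOf hAC hcomm hx'4
  have hx'2 : (x ^ 2 ^ (a' + 1)) ^ 2 ≠ 1 := by
    rw [← pow_mul]
    apply pow_ne_one_of_lt_orderOf (by positivity)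
    rw [ha]
    have : 2 ^ (a' + 1) * 2 = 2 ^ (a' + 2) := by ring
    rw [this]
    exact Nat.pow_lt_pow_right (by norm_num) (by omega)
  have hiodd : Odd i := by
    by_contra hev
    rw [Nat.not_odd_iff_even] at hev
    apply hx'2
    rw [hi, ← pow_mul, mul_comm, pow_mul, pow_two, hy]
    exact even_pow_invol hz hev
  have hcop : Nat.Coprime i (orderOf y) := by
    rw [hoy]
    have : Nat.Coprime i 2 := Nat.Coprime.symm (Nat.coprime_two_left.mpr hiodd)
    exact Nat.Coprime.pow_right 2 this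
  obtain ⟨m, hm⟩ := exists_pow_eq_self_of_coprime hcop
  have hcomm2 : Commute x y := by
    rw [← hm, ← hi, ← pow_mul]
    exact (Commute.refl x).pow_right _
  exact hz1 (eq_one_of_commute h hcomm2)

/-- Lemma B -/
theorem exists_sq_anticomm [Finite G] (hAC : AC G) (hUI : UI G) {x y z : G}
    (h : x * y = z * y * x) (hzx : Commute z x) (hzy : Commute z y) (hz1 : z ≠ 1)
    (hz : z * z = 1) (hy : (y * y) ^ orderOf x = 1) (hx : ∃ a : ℕ, orderOf x = 2 ^ a) :
    ∃ w : G, x * w = z * w * x ∧ w * w = z := by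
  obtain ⟨a, ha⟩ := hx
  have h1 : Commute (y * y) x := by
    have := pow_right_rel h hzy 2
    rw [pow_two, pow_two, hz, one_mul] at this
    exact this.symm
  obtain ⟨k, hk⟩ := mem_powers_of_pow_orderOf hAC h1 hy
  rcases Nat.even_or_odd k with hev | hodd
  · obtain ⟨s, rfl⟩ := hev
    set n := orderOf x with hn
    have hnpos : 0 < n := orderOf_pos x
    set t := (n - 1) * s with ht
    have hrel := pow_left_rel h hzx t
    have hw1 : x * (y * x ^ t) = z * (y * x ^ t) * x := by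
      calc x * (y * x ^ t) = (x * y) * x ^ t := by rw [mul_assoc]
      _ = z * y * x * x ^ t := by rw [h]
      _ = z * y * (x ^ t * x) := by rw [← pow_succ, pow_succ', mul_assoc]
      _ = z * (y * x ^ t) * x := by simp only [mul_assoc]
    have hw2 : (y * x ^ t) * (y * x ^ t) = z ^ t := by
      calc (y * x ^ t) * (y * x ^ t) = y * (x ^ t * y) * x ^ t := by simp only [mul_assoc]
      _ = y * (z ^ t * y * x ^ t) * x ^ t := by rw [hrel]
      _ = (y * z ^ t) * y * x ^ t * x ^ t := by simp only [mul_assoc]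
      _ = z ^ t * (y * y) * (x ^ t * x ^ t) := by
          rw [((hzy.pow_left t).eq).symm]; simp only [mul_assoc]
      _ = z ^ t * (x ^ (s + s) * (x ^ t * x ^ t)) := by rw [hk, mul_assoc]
      _ = z ^ t := by
          rw [← pow_add, ← pow_add]
          have h7 : s + s + (t + t) = n * (2 * s) := by
            rw [ht]
            obtain ⟨n', hn'⟩ : ∃ n', n = n' + 1 := ⟨n - 1, by omega⟩
            rw [hn']
            simp only [Nat.add_sub_cancel]
            ring
          rw [h7, pow_mul x, hn, pow_orderOf_eq_one, one_pow, mul_one]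
    refine ⟨y * x ^ t, hw1, ?_⟩
    rcases Nat.even_or_odd t with ht' | ht'
    · exfalso
      rw [even_pow_invol hz ht'] at hw2
      rcases sq_cases hUI hz1 hz hw2 with h2 | h2
      · rw [h2] at hw1
        exact hz1 (eq_one_of_commute hw1 (Commute.one_right x))
      · rw [h2] at hw1
        exact hz1 (eq_one_of_commute hw1 hzx.symm)
    · rw [hw2, odd_pow_invol hz ht']
  · exfalso
    have hcop : Nat.Coprime k (orderOf x) := by
      rw [ha]
      have : Nat.Coprime k 2 := Nat.Coprime.symm (Nat.coprime_two_left.mpr hodd)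
      exact Nat.Coprime.pow_right a this
    obtain ⟨m, hm⟩ := exists_pow_eq_self_of_coprime hcop
    have hcomm : Commute x y := by
      rw [← hm, ← hk]
      exact ((Commute.refl y).mul_left (Commute.refl y)).pow_left m
    exact hz1 (eq_one_of_commute h hcomm)

theorem sq_eq_of_anticomm_aux [Finite G] (hAC : AC G) (hUI : UI G) {x y z : G}
    (h : x * y = z * y * x) (hzx : Commute z x) (hzy : Commute z y) (hz1 : z ≠ 1)
    (hz : z * z = 1) (hx : ∃ a : ℕ, orderOf x = 2 ^ a) (hdvd : orderOf y ∣ orderOf x) :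
    x * x = z ∧ y * y = z := by
  have hy : (y * y) ^ orderOf x = 1 := by
    rw [← pow_two, ← pow_mul, mul_comm, pow_mul]
    rw [orderOf_dvd_iff_pow_eq_one.mp hdvd, one_pow]
  obtain ⟨w, hw1, hw2⟩ := exists_sq_anticomm hAC hUI h hzx hzy hz1 hz hy hx
  have hxx : x * x = z := sq_eq_of_anticomm_sq hAC hUI hw1 hzx (hw2 ▸ (Commute.refl w).mul_left (Commute.refl w)) hz1 hz hw2 hx
  refine ⟨hxx, ?_⟩
  have hox : orderOf x = 4 := orderOf_eq_four hz1 hz hxx
  have hy4 : y ^ 4 = 1 := orderOf_dvd_iff_pow_eq_one.mp (hox ▸ hdvd)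
  have h' : y * x = z * x * y := by
    have := swap_rel h
    rw [this]
    have hzinv : z⁻¹ = z := inv_eq_of_mul_eq_one_left hz
    rw [hzinv]
  apply sq_eq_of_pow_four hUI h' hzx hz1 hz
  rw [← pow_two, ← pow_two, ← pow_mul]
  exact hy4

/-- (6b') anticommuting 2-elements square to the involution -/
theorem sq_eq_of_anticomm [Finite G] (hAC : AC G) (hUI : UI G) {x y z : G}
    (h : x * y = z * y * x) (hzx : Commute z x) (hzy : Commute z y) (hz1 : z ≠ 1)
    (hz : z * z = 1) (hx : ∃ a : ℕ, orderOf x = 2 ^ a) (hy : ∃ b : ℕ, orderOf y = 2 ^ b) :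
    x * x = z ∧ y * y = z := by
  obtain ⟨a, ha⟩ := hx
  obtain ⟨b, hb⟩ := hy
  rcases le_total b a with hba | hab
  · exact sq_eq_of_anticomm_aux hAC hUI h hzx hzy hz1 hz ⟨a, ha⟩
      (by rw [ha, hb]; exact pow_dvd_pow 2 hba)
  · have h' : y * x = z * x * y := by
      have := swap_rel h
      rw [this]
      have hzinv : z⁻¹ = z := inv_eq_of_mul_eq_one_left hz
      rw [hzinv]
    have := sq_eq_of_anticomm_aux hAC hUI h' hzy hzx hz1 hz ⟨b, hb⟩
      (by rw [ha, hb]; exact pow_dvd_pow 2 hab)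
    exact ⟨this.2, this.1⟩

theorem orderOf_odd_part {x : G} {a m : ℕ} (hm : Odd m) (hxa : orderOf x = 2 ^ a * m) :
    orderOf (x ^ m) = 2 ^ a := by
  have hm0 : m ≠ 0 := by
    rintro rfl
    simp at hm
  rw [orderOf_pow_of_dvd hm0 (hxa ▸ dvd_mul_left m _), hxa]
  exact Nat.mul_div_cancel _ (Nat.pos_of_ne_zero hm0)

/-- (6b) a commutator, central in the group generated by its arguments, does not have
order four -/
theorem no_comm_order_four [Finite G] (hAC : AC G) (hUI : UI G) {x y c : G}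
    (h : x * y = c * y * x) (hcx : Commute c x) (hcy : Commute c y) (hc2 : c * c ≠ 1)
    (hc4 : (c * c) * (c * c) = 1) : False := by
  obtain ⟨a, m, hm, hxa⟩ := Nat.exists_eq_two_pow_mul_odd (orderOf_pos x).ne'
  obtain ⟨b, m', hm', hyb⟩ := Nat.exists_eq_two_pow_mul_odd (orderOf_pos y).ne'
  have h1 : x ^ m * y ^ m' = c ^ (m * m') * y ^ m' * x ^ m := pow_pow_rel h hcx hcy m m'
  have hodd : Odd (m * m') := hm.mul hm'
  set c₁ := c ^ (m * m') with hc₁
  have hc₁sq : c₁ * c₁ = c * c := by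
    rw [hc₁, ← pow_two, ← pow_mul, mul_comm, pow_mul, pow_two]
    exact odd_pow_invol hc4 hodd
  have hc₁x : Commute c₁ (x ^ m) := (hcx.pow_left _).pow_right _
  have hc₁y : Commute c₁ (y ^ m') := (hcy.pow_left _).pow_right _
  have h2 := pow_left_rel h1 hc₁x 2
  rw [pow_two c₁, hc₁sq] at h2
  have hox : orderOf (x ^ m) = 2 ^ a := orderOf_odd_part hm hxa
  have hoy : orderOf (y ^ m') = 2 ^ b := orderOf_odd_part hm' hyb
  have hoX : ∃ a', orderOf ((x ^ m) ^ 2) = 2 ^ a' := by
    have hdvd : orderOf ((x ^ m) ^ 2) ∣ 2 ^ a := hox ▸ orderOf_pow_dvd 2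
    obtain ⟨a', -, ha'⟩ := (Nat.dvd_prime_pow Nat.prime_two).1 hdvd
    exact ⟨a', ha'⟩
  have hzX : Commute (c * c) ((x ^ m) ^ 2) := ((hcx.mul_left hcx).pow_right m).pow_right 2
  have hzY : Commute (c * c) (y ^ m') := (hcy.mul_left hcy).pow_right m'
  obtain ⟨hXX, hYY⟩ := sq_eq_of_anticomm hAC hUI h2 hzX hzY hc2 hc4 hoX ⟨b, hoy⟩
  have hoX4 : orderOf ((x ^ m) ^ 2) = 4 := orderOf_eq_four hc2 hc4 hXX
  have hc₁X : Commute c₁ ((x ^ m) ^ 2) := hc₁x.pow_right 2
  have hc₁4 : c₁ ^ orderOf ((x ^ m) ^ 2) = 1 := by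
    rw [hoX4, show (4 : ℕ) = 2 + 2 from rfl, pow_add, pow_two, hc₁sq, hc4]
  obtain ⟨j, hj⟩ := mem_powers_of_pow_orderOf hAC hc₁X hc₁4
  have hjodd : Odd j := by
    by_contra hev
    rw [Nat.not_odd_iff_even] at hev
    apply hc2
    rw [← hc₁sq, hj, ← pow_two, ← pow_mul, mul_comm, pow_mul, pow_two, hXX]
    exact even_pow_invol hc4 hev
  have hcop : Nat.Coprime j (orderOf ((x ^ m) ^ 2)) := by
    rw [hoX4]
    have : Nat.Coprime j 2 := Nat.Coprime.symm (Nat.coprime_two_left.mpr hjodd)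
    exact Nat.Coprime.pow_right 2 this
  obtain ⟨k, hk⟩ := exists_pow_eq_self_of_coprime hcop
  have hcomm : Commute ((x ^ m) ^ 2) (y ^ m') := by
    rw [← hk, ← hj]
    exact hc₁y.pow_left k
  exact hc2 (eq_one_of_commute h2 hcomm)

/-- (Q1) a non-trivial commutator that is central in the group generated by its arguments
is an involution -/
theorem comm_sq_eq_one [Finite G] (hAC : AC G) (hUI : UI G) {x y c : G}
    (h : x * y = c * y * x) (hcx : Commute c x) (hcy : Commute c y) (_hc : c ≠ 1) :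
    c * c = 1 := by
  obtain ⟨e, m, hm, hn⟩ := Nat.exists_eq_two_pow_mul_odd (orderOf_pos c).ne'
  by_cases hm1 : m = 1
  · subst hm1
    rw [mul_one] at hn
    by_contra hne
    have he : 2 ≤ e := by
      by_contra hlt
      apply hne
      rw [← pow_two]
      apply orderOf_dvd_iff_pow_eq_one.mp
      rw [hn]
      exact (pow_dvd_pow 2 (by omega : e ≤ 1)).trans (by norm_num)
    obtain ⟨e', rfl⟩ : ∃ e', e = e' + 2 := ⟨e - 2, by omega⟩
    have hrel := pow_left_rel h hcx (2 ^ e')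
    have hcx' : Commute (c ^ 2 ^ e') (x ^ 2 ^ e') := (hcx.pow_left _).pow_right _
    have hcy' : Commute (c ^ 2 ^ e') y := hcy.pow_left _
    apply no_comm_order_four hAC hUI hrel hcx' hcy'
    · rw [← pow_two, ← pow_mul]
      apply pow_ne_one_of_lt_orderOf (by positivity)
      rw [hn]
      have : 2 ^ e' * 2 = 2 ^ (e' + 1) := by ring
      rw [this]
      exact Nat.pow_lt_pow_right (by norm_num) (by omega)
    · rw [← pow_two, ← pow_two, ← pow_mul, ← pow_mul]
      have : 2 ^ e' * (2 * 2) = 2 ^ (e' + 2) := by ring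
      rw [this, ← hn, pow_orderOf_eq_one]
  · exfalso
    have hr : (m.minFac).Prime := Nat.minFac_prime hm1
    have hrm : m.minFac ∣ m := Nat.minFac_dvd m
    have hr2 : m.minFac ≠ 2 := by
      intro h2
      rw [h2] at hrm
      exact (Nat.not_even_iff_odd.mpr hm) (even_iff_two_dvd.mpr hrm)
    have hrn : m.minFac ∣ orderOf c := hn ▸ (hrm.trans (dvd_mul_left _ _))
    obtain ⟨k, hk⟩ := hrn
    have hk0 : k ≠ 0 := by
      rintro rfl
      rw [mul_zero] at hk
      exact (orderOf_pos c).ne' hk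
    have hrel := pow_left_rel h hcx k
    apply no_odd_comm hAC hr hr2 hrel ((hcx.pow_left _).pow_right _) (hcy.pow_left _)
    · apply pow_ne_one_of_lt_orderOf hk0
      rw [hk]
      have := hr.two_le
      nlinarith [Nat.pos_of_ne_zero hk0]
    · rw [← pow_mul, mul_comm, ← hk, pow_orderOf_eq_one]

/-- (Q) a non-commuting pair whose commutator is central in the group they generate has
powers generating a quaternion group -/
theorem exists_quaternion [Finite G] (hAC : AC G) (hUI : UI G) {x y c : G}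
    (h : x * y = c * y * x) (hcx : Commute c x) (hcy : Commute c y) (hc : c ≠ 1) :
    c * c = 1 ∧ ∃ m m' : ℕ, x ^ m * x ^ m = c ∧ y ^ m' * y ^ m' = c ∧
      x ^ m * y ^ m' = c * y ^ m' * x ^ m := by
  have hcc := comm_sq_eq_one hAC hUI h hcx hcy hc
  refine ⟨hcc, ?_⟩
  obtain ⟨a, m, hm, hxa⟩ := Nat.exists_eq_two_pow_mul_odd (orderOf_pos x).ne'
  obtain ⟨b, m', hm', hyb⟩ := Nat.exists_eq_two_pow_mul_odd (orderOf_pos y).ne'
  have h1 : x ^ m * y ^ m' = c ^ (m * m') * y ^ m' * x ^ m := pow_pow_rel h hcx hcy m m'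
  rw [odd_pow_invol hcc (hm.mul hm')] at h1
  have hox : orderOf (x ^ m) = 2 ^ a := orderOf_odd_part hm hxa
  have hoy : orderOf (y ^ m') = 2 ^ b := orderOf_odd_part hm' hyb
  obtain ⟨hX, hY⟩ := sq_eq_of_anticomm hAC hUI h1 (hcx.pow_right m) (hcy.pow_right m') hc hcc
    ⟨a, hox⟩ ⟨b, hoy⟩
  exact ⟨m, m', hX, hY, h1⟩

theorem central_of_UI (hUI : UI G) {z : G} (hz1 : z ≠ 1) (hzz : z * z = 1) (g : G) :
    Commute z g := by
  have h1 : (g * z * g⁻¹) * (g * z * g⁻¹) = 1 := by
    calc (g * z * g⁻¹) * (g * z * g⁻¹) = g * (z * z) * g⁻¹ := by group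
    _ = 1 := by rw [hzz]; group
  have h2 : g * z * g⁻¹ ≠ 1 := by
    intro h
    apply hz1
    calc z = g⁻¹ * (g * z * g⁻¹) * g := by group
    _ = 1 := by rw [h]; group
  have h3 := hUI _ _ h1 h2 hzz hz1
  show z * g = g * z
  calc z * g = (g * z * g⁻¹) * g := by rw [h3]
  _ = g * z := by group

theorem eq_or_eq_mul_of_comm (hUI : UI G) {z b X : G} (hz1 : z ≠ 1) (hzz : z * z = 1)
    (hbb : b * b = z) (hXX : X * X = z) (hbX : Commute b X) : b = X ∨ b = z * X := by
  have hw : (b * X⁻¹) * (b * X⁻¹) = 1 := by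
    have h1 : X⁻¹ * b = b * X⁻¹ := (hbX.inv_right).eq.symm
    calc (b * X⁻¹) * (b * X⁻¹) = b * (X⁻¹ * b) * X⁻¹ := by group
    _ = b * (b * X⁻¹) * X⁻¹ := by rw [h1]
    _ = (b * b) * (X * X)⁻¹ := by group
    _ = 1 := by rw [hbb, hXX, mul_inv_cancel]
  rcases sq_cases hUI hz1 hzz hw with h | h
  · left
    calc b = (b * X⁻¹) * X := by group
    _ = X := by rw [h, one_mul]
  · right
    calc b = (b * X⁻¹) * X := by group
    _ = z * X := by rw [h]

/-- existence of a quaternion subgroup inside a suitable normal subgroup -/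
theorem exists_Q8 [Finite G] (hAC : AC G) (hUI : UI G) [Group.IsSolvable G] (A : Subgroup G)
    (hAn : A.Normal) (hAc : IsMulCommutative A)
    (hAmax : ∀ B : Subgroup G, B.Normal → IsMulCommutative B → A ≤ B → B = A)
    (hnc : ¬ IsMulCommutative (Subgroup.centralizer (A : Set G))) :
    ∃ (B : Subgroup G) (x y z : G), B.Normal ∧ x ∈ B ∧ y ∈ B ∧ z ≠ 1 ∧ z * z = 1 ∧ x * x = z ∧
      y * y = z ∧ x * y = z * y * x ∧
      ∀ b ∈ B, b * b = z →
        (b = x ∨ b = z * x ∨ b = y ∨ b = z * y ∨ b = x * y ∨ b = z * (x * y)) := by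
  classical
  have := hAn
  have hAC' : A ≤ Subgroup.centralizer (A : Set G) := by
    intro a ha
    rw [Subgroup.mem_centralizer_iff]
    intro b hb
    exact congrArg Subtype.val (hAc.is_comm.comm ⟨b, hb⟩ ⟨a, ha⟩)
  have hCn : (Subgroup.centralizer (A : Set G)).Normal := inferInstance
  let S : Set (Subgroup G) := {N | N.Normal ∧ N ≤ Subgroup.centralizer (A : Set G) ∧ ¬ N ≤ A}
  have hS : S.Nonempty := by
    refine ⟨Subgroup.centralizer (A : Set G), hCn, le_refl _, fun hle => hnc ?_⟩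
    have hCA : Subgroup.centralizer (A : Set G) = A := le_antisymm hle hAC'
    rw [hCA]
    exact hAc
  let B := Function.argminOn (fun N : Subgroup G => Nat.card N) S hS
  have hBS : B ∈ S := Function.argminOn_mem _ S hS
  have hBmin : ∀ N ∈ S, Nat.card B ≤ Nat.card N := fun N hN =>
    Function.argminOn_le (fun N : Subgroup G => Nat.card N) S hN
  obtain ⟨hBn, hBC, hBA⟩ := hBS
  have := hBn
  have hBbot : B ≠ ⊥ := by
    intro h
    exact hBA (h ▸ bot_le)
  have hcomm_le : ⁅B, B⁆ ≤ A := by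
    by_contra hcon
    have hlt : ⁅B, B⁆ < B := Group.IsSolvable.commutator_lt_of_ne_bot hBbot
    have hmem : ⁅B, B⁆ ∈ S := ⟨inferInstance, hlt.le.trans hBC, hcon⟩
    have hcard := hBmin _ hmem
    exact hlt.ne (Subgroup.eq_of_le_of_card_ge hlt.le hcard)
  have hBna : ∃ x ∈ B, ∃ y ∈ B, x * y ≠ y * x := by
    by_contra hcon
    push Not at hcon
    have hBB : B ≤ Subgroup.centralizer (B : Set G) := by
      intro b hb
      rw [Subgroup.mem_centralizer_iff]
      intro b' hb'
      exact hcon b' hb' b hb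
    have hAB : A ≤ Subgroup.centralizer (B : Set G) := Subgroup.le_centralizer_iff.mp hBC
    have hsup : A ⊔ B ≤ Subgroup.centralizer ((A ⊔ B : Subgroup G) : Set G) := by
      rw [sup_le_iff]
      constructor
      · rw [Subgroup.le_centralizer_iff, sup_le_iff]; exact ⟨hAC', hBC⟩
      · rw [Subgroup.le_centralizer_iff, sup_le_iff]; exact ⟨hAB, hBB⟩
    have hsc : IsMulCommutative (A ⊔ B : Subgroup G) :=
      ⟨⟨fun a b => Subtype.ext (Subgroup.mem_centralizer_iff.mp (hsup b.2) a a.2)⟩⟩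
    have := hAmax (A ⊔ B) inferInstance hsc le_sup_left
    exact hBA (this ▸ le_sup_right)
  obtain ⟨x₀, hx₀, y₀, hy₀, hne⟩ := hBna
  have hcA : x₀ * y₀ * x₀⁻¹ * y₀⁻¹ ∈ A := hcomm_le (Subgroup.commutator_mem_commutator hx₀ hy₀)
  have hcx : Commute (x₀ * y₀ * x₀⁻¹ * y₀⁻¹) x₀ :=
    Subgroup.mem_centralizer_iff.mp (hBC hx₀) _ hcA
  have hcy : Commute (x₀ * y₀ * x₀⁻¹ * y₀⁻¹) y₀ :=
    Subgroup.mem_centralizer_iff.mp (hBC hy₀) _ hcA
  have hrel : x₀ * y₀ = (x₀ * y₀ * x₀⁻¹ * y₀⁻¹) * y₀ * x₀ := by group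
  have hc1 : x₀ * y₀ * x₀⁻¹ * y₀⁻¹ ≠ 1 := by
    intro h1
    apply hne
    rw [hrel, h1, one_mul]
  generalize x₀ * y₀ * x₀⁻¹ * y₀⁻¹ = c at hcA hcx hcy hrel hc1
  obtain ⟨hcc, m, m', hX, hY, hXY⟩ := exists_quaternion hAC hUI hrel hcx hcy hc1
  have key : ∃ X ∈ B, ∃ Y ∈ B, X * X = c ∧ Y * Y = c ∧ X * Y = c * Y * X :=
    ⟨x₀ ^ m, B.pow_mem hx₀ m, y₀ ^ m', B.pow_mem hy₀ m', hX, hY, hXY⟩
  obtain ⟨X, hXB, Y, hYB, hX, hY, hXY⟩ := key
  refine ⟨B, X, Y, c, hBn, hXB, hYB, hc1, hcc, hX, hY, hXY, ?_⟩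
  intro b hb hbb
  have dich : ∀ u ∈ B, ∀ v ∈ B, Commute u v ∨ u * v = c * v * u := by
    intro u hu v hv
    have hdA : u * v * u⁻¹ * v⁻¹ ∈ A := hcomm_le (Subgroup.commutator_mem_commutator hu hv)
    have hdu : Commute (u * v * u⁻¹ * v⁻¹) u := Subgroup.mem_centralizer_iff.mp (hBC hu) _ hdA
    have hdv : Commute (u * v * u⁻¹ * v⁻¹) v := Subgroup.mem_centralizer_iff.mp (hBC hv) _ hdA
    have hrel' : u * v = (u * v * u⁻¹ * v⁻¹) * v * u := by group
    generalize u * v * u⁻¹ * v⁻¹ = d at hdA hdu hdv hrel'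
    by_cases hd1 : d = 1
    · left
      show u * v = v * u
      rw [hrel', hd1, one_mul]
    · right
      have := comm_sq_eq_one hAC hUI hrel' hdu hdv hd1
      rcases sq_cases hUI hc1 hcc this with h | h
      · exact absurd h hd1
      · rw [← h]; exact hrel'
  rcases dich b hb X hXB with h1 | h1
  · rcases eq_or_eq_mul_of_comm hUI hc1 hcc hbb hX h1 with h | h
    · left; exact h
    · right; left; exact h
  · rcases dich b hb Y hYB with h2 | h2
    · rcases eq_or_eq_mul_of_comm hUI hc1 hcc hbb hY h2 with h | h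
      · right; right; left; exact h
      · right; right; right; left; exact h
    · have hzX : Commute c X := by
        rw [← hX]; exact (Commute.refl X).mul_left (Commute.refl X)
      have h3 : Commute b (X * Y) := by
        show b * (X * Y) = X * Y * b
        calc b * (X * Y) = (b * X) * Y := by rw [mul_assoc]
        _ = c * X * (b * Y) := by rw [h1]; simp only [mul_assoc]
        _ = c * X * (c * Y * b) := by rw [h2]
        _ = (c * X) * c * Y * b := by simp only [mul_assoc]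
        _ = X * (c * c) * Y * b := by rw [hzX.eq]; simp only [mul_assoc]
        _ = X * Y * b := by rw [hcc, mul_one]
      have hXY2 : (X * Y) * (X * Y) = c := by
        have hYX : Y * X = c * X * Y := by
          have := swap_rel hXY
          rwa [inv_eq_of_mul_eq_one_left hcc] at this
        calc (X * Y) * (X * Y) = X * (Y * X) * Y := by simp only [mul_assoc]
        _ = X * (c * X * Y) * Y := by rw [hYX]
        _ = (X * c) * X * Y * Y := by simp only [mul_assoc]
        _ = c * (X * X) * (Y * Y) := by rw [← hzX.eq]; simp only [mul_assoc]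
        _ = c := by rw [hX, hY, hcc, one_mul]
      rcases eq_or_eq_mul_of_comm hUI hc1 hcc hbb hXY2 h3 with h | h
      · right; right; right; right; left; exact h
      · right; right; right; right; right; exact h

theorem conj_z_mul {z : G} (hzc : ∀ g : G, Commute z g) (a w : G) :
    a * (z * w) * a⁻¹ = z * (a * w * a⁻¹) := by
  calc a * (z * w) * a⁻¹ = (a * z) * w * a⁻¹ := by group
  _ = (z * a) * w * a⁻¹ := by rw [(hzc a).eq]
  _ = z * (a * w * a⁻¹) := by group

/-- elements conjugating `t` to `t` or `z * t` -/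
def Mz (t z : G) (hzc : ∀ g : G, Commute z g) (hzz : z * z = 1) : Subgroup G where
  carrier := {h | h * t * h⁻¹ = t ∨ h * t * h⁻¹ = z * t}
  mul_mem' := by
    intro a b ha hb
    have e : a * b * t * (a * b)⁻¹ = a * (b * t * b⁻¹) * a⁻¹ := by group
    simp only [Set.mem_ofPred_eq] at ha hb ⊢
    rw [e]
    rcases hb with hb | hb <;> rcases ha with ha | ha
    · left; rw [hb, ha]
    · right; rw [hb, ha]
    · right; rw [hb, conj_z_mul hzc, ha]
    · left; rw [hb, conj_z_mul hzc, ha, ← mul_assoc, hzz, one_mul]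
  one_mem' := by
    left; simp
  inv_mem' := by
    intro a ha
    simp only [Set.mem_ofPred_eq] at ha ⊢
    rcases ha with ha | ha
    · left
      calc a⁻¹ * t * a⁻¹⁻¹ = a⁻¹ * (a * t * a⁻¹) * a⁻¹⁻¹ := by rw [ha]
      _ = t := by group
    · right
      calc a⁻¹ * t * a⁻¹⁻¹ = (z * z) * (a⁻¹ * t * a⁻¹⁻¹) := by rw [hzz, one_mul]
      _ = z * (a⁻¹ * (z * t) * a⁻¹⁻¹) := by rw [conj_z_mul hzc, mul_assoc]
      _ = z * (a⁻¹ * (a * t * a⁻¹) * a⁻¹⁻¹) := by rw [ha]
      _ = z * t := by group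

theorem mem_Mz {t z : G} {hzc : ∀ g : G, Commute z g} {hzz : z * z = 1} {h : G} :
    h ∈ Mz t z hzc hzz ↔ (h * t * h⁻¹ = t ∨ h * t * h⁻¹ = z * t) := Iff.rfl

/-- elements centralising `t` -/
def Cz (t : G) : Subgroup G where
  carrier := {h | h * t * h⁻¹ = t}
  mul_mem' := by
    intro a b ha hb
    simp only [Set.mem_ofPred_eq] at ha hb ⊢
    calc a * b * t * (a * b)⁻¹ = a * (b * t * b⁻¹) * a⁻¹ := by group
    _ = t := by rw [hb, ha]
  one_mem' := by simp
  inv_mem' := by
    intro a ha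
    simp only [Set.mem_ofPred_eq] at ha ⊢
    calc a⁻¹ * t * a⁻¹⁻¹ = a⁻¹ * (a * t * a⁻¹) * a⁻¹⁻¹ := by rw [ha]
    _ = t := by group

theorem mem_Cz {t h : G} : h ∈ Cz t ↔ h * t * h⁻¹ = t := Iff.rfl

theorem commute_of_mem_Cz {t h : G} (hh : h ∈ Cz t) : Commute h t := by
  show h * t = t * h
  calc h * t = (h * t * h⁻¹) * h := by group
  _ = t * h := by rw [mem_Cz.mp hh]

theorem relIndex_le_card [Finite G] {β : Type*} (K M : Subgroup G) (T : Finset β)
    (f : G → β) (hf : ∀ m ∈ M, f m ∈ T)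
    (hinj : ∀ m ∈ M, ∀ m' ∈ M, f m = f m' → m⁻¹ * m' ∈ K) :
    1 ≤ K.relIndex M ∧ K.relIndex M ≤ T.card := by
  constructor
  · have : K.relIndex M ≠ 0 := Subgroup.index_ne_zero_of_finite
    omega
  · unfold Subgroup.relIndex Subgroup.index
    let g : (M ⧸ K.subgroupOf M) → T := fun q => ⟨f (q.out : M), hf _ (q.out).2⟩
    have hg : Function.Injective g := by
      intro q q' hqq
      have h1 : f (q.out : M) = f (q'.out : M) := congrArg Subtype.val hqq
      have h2 := hinj _ (q.out).2 _ (q'.out).2 h1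
      have h3 : ((q.out : M) : M ⧸ K.subgroupOf M) = ((q'.out : M) : M ⧸ K.subgroupOf M) := by
        rw [QuotientGroup.eq]
        exact h2
      rwa [QuotientGroup.out_eq', QuotientGroup.out_eq'] at h3
    have := Nat.card_le_card_of_injective g hg
    simpa using this

theorem level_pair [Finite G] {z : G} (hzc : ∀ g : G, Commute z g) (hzz : z * z = 1)
    (M : Subgroup G) (t : G) (T : Finset (Set G))
    (hT : ∀ m ∈ M, ({m * t * m⁻¹, z * (m * t * m⁻¹)} : Set G) ∈ T) :
    1 ≤ (M ⊓ Mz t z hzc hzz).relIndex M ∧ (M ⊓ Mz t z hzc hzz).relIndex M ≤ T.card := by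
  apply relIndex_le_card _ M T (fun m => ({m * t * m⁻¹, z * (m * t * m⁻¹)} : Set G)) hT
  intro m hm m' hm' h
  refine ⟨M.mul_mem (M.inv_mem hm) hm', ?_⟩
  have h1 : m' * t * m'⁻¹ ∈ ({m * t * m⁻¹, z * (m * t * m⁻¹)} : Set G) := by
    have h' : ({m * t * m⁻¹, z * (m * t * m⁻¹)} : Set G)
        = {m' * t * m'⁻¹, z * (m' * t * m'⁻¹)} := h
    rw [h']
    exact Set.mem_insert _ _
  have e : m⁻¹ * m' * t * (m⁻¹ * m')⁻¹ = m⁻¹ * (m' * t * m'⁻¹) * m⁻¹⁻¹ := by group
  show m⁻¹ * m' ∈ Mz t z hzc hzz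
  rw [mem_Mz, e]
  rcases h1 with h1 | h1
  · left
    rw [h1]; group
  · right
    rw [Set.mem_singleton_iff] at h1
    rw [h1, conj_z_mul hzc]
    congr 1
    group

theorem level_elem [Finite G] {z : G} (hzc : ∀ g : G, Commute z g) (hzz : z * z = 1)
    (M : Subgroup G) (t : G) (hM : M ≤ Mz t z hzc hzz) :
    1 ≤ (M ⊓ Cz t).relIndex M ∧ (M ⊓ Cz t).relIndex M ≤ 2 := by
  classical
  have := relIndex_le_card (M ⊓ Cz t) M ({t, z * t} : Finset G) (fun m => m * t * m⁻¹)
    (by
      intro m hm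
      have := mem_Mz.mp (hM hm)
      simp only [Finset.mem_insert, Finset.mem_singleton]
      exact this)
    (by
      intro m hm m' hm' h
      refine ⟨M.mul_mem (M.inv_mem hm) hm', ?_⟩
      have e : m⁻¹ * m' * t * (m⁻¹ * m')⁻¹ = m⁻¹ * (m' * t * m'⁻¹) * m⁻¹⁻¹ := by group
      show m⁻¹ * m' ∈ Cz t
      rw [mem_Cz, e]
      have h' : m * t * m⁻¹ = m' * t * m'⁻¹ := h
      rw [← h']
      group)
  exact ⟨this.1, this.2.trans Finset.card_le_two⟩

theorem pair_eq {z : G} (hzz : z * z = 1) (a : G) :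
    ({z * a, z * (z * a)} : Set G) = {a, z * a} := by
  rw [← mul_assoc, hzz, one_mul, Set.pair_comm]

/-- the common centraliser of a quaternion pair has index dividing 24 or 16 when the
six elements of order four are permuted by conjugation -/
theorem index_bound [Finite G] {x y z : G} (hzc : ∀ g : G, Commute z g) (hz1 : z ≠ 1)
    (hzz : z * z = 1) (hxy : x * y = z * y * x)
    (hSx : ∀ g : G, g * x * g⁻¹ = x ∨ g * x * g⁻¹ = z * x ∨ g * x * g⁻¹ = y ∨
      g * x * g⁻¹ = z * y ∨ g * x * g⁻¹ = x * y ∨ g * x * g⁻¹ = z * (x * y))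
    (hSy : ∀ g : G, g * y * g⁻¹ = x ∨ g * y * g⁻¹ = z * x ∨ g * y * g⁻¹ = y ∨
      g * y * g⁻¹ = z * y ∨ g * y * g⁻¹ = x * y ∨ g * y * g⁻¹ = z * (x * y)) :
    ∃ K : Subgroup G, (∀ k ∈ K, Commute k x ∧ Commute k y) ∧
      (K.index ∣ 24 ∨ K.index ∣ 16) := by
  classical
  set M₁ : Subgroup G := ⊤ ⊓ Mz x z hzc hzz with hM₁
  set C₁ : Subgroup G := M₁ ⊓ Cz x with hC₁
  set M₂ : Subgroup G := C₁ ⊓ Mz y z hzc hzz with hM₂
  set K : Subgroup G := M₂ ⊓ Cz y with hK
  have r₁ := level_pair hzc hzz ⊤ x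
    ({{x, z * x}, {y, z * y}, {x * y, z * (x * y)}} : Finset (Set G)) (by
      intro m _
      simp only [Finset.mem_insert, Finset.mem_singleton]
      rcases hSx m with h | h | h | h | h | h
      · left; rw [h]
      · left; rw [h, pair_eq hzz]
      · right; left; rw [h]
      · right; left; rw [h, pair_eq hzz]
      · right; right; rw [h]
      · right; right; rw [h, pair_eq hzz])
  have r₂ := level_elem hzc hzz M₁ x inf_le_right
  have r₃ := level_pair hzc hzz C₁ y
    ({{y, z * y}, {x * y, z * (x * y)}} : Finset (Set G)) (by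
      intro m hm
      have hmx : m * x * m⁻¹ = x := mem_Cz.mp hm.2
      simp only [Finset.mem_insert, Finset.mem_singleton]
      rcases hSy m with h | h | h | h | h | h
      · exfalso
        have hyx : y = x := by
          calc y = m⁻¹ * (m * y * m⁻¹) * m := by group
          _ = m⁻¹ * (m * x * m⁻¹) * m := by rw [h, hmx]
          _ = x := by group
        exact hz1 (eq_one_of_commute hxy (hyx ▸ Commute.refl x))
      · exfalso
        have hyx : y = z * x := by
          calc y = m⁻¹ * (m * y * m⁻¹) * m := by group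
          _ = m⁻¹ * (m * (z * x) * m⁻¹) * m := by rw [h, conj_z_mul hzc, hmx]
          _ = z * x := by group
        exact hz1 (eq_one_of_commute hxy (hyx ▸ ((hzc x).symm.mul_right (Commute.refl x))))
      · left; rw [h]
      · left; rw [h, pair_eq hzz]
      · right; rw [h]
      · right; rw [h, pair_eq hzz])
  have r₄ := level_elem hzc hzz M₂ y inf_le_right
  have hc3 : ({{x, z * x}, {y, z * y}, {x * y, z * (x * y)}} : Finset (Set G)).card ≤ 3 :=
    Finset.card_le_three
  have hc2 : ({{y, z * y}, {x * y, z * (x * y)}} : Finset (Set G)).card ≤ 2 :=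
    Finset.card_le_two
  have e₁ : K.relIndex M₂ * M₂.relIndex C₁ = K.relIndex C₁ :=
    Subgroup.relIndex_mul_relIndex K M₂ C₁ inf_le_left inf_le_left
  have e₂ : K.relIndex C₁ * C₁.relIndex M₁ = K.relIndex M₁ :=
    Subgroup.relIndex_mul_relIndex K C₁ M₁ (inf_le_left.trans inf_le_left) inf_le_left
  have e₃ : K.relIndex M₁ * M₁.relIndex ⊤ = K.relIndex ⊤ :=
    Subgroup.relIndex_mul_relIndex K M₁ ⊤ ((inf_le_left.trans inf_le_left).trans inf_le_left)
      le_top
  have e₃' : K.relIndex M₁ * M₁.relIndex ⊤ = K.index := by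
    rw [← Subgroup.relIndex_top_right (H := K)]; exact e₃
  have h1 : 1 ≤ M₁.relIndex ⊤ := r₁.1
  have h1' : M₁.relIndex ⊤ ≤ 3 := r₁.2.trans hc3
  have h2 : 1 ≤ C₁.relIndex M₁ := r₂.1
  have h2' : C₁.relIndex M₁ ≤ 2 := r₂.2
  have h3 : 1 ≤ M₂.relIndex C₁ := r₃.1
  have h3' : M₂.relIndex C₁ ≤ 2 := r₃.2.trans hc2
  have h4 : 1 ≤ K.relIndex M₂ := r₄.1
  have h4' : K.relIndex M₂ ≤ 2 := r₄.2
  refine ⟨K, ?_, ?_⟩
  · intro k hk
    exact ⟨commute_of_mem_Cz hk.1.1.2, commute_of_mem_Cz hk.2⟩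
  · rw [← e₃', ← e₂, ← e₁]
    generalize K.relIndex M₂ = a₄ at h4 h4' ⊢
    generalize M₂.relIndex C₁ = a₃ at h3 h3' ⊢
    generalize C₁.relIndex M₁ = a₂ at h2 h2' ⊢
    generalize M₁.relIndex ⊤ = a₁ at h1 h1' ⊢
    interval_cases a₁ <;> interval_cases a₂ <;> interval_cases a₃ <;> interval_cases a₄ <;>
      decide

/-- the abstract structure theorem used for the exceptional soluble near-field groups -/
theorem main_abstract [Finite G] (hAC : AC G) (hUI : UI G) [Group.IsSolvable G]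
    (A : Subgroup G) (hAn : A.Normal) (hAc : IsMulCommutative A)
    (hAmax : ∀ B : Subgroup G, B.Normal → IsMulCommutative B → A ≤ B → B = A)
    (hnc : ¬ IsMulCommutative (Subgroup.centralizer (A : Set G))) :
    ∃ (x y z : G) (K : Subgroup G), z ≠ 1 ∧ z * z = 1 ∧ x * x = z ∧ y * y = z ∧
      x * y = z * y * x ∧ (∀ k ∈ K, Commute k x ∧ Commute k y) ∧
      (K.index ∣ 24 ∨ K.index ∣ 16) := by
  obtain ⟨B, x, y, z, hBn, hxB, hyB, hz1, hzz, hxx, hyy, hxy, hS⟩ :=
    exists_Q8 hAC hUI A hAn hAc hAmax hnc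
  have hzc : ∀ g : G, Commute z g := central_of_UI hUI hz1 hzz
  have hconj : ∀ t ∈ B, t * t = z → ∀ g : G, g * t * g⁻¹ = x ∨ g * t * g⁻¹ = z * x ∨
      g * t * g⁻¹ = y ∨ g * t * g⁻¹ = z * y ∨ g * t * g⁻¹ = x * y ∨
      g * t * g⁻¹ = z * (x * y) := by
    intro t ht htt g
    apply hS _ (hBn.conj_mem t ht g)
    calc (g * t * g⁻¹) * (g * t * g⁻¹) = g * (t * t) * g⁻¹ := by group
    _ = g * z * g⁻¹ := by rw [htt]
    _ = z * g * g⁻¹ := by rw [(hzc g).eq]
    _ = z := by group
  obtain ⟨K, hK, hidx⟩ := index_bound hzc hz1 hzz hxy (hconj x hxB hxx) (hconj y hyB hyy)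
  exact ⟨x, y, z, K, hz1, hzz, hxx, hyy, hxy, hK, hidx⟩

end Cfsg.Agent.Lib.Helper12.Fpf
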