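import Mathlib

/-!
Helper12 library: certified computation in subgroups of `GL (Fin 2) (ZMod p)` generated by a few
explicit matrices. Matrices are coded by natural numbers.
-/

set_option autoImplicit false

namespace Cfsg.Agent.Lib.Helper12.GL2

open Matrix

/-- code of the matrix with entries `a b c d` -/
def enc4 (p a b c d : ℕ) : ℕ := ((a * p + b) * p + c) * p + d

/-- product of two coded matrices -/
def mulc (p x y : ℕ) : ℕ :=
  enc4 p (((x / p / p / p) * (y / p / p / p) + (x / p / p % p) * (y / p % p)) % p)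
    (((x / p / p / p) * (y / p / p % p) + (x / p / p % p) * (y % p)) % p)
    (((x / p % p) * (y / p / p / p) + (x % p) * (y / p % p)) % p)
    (((x / p % p) * (y / p / p % p) + (x % p) * (y % p)) % p)

/-- the code of a matrix -/
def code {p : ℕ} (M : Matrix (Fin 2) (Fin 2) (ZMod p)) : ℕ :=
  enc4 p (M 0 0).val (M 0 1).val (M 1 0).val (M 1 1).val

theorem enc4_dec {p a b c d : ℕ} (hb : b < p) (hc : c < p) (hd : d < p) :
    enc4 p a b c d / p / p / p = a ∧ enc4 p a b c d / p / p % p = b ∧
      enc4 p a b c d / p % p = c ∧ enc4 p a b c d % p = d := by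
  have hp : 0 < p := by omega
  have h1 : ∀ q r, r < p → (q * p + r) / p = q := fun q r hr => by
    rw [Nat.add_comm, Nat.add_mul_div_right _ _ hp, Nat.div_eq_of_lt hr, zero_add]
  have h2 : ∀ q r, r < p → (q * p + r) % p = r := fun q r hr => by
    rw [Nat.add_comm, Nat.add_mul_mod_self_right, Nat.mod_eq_of_lt hr]
  unfold enc4
  refine ⟨?_, ?_, ?_, ?_⟩
  · rw [h1 _ _ hd, h1 _ _ hc, h1 _ _ hb]
  · rw [h1 _ _ hd, h1 _ _ hc, h2 _ _ hb]
  · rw [h1 _ _ hd, h2 _ _ hc]
  · rw [h2 _ _ hd]

theorem code_dec {p : ℕ} [NeZero p] (M : Matrix (Fin 2) (Fin 2) (ZMod p)) :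
    code M / p / p / p = (M 0 0).val ∧ code M / p / p % p = (M 0 1).val ∧
      code M / p % p = (M 1 0).val ∧ code M % p = (M 1 1).val :=
  enc4_dec (ZMod.val_lt _) (ZMod.val_lt _) (ZMod.val_lt _)

theorem code_injective {p : ℕ} [NeZero p] :
    Function.Injective (code : Matrix (Fin 2) (Fin 2) (ZMod p) → ℕ) := by
  intro M N h
  obtain ⟨m1, m2, m3, m4⟩ := code_dec M
  obtain ⟨n1, n2, n3, n4⟩ := code_dec N
  rw [h] at m1 m2 m3 m4
  ext i j
  fin_cases i <;> fin_cases j
  · exact ZMod.val_injective p (m1.symm.trans n1)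
  · exact ZMod.val_injective p (m2.symm.trans n2)
  · exact ZMod.val_injective p (m3.symm.trans n3)
  · exact ZMod.val_injective p (m4.symm.trans n4)

theorem code_mul {p : ℕ} [NeZero p] (M N : Matrix (Fin 2) (Fin 2) (ZMod p)) :
    code (M * N) = mulc p (code M) (code N) := by
  obtain ⟨m1, m2, m3, m4⟩ := code_dec M
  obtain ⟨n1, n2, n3, n4⟩ := code_dec N
  unfold mulc
  rw [m1, m2, m3, m4, n1, n2, n3, n4]
  unfold code
  simp only [Matrix.mul_apply, Fin.sum_univ_two, ZMod.val_add, ZMod.val_mul]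
  simp only [Nat.add_mod, Nat.mod_mod]

theorem code_one {p : ℕ} [Fact p.Prime] :
    code (1 : Matrix (Fin 2) (Fin 2) (ZMod p)) = enc4 p 1 0 0 1 := by
  have : Fact (1 < p) := ⟨(Fact.out : p.Prime).one_lt⟩
  unfold code
  simp [ZMod.val_one]

/-- evaluate a word in the generators -/
def evalw (p : ℕ) (gen : ℕ → ℕ) : List ℕ → ℕ
  | [] => enc4 p 1 0 0 1
  | i :: w => mulc p (gen i) (evalw p gen w)

theorem evalw_spec {p : ℕ} [Fact p.Prime] (s : Set (GL (Fin 2) (ZMod p)))
    (G : ℕ → GL (Fin 2) (ZMod p)) (gen : ℕ → ℕ)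
    (hG : ∀ i, G i ∈ Subgroup.closure s) (hgen : ∀ i, code (G i).1 = gen i) (w : List ℕ) :
    ∃ g ∈ Subgroup.closure s, code g.1 = evalw p gen w := by
  induction w with
  | nil => exact ⟨1, Subgroup.one_mem _, code_one⟩
  | cons i w ih =>
    obtain ⟨g, hg, hc⟩ := ih
    refine ⟨G i * g, Subgroup.mul_mem _ (hG i) hg, ?_⟩
    rw [Units.val_mul, code_mul, hgen, hc]
    rfl

/-- strictly increasing list -/
def sortedB : List ℕ → Bool
  | [] => true
  | [_] => true
  | a :: b :: l => decide (a < b) && sortedB (b :: l)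

theorem pairwise_of_sortedB : ∀ L : List ℕ, sortedB L = true → L.Pairwise (· < ·)
  | [], _ => List.Pairwise.nil
  | [_], _ => List.pairwise_singleton _ _
  | a :: b :: l, h => by
    simp only [sortedB, Bool.and_eq_true, decide_eq_true_eq] at h
    have ih := pairwise_of_sortedB (b :: l) h.2
    rw [List.pairwise_cons]
    refine ⟨?_, ih⟩
    intro c hc
    rw [List.mem_cons] at hc
    rcases hc with rfl | hc
    · exact h.1
    · exact lt_trans h.1 ((List.pairwise_cons.mp ih).1 c hc)

theorem closure_spec {p : ℕ} [Fact p.Prime] (s : Set (GL (Fin 2) (ZMod p)))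
    (G : ℕ → GL (Fin 2) (ZMod p)) (gen : ℕ → ℕ) (n : ℕ)
    (hG : ∀ i, G i ∈ Subgroup.closure s) (hgen : ∀ i, code (G i).1 = gen i)
    (hs : ∀ g ∈ s, ∃ i < n, g = G i)
    (L : List ℕ) (W : List (List ℕ))
    (h1 : L.contains (enc4 p 1 0 0 1) = true)
    (hclosed : (List.range n).all (fun i => L.all (fun x => L.contains (mulc p (gen i) x))) = true)
    (hword : W.map (evalw p gen) = L)
    (hsorted : sortedB L = true) :
    (∀ g : GL (Fin 2) (ZMod p), g ∈ Subgroup.closure s ↔ code g.1 ∈ L) ∧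
      Nat.card (Subgroup.closure s) = L.length := by
  have hNZ : NeZero p := ⟨(Fact.out : p.Prime).ne_zero⟩
  have hfin : Finite (GL (Fin 2) (ZMod p)) := inferInstance
  have hiff : ∀ g : GL (Fin 2) (ZMod p), g ∈ Subgroup.closure s ↔ code g.1 ∈ L := by
    intro g
    constructor
    · intro hg
      have hg' : g ∈ Submonoid.closure s := by
        rw [← Subgroup.closure_toSubmonoid_of_finite]; exact hg
      induction hg' using Submonoid.closure_induction_left with
      | one =>
        rw [Units.val_one, code_one]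
        simpa using h1
      | mul_left x hx y _ ih =>
        obtain ⟨i, hi, rfl⟩ := hs x hx
        have hy := ih (by rw [← Subgroup.closure_toSubmonoid_of_finite] at *; assumption)
        rw [Units.val_mul, code_mul, hgen]
        rw [List.all_eq_true] at hclosed
        have := hclosed i (List.mem_range.mpr hi)
        rw [List.all_eq_true] at this
        simpa using this _ hy
    · intro hg
      rw [← hword, List.mem_map] at hg
      obtain ⟨w, -, hw⟩ := hg
      obtain ⟨g', hg', hc⟩ := evalw_spec s G gen hG hgen w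
      have : g' = g := Units.ext (code_injective (hc.trans hw))
      rw [← this]; exact hg'
  refine ⟨hiff, ?_⟩
  have hnodup : L.Nodup := (pairwise_of_sortedB L hsorted).imp (fun h => ne_of_lt h)
  let f : Subgroup.closure s → {x // x ∈ L.toFinset} := fun g =>
    ⟨code (g : GL (Fin 2) (ZMod p)).1, List.mem_toFinset.mpr ((hiff g).mp g.2)⟩
  have hf : Function.Bijective f := by
    constructor
    · intro g g' h
      have : code (g : GL (Fin 2) (ZMod p)).1 = code (g' : GL (Fin 2) (ZMod p)).1 :=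
        congrArg Subtype.val h
      exact Subtype.ext (Units.ext (code_injective this))
    · rintro ⟨x, hx⟩
      rw [List.mem_toFinset, ← hword, List.mem_map] at hx
      obtain ⟨w, -, hw⟩ := hx
      obtain ⟨g', hg', hc⟩ := evalw_spec s G gen hG hgen w
      exact ⟨⟨g', hg'⟩, Subtype.ext (hc.trans hw)⟩
  rw [Nat.card_congr (Equiv.ofBijective f hf), Nat.card_eq_fintype_card, Fintype.card_coe,
    List.toFinset_card_of_nodup hnodup]

/-- the coded matrix is the identity or has no eigenvalue one -/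
def fpf (p x : ℕ) : Bool :=
  x == enc4 p 1 0 0 1 ||
    (((x / p / p / p) * (x % p) + 1 +
      (p - 1) * ((x / p / p % p) * (x / p % p) + (x / p / p / p) + (x % p))) % p != 0)

theorem eq_one_of_fpf {p : ℕ} [Fact p.Prime] (h : GL (Fin 2) (ZMod p))
    (hc : fpf p (code h.1) = true) (v : Fin 2 → ZMod p) (hv : v ≠ 0) (hfix : h.1 *ᵥ v = v) :
    h = 1 := by
  have hNZ : NeZero p := ⟨(Fact.out : p.Prime).ne_zero⟩
  unfold fpf at hc
  rw [Bool.or_eq_true] at hc
  rcases hc with hc | hc
  · rw [beq_iff_eq, ← code_one] at hc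
    exact Units.ext (code_injective hc)
  · exfalso
    obtain ⟨m1, m2, m3, m4⟩ := code_dec h.1
    rw [m1, m2, m3, m4] at hc
    have hdet : (h.1 - 1).det = 0 := by
      rw [← Matrix.exists_mulVec_eq_zero_iff]
      exact ⟨v, hv, by rw [Matrix.sub_mulVec, hfix, Matrix.one_mulVec, sub_self]⟩
    rw [Matrix.det_fin_two] at hdet
    simp only [Matrix.sub_apply, Matrix.one_apply_eq, Matrix.one_apply_ne, ne_eq, Fin.isValue,
      zero_ne_one, one_ne_zero, not_false_eq_true, sub_zero] at hdet
    have hp1 : ((p - 1 : ℕ) : ZMod p) = -1 := by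
      rw [Nat.cast_sub (Fact.out : p.Prime).one_lt.le]
      simp
    have hE : (((h.1 0 0).val * (h.1 1 1).val + 1 +
        (p - 1) * ((h.1 0 1).val * (h.1 1 0).val + (h.1 0 0).val + (h.1 1 1).val) : ℕ) : ZMod p)
          = 0 := by
      push_cast
      rw [hp1]
      simp only [ZMod.natCast_val, ZMod.cast_id', id_eq]
      linear_combination hdet
    rw [ZMod.natCast_eq_zero_iff] at hE
    have := Nat.mod_eq_zero_of_dvd hE
    simp [this] at hc

theorem regular_of_fpf {p : ℕ} [Fact p.Prime] (H : Subgroup (GL (Fin 2) (ZMod p)))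
    (hcard : Nat.card H = p ^ 2 - 1)
    (hfpf : ∀ h ∈ H, fpf p (code h.1) = true) :
    ∀ v w : Fin 2 → ZMod p, v ≠ 0 → w ≠ 0 →
      ∃! h : H, (h : GL (Fin 2) (ZMod p)).1 *ᵥ v = w := by
  classical
  have hNZ : NeZero p := ⟨(Fact.out : p.Prime).ne_zero⟩
  intro v w hv hw
  let φ : H → {u : Fin 2 → ZMod p // u ≠ 0} := fun h =>
    ⟨(h : GL (Fin 2) (ZMod p)).1 *ᵥ v, by
      intro h0
      apply hv
      have := congrArg (fun u => ((h : GL (Fin 2) (ZMod p))⁻¹).1 *ᵥ u) h0
      simp only [Matrix.mulVec_mulVec, Matrix.mulVec_zero] at this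
      rw [← Units.val_mul, inv_mul_cancel, Units.val_one, Matrix.one_mulVec] at this
      exact this⟩
  have hinj : Function.Injective φ := by
    intro h h' heq
    have h1 : (h : GL (Fin 2) (ZMod p)).1 *ᵥ v = (h' : GL (Fin 2) (ZMod p)).1 *ᵥ v :=
      congrArg Subtype.val heq
    have h2 : ((h'⁻¹ * h : H) : GL (Fin 2) (ZMod p)).1 *ᵥ v = v := by
      have := congrArg (fun u => ((h' : GL (Fin 2) (ZMod p))⁻¹).1 *ᵥ u) h1
      simp only [Matrix.mulVec_mulVec] at this
      rw [← Units.val_mul, ← Units.val_mul, inv_mul_cancel, Units.val_one, Matrix.one_mulVec] at this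
      exact this
    have h3 := eq_one_of_fpf _ (hfpf _ (h'⁻¹ * h).2) v hv h2
    have h4 : h'⁻¹ * h = 1 := Subtype.ext h3
    exact (inv_mul_eq_one.mp h4).symm
  have hcard2 : Nat.card {u : Fin 2 → ZMod p // u ≠ 0} = p ^ 2 - 1 := by
    have hF : Fintype (ZMod p) := ZMod.fintype p
    rw [Nat.card_eq_fintype_card]
    have h1 : Fintype.card {u : Fin 2 → ZMod p // ¬ (u = 0)}
        = Fintype.card (Fin 2 → ZMod p) - Fintype.card {u : Fin 2 → ZMod p // u = 0} :=
      Fintype.card_subtype_compl _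
    have h2 : Fintype.card (Fin 2 → ZMod p) = p ^ 2 := by
      rw [Fintype.card_fun, ZMod.card, Fintype.card_fin]
    rw [← h2]
    convert h1 using 2
    simp
  have hfin : Finite {u : Fin 2 → ZMod p // u ≠ 0} := inferInstance
  have hbij : Function.Bijective φ :=
    hinj.bijective_of_nat_card_le (by rw [hcard, hcard2])
  obtain ⟨h, hh⟩ := hbij.2 ⟨w, hw⟩
  refine ⟨h, congrArg Subtype.val hh, ?_⟩
  intro h' hh'
  apply hinj
  rw [hh]
  exact Subtype.ext hh'

end Cfsg.Agent.Lib.Helper12.GL2
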