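import Cfsg.Agent.Lib.Helper12.GL2

/-!
Helper12 library: variant of `GL2` for larger groups, with a search tree for membership and
words coded by natural numbers.
-/

set_option autoImplicit false

namespace Cfsg.Agent.Lib.Helper12.GL2

open Matrix

/-- binary search tree of natural numbers -/
inductive BT : Type
  | leaf : BT
  | node : BT → ℕ → BT → BT

/-- in-order list of the entries -/
def BT.toList : BT → List ℕ
  | BT.leaf => []
  | BT.node l v r => l.toList ++ v :: r.toList

/-- search -/
def BT.lookup : BT → ℕ → Bool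
  | BT.leaf, _ => false
  | BT.node l v r, x => if x < v then l.lookup x else if v < x then r.lookup x else true

theorem BT.mem_of_lookup : ∀ (t : BT) (x : ℕ), t.lookup x = true → x ∈ t.toList
  | BT.leaf, x, h => by simp [BT.lookup] at h
  | BT.node l v r, x, h => by
    unfold BT.lookup at h
    unfold BT.toList
    rw [List.mem_append, List.mem_cons]
    by_cases h1 : x < v
    · rw [if_pos h1] at h
      exact Or.inl (BT.mem_of_lookup l x h)
    · rw [if_neg h1] at h
      by_cases h2 : v < x
      · rw [if_pos h2] at h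
        exact Or.inr (Or.inr (BT.mem_of_lookup r x h))
      · exact Or.inr (Or.inl (by omega))

/-- evaluate a word coded as a number in base 4 (digit `i + 1` for generator `i`) -/
def evalwN (p : ℕ) (gen : ℕ → ℕ) : ℕ → ℕ → ℕ
  | 0, _ => enc4 p 1 0 0 1
  | fuel + 1, w => if w = 0 then enc4 p 1 0 0 1 else
      mulc p (gen (w % 4 - 1)) (evalwN p gen fuel (w / 4))

theorem evalwN_spec {p : ℕ} [Fact p.Prime] (s : Set (GL (Fin 2) (ZMod p)))
    (G : ℕ → GL (Fin 2) (ZMod p)) (gen : ℕ → ℕ)
    (hG : ∀ i, G i ∈ Subgroup.closure s) (hgen : ∀ i, code (G i).1 = gen i) :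
    ∀ (fuel w : ℕ), ∃ g ∈ Subgroup.closure s, code g.1 = evalwN p gen fuel w
  | 0, _ => ⟨1, Subgroup.one_mem _, code_one⟩
  | fuel + 1, w => by
    unfold evalwN
    by_cases hw : w = 0
    · rw [if_pos hw]
      exact ⟨1, Subgroup.one_mem _, code_one⟩
    · rw [if_neg hw]
      obtain ⟨g, hg, hc⟩ := evalwN_spec s G gen hG hgen fuel (w / 4)
      refine ⟨G (w % 4 - 1) * g, Subgroup.mul_mem _ (hG _) hg, ?_⟩
      have hNZ : NeZero p := ⟨(Fact.out : p.Prime).ne_zero⟩
      rw [Units.val_mul, code_mul, hgen, hc]

theorem closure_spec_tree {p : ℕ} [Fact p.Prime] (s : Set (GL (Fin 2) (ZMod p)))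
    (G : ℕ → GL (Fin 2) (ZMod p)) (gen : ℕ → ℕ) (n : ℕ)
    (hG : ∀ i, G i ∈ Subgroup.closure s) (hgen : ∀ i, code (G i).1 = gen i)
    (hs : ∀ g ∈ s, ∃ i < n, g = G i)
    (L : List ℕ) (W : List ℕ) (T : BT) (fuel : ℕ)
    (hT : T.toList = L)
    (h1 : T.lookup (enc4 p 1 0 0 1) = true)
    (hclosed : (List.range n).all (fun i => L.all (fun x => T.lookup (mulc p (gen i) x))) = true)
    (hword : W.map (evalwN p gen fuel) = L)
    (hsorted : sortedB L = true) :
    (∀ g : GL (Fin 2) (ZMod p), g ∈ Subgroup.closure s ↔ code g.1 ∈ L) ∧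
      Nat.card (Subgroup.closure s) = L.length := by
  have hNZ : NeZero p := ⟨(Fact.out : p.Prime).ne_zero⟩
  have hfin : Finite (GL (Fin 2) (ZMod p)) := inferInstance
  have hmem : ∀ x, T.lookup x = true → x ∈ L := fun x hx => hT ▸ BT.mem_of_lookup T x hx
  have hiff : ∀ g : GL (Fin 2) (ZMod p), g ∈ Subgroup.closure s ↔ code g.1 ∈ L := by
    intro g
    constructor
    · intro hg
      have hg' : g ∈ Submonoid.closure s := by
        rw [← Subgroup.closure_toSubmonoid_of_finite]; exact hg
      induction hg' using Submonoid.closure_induction_left with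
      | one =>
        rw [Units.val_one, code_one]
        exact hmem _ h1
      | mul_left x hx y _ ih =>
        obtain ⟨i, hi, rfl⟩ := hs x hx
        have hy := ih (by rw [← Subgroup.closure_toSubmonoid_of_finite] at *; assumption)
        rw [Units.val_mul, code_mul, hgen]
        rw [List.all_eq_true] at hclosed
        have := hclosed i (List.mem_range.mpr hi)
        rw [List.all_eq_true] at this
        exact hmem _ (this _ hy)
    · intro hg
      rw [← hword, List.mem_map] at hg
      obtain ⟨w, -, hw⟩ := hg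
      obtain ⟨g', hg', hc⟩ := evalwN_spec s G gen hG hgen fuel w
      have : g' = g := Units.ext (code_injective (hc.trans hw))
      rw [← this]; exact hg'
  refine ⟨hiff, ?_⟩
  have hnodup : L.Nodup := (pairwise_of_sortedB L hsorted).imp (fun h => ne_of_lt h)
  let f : Subgroup.closure s → {x // x ∈ L.toFinset} := fun g =>
    ⟨code (g : GL (Fin 2) (ZMod p)).1, List.mem_toFinset.mpr ((hiff g).mp g.2)⟩
  have hf : Function.Bijective f := by
    constructor
    · intro g g' h
      have : code (g : GL (Fin 2) (ZMod p)).1 = code (g' : GL (Fin 2) (ZMod p)).1 :=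
        congrArg Subtype.val h
      exact Subtype.ext (Units.ext (code_injective this))
    · rintro ⟨x, hx⟩
      rw [List.mem_toFinset, ← hword, List.mem_map] at hx
      obtain ⟨w, -, hw⟩ := hx
      obtain ⟨g', hg', hc⟩ := evalwN_spec s G gen hG hgen fuel w
      exact ⟨⟨g', hg'⟩, Subtype.ext (hc.trans hw)⟩
  rw [Nat.card_congr (Equiv.ofBijective f hf), Nat.card_eq_fintype_card, Fintype.card_coe,
    List.toFinset_card_of_nodup hnodup]

end Cfsg.Agent.Lib.Helper12.GL2
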