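import Mathlib

/-!
# Non-abelian minimal normal subgroups, internally

`exists_family`: a non-abelian minimal normal subgroup `N` of a finite group `H` is the internal
direct product of a family `S : Fin m → Subgroup H` of non-abelian simple subgroups, which is a full
conjugacy class under `H` (so `H` permutes the `S i` transitively by conjugation).
-/

namespace Cfsg.Agent.Lib.Helper12.MinNormalNA

variable {H : Type*} [Group H]

/-- the conjugate `h X h⁻¹` of a subgroup. -/
def cj (h : H) (X : Subgroup H) : Subgroup H := X.map (MulAut.conj h).toMonoidHom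

theorem mem_cj {h : H} {X : Subgroup H} {y : H} : y ∈ cj h X ↔ h⁻¹ * y * h ∈ X := by
  unfold cj
  rw [Subgroup.mem_map_equiv]
  simp [MulAut.conj_symm_apply]

theorem cj_mul (g h : H) (X : Subgroup H) : cj g (cj h X) = cj (g * h) X := by
  ext y
  simp only [mem_cj]
  rw [show (g * h)⁻¹ * y * (g * h) = h⁻¹ * (g⁻¹ * y * g) * h by group]

theorem cj_one (X : Subgroup H) : cj 1 X = X := by
  ext y; simp [mem_cj]

theorem cj_bot (h : H) : cj h (⊥ : Subgroup H) = ⊥ := Subgroup.map_bot _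

theorem cj_inv_cj (h : H) (X : Subgroup H) : cj h⁻¹ (cj h X) = X := by
  rw [cj_mul, inv_mul_cancel, cj_one]

theorem cj_cj_inv (h : H) (X : Subgroup H) : cj h (cj h⁻¹ X) = X := by
  rw [cj_mul, mul_inv_cancel, cj_one]

theorem cj_injective (h : H) : Function.Injective (cj h) := by
  intro X Y hXY
  rw [← cj_inv_cj h X, hXY, cj_inv_cj]

theorem cj_mono {h : H} {X Y : Subgroup H} (hXY : X ≤ Y) : cj h X ≤ cj h Y := Subgroup.map_mono hXY

theorem conj_mem_cj {h : H} {X : Subgroup H} {x : H} (hx : x ∈ X) : h * x * h⁻¹ ∈ cj h X := by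
  rw [mem_cj]
  simpa [mul_assoc] using hx

/-- conjugation as an isomorphism between a subgroup and its conjugate. -/
def conjEquiv (h : H) (X Y : Subgroup H) (hXY : cj h X = Y) : X ≃* Y where
  toFun x := ⟨h * x * h⁻¹, by rw [← hXY]; exact conj_mem_cj x.2⟩
  invFun y := ⟨h⁻¹ * y * h, by
    have h1 : (y : H) ∈ cj h X := by rw [hXY]; exact y.2
    exact mem_cj.1 h1⟩
  left_inv x := by ext; simp [mul_assoc]
  right_inv y := by ext; simp [mul_assoc]
  map_mul' x y := by ext; simp [mul_assoc]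

theorem conjEquiv_coe (h : H) (X Y : Subgroup H) (hXY : cj h X = Y) (x : X) :
    ((conjEquiv h X Y hXY x : Y) : H) = h * x * h⁻¹ := rfl

/-- `X` is normalised by `N`. -/
def NormBy (N X : Subgroup H) : Prop := ∀ n ∈ N, ∀ x ∈ X, n * x * n⁻¹ ∈ X

theorem normBy_inf {N X Y : Subgroup H} (hX : NormBy N X) (hY : NormBy N Y) : NormBy N (X ⊓ Y) :=
  fun n hn x hx => ⟨hX n hn x hx.1, hY n hn x hx.2⟩

theorem normBy_iSup {N : Subgroup H} {ι : Sort*} (X : ι → Subgroup H) (h : ∀ i, NormBy N (X i)) :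
    NormBy N (⨆ i, X i) := by
  intro n hn x hx
  refine Subgroup.iSup_induction X (C := fun x => n * x * n⁻¹ ∈ ⨆ i, X i) hx ?_ ?_ ?_
  · intro i y hy
    exact Subgroup.mem_iSup_of_mem i (h i n hn y hy)
  · simp
  · intro y z hy hz
    have : n * (y * z) * n⁻¹ = (n * y * n⁻¹) * (n * z * n⁻¹) := by group
    rw [this]
    exact Subgroup.mul_mem _ hy hz

theorem normBy_cj (N : Subgroup H) [N.Normal] {X : Subgroup H} (hX : NormBy N X) (h : H) :
    NormBy N (cj h X) := by
  intro n hn y hy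
  rw [mem_cj] at hy ⊢
  have hn' : h⁻¹ * n * h ∈ N := by
    have := Subgroup.Normal.conj_mem (inferInstance : N.Normal) n hn h⁻¹
    simpa using this
  have := hX _ hn' _ hy
  have h2 : h⁻¹ * (n * y * n⁻¹) * h = h⁻¹ * n * h * (h⁻¹ * y * h) * (h⁻¹ * n * h)⁻¹ := by group
  rw [h2]
  exact this

theorem cj_eq_of_normBy {N X : Subgroup H} (hX : NormBy N X) {n : H} (hn : n ∈ N) : cj n X = X := by
  ext y
  rw [mem_cj]
  constructor
  · intro hy
    have := hX n hn _ hy
    simpa [mul_assoc] using this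
  · intro hy
    have := hX n⁻¹ (N.inv_mem hn) y hy
    simpa using this

theorem isSimpleGroup_of_internal {A : Subgroup H} (hne : A ≠ ⊥)
    (h : ∀ X : Subgroup H, X ≤ A → NormBy A X → X = ⊥ ∨ X = A) : IsSimpleGroup A := by
  have : Nontrivial A := (Subgroup.nontrivial_iff_ne_bot A).2 hne
  refine ⟨fun X hX => ?_⟩
  have hle : X.map A.subtype ≤ A := Subgroup.map_subtype_le X
  have hn : NormBy A (X.map A.subtype) := by
    intro n hn x hx
    obtain ⟨x₀, hx₀, rfl⟩ := Subgroup.mem_map.1 hx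
    exact Subgroup.mem_map.2 ⟨⟨n, hn⟩ * x₀ * ⟨n, hn⟩⁻¹, hX.conj_mem x₀ hx₀ ⟨n, hn⟩, rfl⟩
  rcases h _ hle hn with h1 | h1
  · left
    exact (Subgroup.map_eq_bot_iff_of_injective X A.subtype_injective).1 h1
  · right
    rw [eq_top_iff]
    intro a _
    have : (a : H) ∈ X.map A.subtype := by rw [h1]; exact a.2
    obtain ⟨x₀, hx₀, hx₀a⟩ := Subgroup.mem_map.1 this
    have : x₀ = a := Subtype.ext hx₀a
    rw [← this]
    exact hx₀

/-- **Structure of a non-abelian minimal normal subgroup**, in internal form. -/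
theorem exists_family [Finite H] (N : Subgroup H) [N.Normal] (hN : N ≠ ⊥)
    (hmin : ∀ M : Subgroup H, M.Normal → M ≤ N → M = ⊥ ∨ M = N)
    (hnab : ∃ x ∈ N, ∃ y ∈ N, x * y ≠ y * x) :
    ∃ (m : ℕ) (S : Fin m → Subgroup H), 0 < m ∧ Function.Injective S ∧
      (∀ i, S i ≤ N) ∧ (∀ i, NormBy N (S i)) ∧
      (∀ i j, i ≠ j → ∀ x ∈ S i, ∀ y ∈ S j, x * y = y * x) ∧
      iSupIndep S ∧ (⨆ i, S i) = N ∧
      (∀ i, IsSimpleGroup (S i)) ∧
      (∀ i, ∃ x ∈ S i, ∃ y ∈ S i, x * y ≠ y * x) ∧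
      (∀ (h : H) i, ∃ j, cj h (S i) = S j) ∧
      (∀ i j, ∃ h : H, cj h (S i) = S j) := by
  classical
  -- Step 1 : a minimal `N`-invariant subgroup of `N`
  let 𝒮 : Set (Subgroup H) := {X | X ≠ ⊥ ∧ X ≤ N ∧ NormBy N X}
  have h𝒮 : 𝒮.Nonempty :=
    ⟨N, hN, le_rfl, fun n hn x hx => N.mul_mem (N.mul_mem hn hx) (N.inv_mem hn)⟩
  let wf := (measure (fun X : Subgroup H => Nat.card X)).wf
  let T₁ := wf.min 𝒮 h𝒮
  have hT₁ : T₁ ∈ 𝒮 := wf.min_mem 𝒮 h𝒮
  have hT₁min : ∀ X ∈ 𝒮, ¬ Nat.card X < Nat.card T₁ := fun X hX => wf.not_lt_min 𝒮 hX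
  have hatom₁ : ∀ X : Subgroup H, X ≤ T₁ → NormBy N X → X = ⊥ ∨ X = T₁ := by
    intro X hX hXn
    by_cases hXb : X = ⊥
    · exact Or.inl hXb
    · right
      have := hT₁min X ⟨hXb, hX.trans hT₁.2.1, hXn⟩
      exact Subgroup.eq_of_le_of_card_ge hX (not_lt.1 this)
  have hmem : ∀ h : H, cj h T₁ ≠ ⊥ ∧ cj h T₁ ≤ N ∧ NormBy N (cj h T₁) ∧
      ∀ X : Subgroup H, X ≤ cj h T₁ → NormBy N X → X = ⊥ ∨ X = cj h T₁ := by
    intro h
    refine ⟨?_, ?_, normBy_cj N hT₁.2.2 h, ?_⟩
    · intro hb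
      apply hT₁.1
      rw [← cj_inv_cj h T₁, hb, cj_bot]
    · intro y hy
      rw [mem_cj] at hy
      have := hT₁.2.1 hy
      have h2 := Subgroup.Normal.conj_mem (inferInstance : N.Normal) _ this h
      simpa [mul_assoc] using h2
    · intro X hX hXn
      have h1 : cj h⁻¹ X ≤ T₁ := by
        have := cj_mono (h := h⁻¹) hX
        rwa [cj_inv_cj] at this
      rcases hatom₁ _ h1 (normBy_cj N hXn h⁻¹) with h2 | h2
      · left
        rw [← cj_cj_inv h X, h2, cj_bot]
      · right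
        rw [← h2, cj_cj_inv]
  -- Step 3 : distinct conjugates meet trivially and commute
  have hdisj : ∀ g h : H, cj g T₁ ≠ cj h T₁ → cj g T₁ ⊓ cj h T₁ = ⊥ := by
    intro g h hne
    rcases (hmem g).2.2.2 (cj g T₁ ⊓ cj h T₁) inf_le_left
      (normBy_inf (hmem g).2.2.1 (hmem h).2.2.1) with h1 | h1
    · exact h1
    · exfalso
      have hle : cj g T₁ ≤ cj h T₁ := by rw [← h1]; exact inf_le_right
      rcases (hmem h).2.2.2 _ hle (hmem g).2.2.1 with h2 | h2
      · exact (hmem g).1 h2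
      · exact hne h2
  have hcomm : ∀ g h : H, cj g T₁ ≠ cj h T₁ → ∀ x ∈ cj g T₁, ∀ y ∈ cj h T₁, x * y = y * x := by
    intro g h hne x hx y hy
    have h1 : x * y * x⁻¹ * y⁻¹ ∈ cj g T₁ ⊓ cj h T₁ := by
      constructor
      · have := (hmem g).2.2.1 y ((hmem h).2.1 hy) x⁻¹ (Subgroup.inv_mem _ hx)
        have h2 := Subgroup.mul_mem _ hx this
        simpa [mul_assoc] using h2
      · have := (hmem h).2.2.1 x ((hmem g).2.1 hx) y hy
        exact Subgroup.mul_mem _ this (Subgroup.inv_mem _ hy)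
    rw [hdisj g h hne, Subgroup.mem_bot] at h1
    have h2 : x * y = (x * y * x⁻¹ * y⁻¹) * (y * x) := by group
    rw [h2, h1, one_mul]
  -- Step 5 : the conjugates generate `N`
  have hsup : (⨆ h : H, cj h T₁) = N := by
    have hle : (⨆ h : H, cj h T₁) ≤ N := iSup_le (fun h => (hmem h).2.1)
    have hnorm : (⨆ h : H, cj h T₁).Normal := by
      constructor
      intro n hn g
      have h1 : g * n * g⁻¹ ∈ cj g (⨆ h : H, cj h T₁) := conj_mem_cj hn
      have hle2 : cj g (⨆ h : H, cj h T₁) ≤ ⨆ h : H, cj h T₁ := by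
        show (⨆ h : H, cj h T₁).map (MulAut.conj g).toMonoidHom ≤ _
        rw [Subgroup.map_iSup]
        exact iSup_le (fun h => (cj_mul g h T₁).le.trans (le_iSup (fun h => cj h T₁) (g * h)))
      exact hle2 h1
    rcases hmin _ hnorm hle with h | h
    · exfalso
      have : cj 1 T₁ ≤ ⨆ h : H, cj h T₁ := le_iSup (fun h => cj h T₁) 1
      rw [h, cj_one] at this
      exact hT₁.1 (eq_bot_iff.2 this)
    · exact h
  -- Step 4 : `T₁` is not abelian
  have hT₁na : ∃ x ∈ T₁, ∃ y ∈ T₁, x * y ≠ y * x := by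
    by_contra hab
    push Not at hab
    have habg : ∀ g : H, ∀ x ∈ cj g T₁, ∀ y ∈ cj g T₁, x * y = y * x := by
      intro g x hx y hy
      rw [mem_cj] at hx hy
      have := hab _ hx _ hy
      have h2 : x * y = g * ((g⁻¹ * x * g) * (g⁻¹ * y * g)) * g⁻¹ := by group
      rw [h2, this]; group
    have hcen : ∀ g : H, cj g T₁ ≤ Subgroup.centralizer (N : Set H) := by
      intro g x hx
      rw [Subgroup.mem_centralizer_iff]
      intro y hy
      have hNle : N ≤ Subgroup.centralizer ({x} : Set H) := by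
        refine le_trans (le_of_eq hsup.symm) (iSup_le ?_)
        intro h z hz
        rw [Subgroup.mem_centralizer_iff]
        intro w hw
        rw [Set.mem_singleton_iff] at hw
        subst hw
        by_cases hgh : cj g T₁ = cj h T₁
        · rw [← hgh] at hz
          exact habg g _ hx _ hz
        · exact hcomm g h hgh _ hx _ hz
      have hy' := hNle hy
      rw [Subgroup.mem_centralizer_iff] at hy'
      exact (hy' x rfl).symm
    obtain ⟨x, hx, y, hy, hxy⟩ := hnab
    have hN' : N ≤ Subgroup.centralizer (N : Set H) :=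
      le_trans (le_of_eq hsup.symm) (iSup_le hcen)
    have := hN' hx
    rw [Subgroup.mem_centralizer_iff] at this
    exact hxy (this y hy).symm
  -- Step 6 : indexing
  let 𝒞 : Set (Subgroup H) := Set.range (fun h : H => cj h T₁)
  have hfin : Finite 𝒞 := inferInstance
  have hne𝒞 : Nonempty 𝒞 := ⟨⟨cj 1 T₁, 1, rfl⟩⟩
  let m := Nat.card 𝒞
  let eqv : 𝒞 ≃ Fin m := Finite.equivFin 𝒞
  let S : Fin m → Subgroup H := fun i => (eqv.symm i).1
  have hSinj : Function.Injective S := fun i j h => eqv.symm.injective (Subtype.ext h)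
  have hSrange : ∀ i, ∃ g : H, S i = cj g T₁ := fun i => by
    obtain ⟨g, hg⟩ := (eqv.symm i).2
    exact ⟨g, hg.symm⟩
  have hSsurj : ∀ g : H, ∃ i, S i = cj g T₁ := fun g =>
    ⟨eqv ⟨cj g T₁, g, rfl⟩, by simp [S]⟩
  have hm : 0 < m := Nat.card_pos
  have hSN : ∀ i, S i ≤ N := by
    intro i
    obtain ⟨g, hg⟩ := hSrange i
    rw [hg]; exact (hmem g).2.1
  have hSnorm : ∀ i, NormBy N (S i) := by
    intro i
    obtain ⟨g, hg⟩ := hSrange i
    rw [hg]; exact (hmem g).2.2.1
  have hScomm : ∀ i j, i ≠ j → ∀ x ∈ S i, ∀ y ∈ S j, x * y = y * x := by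
    intro i j hij
    obtain ⟨g, hg⟩ := hSrange i
    obtain ⟨h, hh⟩ := hSrange j
    have hne : S i ≠ S j := fun h => hij (hSinj h)
    rw [hg, hh] at hne ⊢
    exact hcomm g h hne
  have hSna : ∀ i, ∃ x ∈ S i, ∃ y ∈ S i, x * y ≠ y * x := by
    intro i
    obtain ⟨g, hg⟩ := hSrange i
    obtain ⟨x, hx, y, hy, hxy⟩ := hT₁na
    rw [hg]
    refine ⟨g * x * g⁻¹, conj_mem_cj hx, g * y * g⁻¹, conj_mem_cj hy, ?_⟩
    intro h
    apply hxy
    have h2 : x * y = g⁻¹ * ((g * x * g⁻¹) * (g * y * g⁻¹)) * g := by group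
    rw [h2, h]; group
  have hSsup : (⨆ i, S i) = N := by
    apply le_antisymm (iSup_le hSN)
    refine le_trans (le_of_eq hsup.symm) (iSup_le ?_)
    intro g
    obtain ⟨i, hi⟩ := hSsurj g
    rw [← hi]
    exact le_iSup S i
  have hind : iSupIndep S := by
    intro i
    rw [disjoint_iff]
    obtain ⟨g, hg⟩ := hSrange i
    have hQn : NormBy N (⨆ (j) (_ : j ≠ i), S j) :=
      normBy_iSup _ (fun j => normBy_iSup _ (fun _ => hSnorm j))
    rcases (hmem g).2.2.2 (S i ⊓ ⨆ (j) (_ : j ≠ i), S j) (by rw [← hg]; exact inf_le_left)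
      (normBy_inf (hSnorm i) hQn) with h1 | h1
    · exact h1
    · exfalso
      have hle : S i ≤ ⨆ (j) (_ : j ≠ i), S j := by
        have : S i ⊓ ⨆ (j) (_ : j ≠ i), S j = S i := by rw [h1, hg]
        rw [← this]; exact inf_le_right
      have hQc : (⨆ (j) (_ : j ≠ i), S j) ≤ Subgroup.centralizer (S i : Set H) := by
        apply iSup_le; intro j; apply iSup_le; intro hji
        intro y hy
        rw [Subgroup.mem_centralizer_iff]
        intro x hx
        exact hScomm i j (Ne.symm hji) x hx y hy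
      obtain ⟨x, hx, y, hy, hxy⟩ := hSna i
      have := hQc (hle hy)
      rw [Subgroup.mem_centralizer_iff] at this
      exact hxy (this x hx)
  have hSsimple : ∀ i, IsSimpleGroup (S i) := by
    intro i
    obtain ⟨g, hg⟩ := hSrange i
    apply isSimpleGroup_of_internal
    · rw [hg]; exact (hmem g).1
    · intro X hX hXn
      have hXN : NormBy N X := by
        intro n hn
        rw [← hSsup] at hn
        refine Subgroup.iSup_induction S (C := fun n => ∀ x ∈ X, n * x * n⁻¹ ∈ X) hn ?_ ?_ ?_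
        · intro j y hy x hx
          by_cases hji : j = i
          · subst hji
            exact hXn y hy x hx
          · have := hScomm j i hji y hy x (hX hx)
            have h2 : y * x * y⁻¹ = x := by rw [this]; group
            rw [h2]; exact hx
        · intro x hx; simpa using hx
        · intro y z hy hz x hx
          have : y * z * x * (y * z)⁻¹ = y * (z * x * z⁻¹) * y⁻¹ := by group
          rw [this]
          exact hy _ (hz x hx)
      have := (hmem g).2.2.2 X (by rw [← hg]; exact hX) hXN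
      rw [← hg] at this
      exact this
  refine ⟨m, S, hm, hSinj, hSN, hSnorm, hScomm, hind, hSsup, hSsimple, hSna, ?_, ?_⟩
  · intro h i
    obtain ⟨g, hg⟩ := hSrange i
    obtain ⟨j, hj⟩ := hSsurj (h * g)
    exact ⟨j, by rw [hj, hg, cj_mul]⟩
  · intro i j
    obtain ⟨g, hg⟩ := hSrange i
    obtain ⟨g', hg'⟩ := hSrange j
    exact ⟨g' * g⁻¹, by rw [hg, hg', cj_mul, inv_mul_cancel_right]⟩

end Cfsg.Agent.Lib.Helper12.MinNormalNA
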