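import Mathlib

/-!
# The O'Nan–Scott dichotomy for a maximal invariant subgroup of a power of a simple group

`main`: let `T` be a non-abelian simple group, `D` a proper subgroup of `Fin m → T` and `𝒜` a set of
automorphisms, closed under inverses, permuting the coordinates transitively and preserving `D`, such
that `D` is maximal among the proper `𝒜`-invariant subgroups.  Then, up to coordinatewise
automorphisms, `D` is a product of proper subgroups of the factors or the set of functions constant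
on the blocks of a partition into blocks of equal size `k ≥ 2`.
-/

namespace Cfsg.Agent.Lib.Helper12.OSProd

variable {m : ℕ} {T : Type*} [Group T]

/-- `A` carries coordinate `i` to coordinate `j` through an automorphism of `T`. -/
def Rel (A : MulAut (Fin m → T)) (i j : Fin m) : Prop :=
  ∃ θ : T ≃* T, ∀ x : Fin m → T, A x j = θ (x i)

theorem rel_inv {A : MulAut (Fin m → T)} {i j : Fin m} (h : Rel A i j) : Rel A⁻¹ j i := by
  obtain ⟨θ, hθ⟩ := h
  refine ⟨θ.symm, fun y => ?_⟩
  have := hθ (A⁻¹ y)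
  rw [MulAut.apply_inv_self] at this
  rw [this, MulEquiv.symm_apply_apply]

theorem rel_left_unique [Nontrivial T] {A : MulAut (Fin m → T)} {i i' j : Fin m}
    (h : Rel A i j) (h' : Rel A i' j) : i = i' := by
  by_contra hne
  obtain ⟨θ, hθ⟩ := h
  obtain ⟨θ', hθ'⟩ := h'
  obtain ⟨t, ht⟩ := exists_ne (1 : T)
  have h1 := hθ (Pi.mulSingle i t)
  have h2 := hθ' (Pi.mulSingle i t)
  rw [Pi.mulSingle_eq_same] at h1
  rw [Pi.mulSingle_eq_of_ne (Ne.symm hne), map_one] at h2
  rw [h2] at h1
  exact ht (θ.injective (by rw [← h1, map_one]))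

theorem rel_right_unique [Nontrivial T] {A : MulAut (Fin m → T)} {i j j' : Fin m}
    (h : Rel A i j) (h' : Rel A i j') : j = j' :=
  rel_left_unique (rel_inv h) (rel_inv h')

theorem central_eq_one [IsSimpleGroup T] (hT : ∃ a b : T, a * b ≠ b * a) {z : T}
    (hz : ∀ t : T, z * t = t * z) : z = 1 := by
  have hzc : z ∈ Subgroup.center T := by
    rw [Subgroup.mem_center_iff]
    intro t; exact (hz t).symm
  rcases IsSimpleGroup.eq_bot_or_eq_top_of_normal (Subgroup.center T) inferInstance with h | h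
  · rw [h, Subgroup.mem_bot] at hzc; exact hzc
  · exfalso
    obtain ⟨a, b, hab⟩ := hT
    have ha : a ∈ Subgroup.center T := by rw [h]; trivial
    rw [Subgroup.mem_center_iff] at ha
    exact hab (ha b).symm

/-- the elements of `D` supported in `S`. -/
def DS (D : Subgroup (Fin m → T)) (S : Finset (Fin m)) : Subgroup (Fin m → T) where
  carrier := {x | x ∈ D ∧ ∀ i, i ∉ S → x i = 1}
  mul_mem' := by
    rintro x y ⟨hx, hx'⟩ ⟨hy, hy'⟩
    exact ⟨D.mul_mem hx hy, fun i hi => by rw [Pi.mul_apply, hx' i hi, hy' i hi, mul_one]⟩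
  one_mem' := ⟨D.one_mem, fun i _ => rfl⟩
  inv_mem' := by
    rintro x ⟨hx, hx'⟩
    exact ⟨D.inv_mem hx, fun i hi => by rw [Pi.inv_apply, hx' i hi, inv_one]⟩

theorem mem_DS {D : Subgroup (Fin m → T)} {S : Finset (Fin m)} {x : Fin m → T} :
    x ∈ DS D S ↔ x ∈ D ∧ ∀ i, i ∉ S → x i = 1 := Iff.rfl

theorem c1 {D : Subgroup (Fin m → T)} {k : ℕ} (hkmin : ∀ S, DS D S ≠ ⊥ → k ≤ S.card)
    {S : Finset (Fin m)} (hS : S.card = k) {i : Fin m} (hi : i ∈ S) {x : Fin m → T}
    (hx : x ∈ DS D S) (hxi : x i = 1) : x = 1 := by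
  by_contra hne
  have hx' : x ∈ DS D (S.erase i) := by
    refine ⟨hx.1, fun j hj => ?_⟩
    by_cases hji : j = i
    · rw [hji]; exact hxi
    · exact hx.2 j (fun h => hj (Finset.mem_erase.2 ⟨hji, h⟩))
  have hne' : DS D (S.erase i) ≠ ⊥ := by
    intro h
    rw [h, Subgroup.mem_bot] at hx'
    exact hne hx'
  have := hkmin _ hne'
  rw [Finset.card_erase_of_mem hi, hS] at this
  have hk : 0 < k := by rw [← hS]; exact Finset.card_pos.2 ⟨i, hi⟩
  omega

theorem c1' {D : Subgroup (Fin m → T)} {k : ℕ} (hkmin : ∀ S, DS D S ≠ ⊥ → k ≤ S.card)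
    {S : Finset (Fin m)} (hS : S.card = k) {i : Fin m} (hi : i ∈ S) {x y : Fin m → T}
    (hx : x ∈ DS D S) (hy : y ∈ DS D S) (hxy : x i = y i) : x = y := by
  have h := c1 hkmin hS hi ((DS D S).mul_mem hx ((DS D S).inv_mem hy))
    (by rw [Pi.mul_apply, Pi.inv_apply, hxy, mul_inv_cancel])
  exact mul_inv_eq_one.1 h

theorem c2 [IsSimpleGroup T] {D : Subgroup (Fin m → T)} (hsub : ∀ i t, ∃ x ∈ D, x i = t)
    {k : ℕ} (hkmin : ∀ S, DS D S ≠ ⊥ → k ≤ S.card)
    {S : Finset (Fin m)} (hS : S.card = k) (hne : DS D S ≠ ⊥) {i : Fin m} (hi : i ∈ S) (t : T) :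
    ∃ x ∈ DS D S, x i = t := by
  let M : Subgroup T := (DS D S).map (Pi.evalMonoidHom (fun _ : Fin m => T) i)
  have hMn : M.Normal := by
    constructor
    intro s hs u
    obtain ⟨x, hx, rfl⟩ := Subgroup.mem_map.1 hs
    obtain ⟨y, hy, rfl⟩ := hsub i u
    refine Subgroup.mem_map.2 ⟨y * x * y⁻¹, ⟨D.mul_mem (D.mul_mem hy hx.1) (D.inv_mem hy), ?_⟩, rfl⟩
    intro j hj
    rw [Pi.mul_apply, Pi.mul_apply, hx.2 j hj, mul_one, Pi.inv_apply, mul_inv_cancel]
  rcases IsSimpleGroup.eq_bot_or_eq_top_of_normal M hMn with h | h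
  · exfalso
    apply hne
    rw [eq_bot_iff]
    intro x hx
    rw [Subgroup.mem_bot]
    refine c1 hkmin hS hi hx ?_
    have : x i ∈ M := Subgroup.mem_map.2 ⟨x, hx, rfl⟩
    rw [h, Subgroup.mem_bot] at this
    exact this
  · have : t ∈ M := by rw [h]; trivial
    obtain ⟨x, hx, rfl⟩ := Subgroup.mem_map.1 this
    exact ⟨x, hx, rfl⟩

theorem c4 [IsSimpleGroup T] (hT : ∃ a b : T, a * b ≠ b * a) {D : Subgroup (Fin m → T)}
    (hsub : ∀ i t, ∃ x ∈ D, x i = t) {k : ℕ} (hkmin : ∀ S, DS D S ≠ ⊥ → k ≤ S.card)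
    {S S' : Finset (Fin m)} (hS : S.card = k) (hne : DS D S ≠ ⊥) (hS' : S'.card = k)
    (hne' : DS D S' ≠ ⊥) {i : Fin m} (hi : i ∈ S) (hi' : i ∈ S') : S = S' := by
  by_contra hSS
  have hlt : (S ∩ S').card < k := by
    by_contra hge
    rw [not_lt] at hge
    have h1 : S ∩ S' = S :=
      Finset.eq_of_subset_of_card_le Finset.inter_subset_left (by rw [hS]; exact hge)
    have h2 : S ⊆ S' := by rw [← h1]; exact Finset.inter_subset_right
    exact hSS (Finset.eq_of_subset_of_card_le h2 (by rw [hS, hS']))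
  have hbot : DS D (S ∩ S') = ⊥ := by
    by_contra h
    have := hkmin _ h
    omega
  obtain ⟨a, b, hab⟩ := hT
  obtain ⟨x, hx, hxa⟩ := c2 hsub hkmin hS hne hi a
  obtain ⟨y, hy, hyb⟩ := c2 hsub hkmin hS' hne' hi' b
  have hcomm : x * y * x⁻¹ * y⁻¹ ∈ DS D (S ∩ S') := by
    refine ⟨D.mul_mem (D.mul_mem (D.mul_mem hx.1 hy.1) (D.inv_mem hx.1)) (D.inv_mem hy.1), ?_⟩
    intro j hj
    rw [Finset.mem_inter, not_and_or] at hj
    rcases hj with hj | hj
    · simp [hx.2 j hj]
    · simp [hy.2 j hj]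
  rw [hbot, Subgroup.mem_bot] at hcomm
  have h3 := congrFun hcomm i
  simp only [Pi.mul_apply, Pi.inv_apply, Pi.one_apply, hxa, hyb] at h3
  apply hab
  have : a * b * a⁻¹ * b⁻¹ * b * a = 1 * b * a := by rw [h3]
  simpa [mul_assoc] using this

theorem min'_congr {s t : Finset (Fin m)} (h : s = t) (hs : s.Nonempty) (ht : t.Nonempty) :
    s.min' hs = t.min' ht := by
  subst h; rfl

/-- **The O'Nan–Scott dichotomy** for a maximal invariant subgroup of a power of a non-abelian
simple group. -/
theorem main [IsSimpleGroup T] (hT : ∃ a b : T, a * b ≠ b * a) (hm : 0 < m)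
    (D : Subgroup (Fin m → T)) (𝒜 : Set (MulAut (Fin m → T)))
    (hinv : ∀ A ∈ 𝒜, A⁻¹ ∈ 𝒜)
    (hD : ∀ A ∈ 𝒜, ∀ x ∈ D, A x ∈ D)
    (hperm : ∀ A ∈ 𝒜, ∀ i, ∃ j, Rel A i j)
    (htrans : ∀ i j, ∃ A ∈ 𝒜, Rel A i j)
    (hmax : ∀ R : Subgroup (Fin m → T), (∀ A ∈ 𝒜, ∀ x ∈ R, A x ∈ R) → D ≤ R → R = D ∨ R = ⊤)
    (hDtop : D ≠ ⊤) :
    ∃ θ : Fin m → (T ≃* T),
      (∃ K : Fin m → Subgroup T, (∀ i, K i ≠ ⊤) ∧ ∀ x, x ∈ D ↔ ∀ i, θ i (x i) ∈ K i) ∨
      (∃ (k : ℕ) (c : Fin m → Fin m), 2 ≤ k ∧
        (∀ j : Fin m, Nat.card {i : Fin m // c i = j} = k ∨ Nat.card {i : Fin m // c i = j} = 0) ∧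
        ∀ x, x ∈ D ↔ ∀ i j : Fin m, c i = c j → θ i (x i) = θ j (x j)) := by
  classical
  have hsurj : ∀ A ∈ 𝒜, ∀ j, ∃ i, Rel A i j := by
    intro A hA j
    obtain ⟨i, hi⟩ := hperm A⁻¹ (hinv A hA) j
    exact ⟨i, by simpa using rel_inv hi⟩
  have hall : ∀ x : Fin m → T, (∀ i t, Pi.mulSingle i t ∈ D) → x ∈ D := by
    intro x h
    exact Subgroup.pi_mem_of_mulSingle_mem x (fun i => h i (x i))
  by_cases hsub : ∀ i t, ∃ x ∈ D, x i = t
  · -- the subdirect case
    have hDne : DS D Finset.univ ≠ ⊥ := by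
      intro h
      obtain ⟨t, ht⟩ := exists_ne (1 : T)
      obtain ⟨x, hx, hxt⟩ := hsub ⟨0, hm⟩ t
      have : x ∈ DS D Finset.univ := ⟨hx, fun i hi => absurd (Finset.mem_univ i) hi⟩
      rw [h, Subgroup.mem_bot] at this
      rw [this] at hxt
      exact ht hxt.symm
    have hex : ∃ n, ∃ S : Finset (Fin m), DS D S ≠ ⊥ ∧ S.card = n := ⟨_, Finset.univ, hDne, rfl⟩
    set k := Nat.find hex with hk
    obtain ⟨S₀, hS₀ne, hS₀⟩ := Nat.find_spec hex
    change S₀.card = k at hS₀
    have hkmin : ∀ S, DS D S ≠ ⊥ → k ≤ S.card := by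
      intro S hS
      exact Nat.find_min' hex ⟨S, hS, rfl⟩
    -- translates of minimal sets
    have htransl : ∀ S : Finset (Fin m), DS D S ≠ ⊥ → S.card = k → ∀ A ∈ 𝒜, ∀ σ : Fin m → Fin m,
        (∀ i, Rel A i (σ i)) → DS D (S.image σ) ≠ ⊥ ∧ (S.image σ).card = k ∧
          ∀ x ∈ DS D S, A x ∈ DS D (S.image σ) := by
      intro S hSne hS A hA σ hσ
      have hmap : ∀ x ∈ DS D S, A x ∈ DS D (S.image σ) := by
        intro x hx
        refine ⟨hD A hA x hx.1, fun j hj => ?_⟩
        obtain ⟨i, hi⟩ := hsurj A hA j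
        have hiS : i ∉ S := by
          intro hiS
          apply hj
          rw [rel_right_unique hi (hσ i)]
          exact Finset.mem_image_of_mem σ hiS
        obtain ⟨θ, hθ⟩ := hi
        rw [hθ x, hx.2 i hiS, map_one]
      have hne : DS D (S.image σ) ≠ ⊥ := by
        intro h
        apply hSne
        rw [eq_bot_iff]
        intro x hx
        have := hmap x hx
        rw [h, Subgroup.mem_bot] at this
        rw [Subgroup.mem_bot]
        have h2 : A x = A 1 := by rw [this, map_one]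
        exact A.injective h2
      refine ⟨hne, le_antisymm ?_ (hkmin _ hne), hmap⟩
      rw [← hS]
      exact Finset.card_image_le
    have hS₀nonempty : S₀.Nonempty := by
      rw [Finset.nonempty_iff_ne_empty]
      intro h
      apply hS₀ne
      rw [eq_bot_iff]
      intro x hx
      rw [Subgroup.mem_bot]
      funext i
      exact hx.2 i (by rw [h]; exact Finset.notMem_empty i)
    obtain ⟨i₀, hi₀⟩ := hS₀nonempty
    have hcover : ∀ j : Fin m, ∃ S : Finset (Fin m), DS D S ≠ ⊥ ∧ S.card = k ∧ j ∈ S := by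
      intro j
      obtain ⟨A, hA, hAij⟩ := htrans i₀ j
      choose σ hσ using hperm A hA
      obtain ⟨h1, h2, -⟩ := htransl S₀ hS₀ne hS₀ A hA σ hσ
      refine ⟨S₀.image σ, h1, h2, ?_⟩
      rw [rel_right_unique hAij (hσ i₀)]
      exact Finset.mem_image_of_mem σ hi₀
    choose B hBne hBcard hBmem using hcover
    have huniq : ∀ (S : Finset (Fin m)), DS D S ≠ ⊥ → S.card = k → ∀ j, j ∈ S → S = B j := by
      intro S hS1 hS2 j hj
      exact c4 hT hsub hkmin hS2 hS1 (hBcard j) (hBne j) hj (hBmem j)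
    have hBeq : ∀ i j, i ∈ B j → B i = B j := by
      intro i j hij
      exact (huniq (B j) (hBne j) (hBcard j) i hij).symm
    have hBnonempty : ∀ j, (B j).Nonempty := fun j => ⟨j, hBmem j⟩
    let c : Fin m → Fin m := fun j => (B j).min' (hBnonempty j)
    have hcmem : ∀ j, c j ∈ B j := fun j => Finset.min'_mem _ _
    have hc_of_B : ∀ i j, B i = B j → c i = c j := fun i j h => min'_congr h _ _
    have hB_of_c : ∀ i j, c i = c j → B i = B j := by
      intro i j h
      have h1 := hBeq (c i) i (hcmem i)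
      have h2 := hBeq (c j) j (hcmem j)
      rw [← h1, ← h2, h]
    have hcc : ∀ j, c (c j) = c j := fun j => hc_of_B _ _ (hBeq _ _ (hcmem j))
    -- k ≥ 2
    have hk1 : 0 < k := by
      rw [← hS₀]; exact Finset.card_pos.2 ⟨i₀, hi₀⟩
    have hk2 : 2 ≤ k := by
      by_contra hlt
      have hk1' : k = 1 := by omega
      apply hDtop
      rw [eq_top_iff]
      intro x _
      apply hall
      intro j t
      have hBj : B j = {j} := by
        have := hBcard j
        rw [hk1', Finset.card_eq_one] at this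
        obtain ⟨l, hl⟩ := this
        have hjl := hBmem j
        rw [hl, Finset.mem_singleton] at hjl
        rw [hl, hjl]
      obtain ⟨y, hy, hyt⟩ := c2 hsub hkmin (hBcard j) (hBne j) (hBmem j) t
      have : y = Pi.mulSingle j t := by
        funext l
        by_cases hl : l = j
        · rw [hl, Pi.mulSingle_eq_same, hyt]
        · rw [Pi.mulSingle_eq_of_ne hl]
          exact hy.2 l (by rw [hBj, Finset.mem_singleton]; exact hl)
      rw [← this]
      exact hy.1
    -- the diagonal identifications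
    have hlift : ∀ (i : Fin m) (t : T), ∃ y ∈ DS D (B i), y i = t := fun i t =>
      c2 hsub hkmin (hBcard i) (hBne i) (hBmem i) t
    choose lift hlift1 hlift2 using hlift
    have hlift_eq : ∀ (i : Fin m) (y : Fin m → T), y ∈ DS D (B i) → lift i (y i) = y := by
      intro i y hy
      exact c1' hkmin (hBcard i) (hBmem i) (hlift1 i (y i)) hy (hlift2 i (y i))
    let θhom : ∀ i : Fin m, T →* T := fun i =>
      { toFun := fun t => lift i t (c i)
        map_one' := by
          have : lift i 1 = 1 := by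
            have := hlift_eq i 1 (DS D (B i)).one_mem
            simpa using this
          rw [this]; rfl
        map_mul' := by
          intro s t
          have : lift i (s * t) = lift i s * lift i t := by
            have := hlift_eq i (lift i s * lift i t) ((DS D (B i)).mul_mem (hlift1 i s) (hlift1 i t))
            rw [Pi.mul_apply, hlift2, hlift2] at this
            exact this
          rw [this]; rfl }
    have hθbij : ∀ i, Function.Bijective (θhom i) := by
      intro i
      constructor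
      · intro s t hst
        have h1 : lift i s (c i) = lift i t (c i) := hst
        have h2 := c1' hkmin (hBcard i) (hcmem i) (hlift1 i s) (hlift1 i t) h1
        have h3 := congrFun h2 i
        rw [hlift2, hlift2] at h3
        exact h3
      · intro u
        obtain ⟨y, hy, hyu⟩ := c2 hsub hkmin (hBcard i) (hBne i) (hcmem i) u
        refine ⟨y i, ?_⟩
        show lift i (y i) (c i) = u
        rw [hlift_eq i y hy, hyu]
    let θ : Fin m → (T ≃* T) := fun i => MulEquiv.ofBijective (θhom i) (hθbij i)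
    have hK1 : ∀ (i : Fin m) (y : Fin m → T), y ∈ DS D (B i) → θ i (y i) = y (c i) := by
      intro i y hy
      show lift i (y i) (c i) = y (c i)
      rw [hlift_eq i y hy]
    -- the subgroup of blockwise diagonal elements
    let R : Subgroup (Fin m → T) :=
      { carrier := {x | ∀ j, ∃ y ∈ DS D (B j), ∀ i ∈ B j, x i = y i}
        mul_mem' := by
          intro x x' hx hx' j
          obtain ⟨y, hy, hxy⟩ := hx j
          obtain ⟨y', hy', hxy'⟩ := hx' j
          exact ⟨y * y', (DS D (B j)).mul_mem hy hy', fun i hi => by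
            rw [Pi.mul_apply, Pi.mul_apply, hxy i hi, hxy' i hi]⟩
        one_mem' := fun j => ⟨1, (DS D (B j)).one_mem, fun i _ => rfl⟩
        inv_mem' := by
          intro x hx j
          obtain ⟨y, hy, hxy⟩ := hx j
          exact ⟨y⁻¹, (DS D (B j)).inv_mem hy, fun i hi => by
            rw [Pi.inv_apply, Pi.inv_apply, hxy i hi]⟩ }
    have hRmem : ∀ x, x ∈ R ↔ ∀ j, ∃ y ∈ DS D (B j), ∀ i ∈ B j, x i = y i := fun x => Iff.rfl
    have hDR : D ≤ R := by
      intro x hx
      rw [hRmem]
      intro j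
      refine ⟨lift j (x j), hlift1 j (x j), fun i hi => ?_⟩
      set y := lift j (x j) with hy
      have hyj : y j = x j := hlift2 j (x j)
      have hcen : ∀ t : T, (y i)⁻¹ * x i * t = t * ((y i)⁻¹ * x i) := by
        intro t
        obtain ⟨w, hw, hwt⟩ := c2 hsub hkmin (hBcard j) (hBne j) hi t
        have h1 : x * w * x⁻¹ ∈ DS D (B j) := by
          refine ⟨D.mul_mem (D.mul_mem hx hw.1) (D.inv_mem hx), fun l hl => ?_⟩
          rw [Pi.mul_apply, Pi.mul_apply, hw.2 l hl, mul_one, Pi.inv_apply, mul_inv_cancel]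
        have h2 : y * w * y⁻¹ ∈ DS D (B j) :=
          (DS D (B j)).mul_mem ((DS D (B j)).mul_mem (hlift1 j (x j)) hw)
            ((DS D (B j)).inv_mem (hlift1 j (x j)))
        have h3 : x * w * x⁻¹ = y * w * y⁻¹ := by
          refine c1' hkmin (hBcard j) (hBmem j) h1 h2 ?_
          simp only [Pi.mul_apply, Pi.inv_apply, hyj]
        have h4 := congrFun h3 i
        simp only [Pi.mul_apply, Pi.inv_apply, hwt] at h4
        -- x i * t * (x i)⁻¹ = y i * t * (y i)⁻¹
        have h5 : (y i)⁻¹ * (x i * t * (x i)⁻¹) * x i = (y i)⁻¹ * (y i * t * (y i)⁻¹) * x i := by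
          rw [h4]
        simpa [mul_assoc] using h5
      have := central_eq_one hT hcen
      exact (inv_mul_eq_one.1 this).symm
    have hRinv : ∀ A ∈ 𝒜, ∀ x ∈ R, A x ∈ R := by
      intro A hA x hx
      rw [hRmem] at hx ⊢
      intro j'
      choose σ hσ using hperm A hA
      obtain ⟨j, hj⟩ := hsurj A hA j'
      have hj' : j' = σ j := rel_right_unique hj (hσ j)
      obtain ⟨h1, h2, h3⟩ := htransl (B j) (hBne j) (hBcard j) A hA σ hσ
      have hBj' : (B j).image σ = B j' :=
        huniq _ h1 h2 j' (by rw [hj']; exact Finset.mem_image_of_mem σ (hBmem j))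
      obtain ⟨y, hy, hxy⟩ := hx j
      refine ⟨A y, by rw [← hBj']; exact h3 y hy, fun i' hi' => ?_⟩
      rw [← hBj', Finset.mem_image] at hi'
      obtain ⟨i, hi, rfl⟩ := hi'
      obtain ⟨θ', hθ'⟩ := hσ i
      rw [hθ' x, hθ' y, hxy i hi]
    have hRtop : R ≠ ⊤ := by
      intro h
      apply hDtop
      rw [eq_top_iff]
      intro x _
      apply hall
      intro j t
      have : Pi.mulSingle j t ∈ R := by rw [h]; trivial
      rw [hRmem] at this
      obtain ⟨y, hy, hxy⟩ := this j
      have : y = Pi.mulSingle j t := by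
        funext l
        by_cases hl : l ∈ B j
        · exact (hxy l hl).symm
        · rw [hy.2 l hl]
          have hlj : l ≠ j := fun h => hl (by rw [h]; exact hBmem j)
          rw [Pi.mulSingle_eq_of_ne hlj]
      rw [← this]
      exact hy.1
    have hRD : R = D := by
      rcases hmax R hRinv hDR with h | h
      · exact h
      · exact absurd h hRtop
    refine ⟨θ, Or.inr ⟨k, c, hk2, ?_, ?_⟩⟩
    · intro j₀
      by_cases hex : ∃ i₁, c i₁ = j₀
      · left
        obtain ⟨i₁, hi₁⟩ := hex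
        have hfib : ∀ i, c i = j₀ ↔ i ∈ B i₁ := by
          intro i
          constructor
          · intro h
            have := hB_of_c i i₁ (by rw [h, hi₁])
            rw [← this]; exact hBmem i
          · intro h
            rw [← hi₁]
            exact hc_of_B _ _ (hBeq i i₁ h)
        rw [Nat.card_congr (Equiv.subtypeEquivRight hfib), Nat.card_eq_fintype_card,
          Fintype.card_coe, hBcard]
      · right
        rw [Nat.card_eq_zero]
        left
        exact ⟨fun ⟨i, hi⟩ => hex ⟨i, hi⟩⟩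
    · intro x
      rw [← hRD, hRmem]
      constructor
      · intro hx i j hij
        have hBij := hB_of_c i j hij
        obtain ⟨y, hy, hxy⟩ := hx i
        rw [hxy i (hBmem i), hxy j (by rw [hBij]; exact hBmem j), hK1 i y hy,
          hK1 j y (by rw [← hBij]; exact hy), hij]
      · intro hx j
        set r := c j with hr
        have hBr : B r = B j := hBeq r j (hcmem j)
        refine ⟨lift r (x r), by rw [← hBr]; exact hlift1 r (x r), fun i hi => ?_⟩
        set y := lift r (x r) with hy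
        have hyr : y r = x r := hlift2 r (x r)
        have hyB : y ∈ DS D (B r) := hlift1 r (x r)
        have hBi : B i = B r := by rw [hBr]; exact hBeq i j hi
        have hci : c i = c r := hc_of_B _ _ hBi
        have h1 := hx i r hci
        have h2 : θ r (x r) = y (c r) := by rw [← hyr]; exact hK1 r y hyB
        have h3 : θ i (y i) = y (c i) := hK1 i y (by rw [hBi]; exact hyB)
        have h4 : θ i (x i) = θ i (y i) := by rw [h1, h2, h3, hci]
        exact (θ i).injective h4
  · -- the product case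
    push Not at hsub
    obtain ⟨i₀, t₀, ht₀⟩ := hsub
    let K : Fin m → Subgroup T := fun i => D.map (Pi.evalMonoidHom (fun _ : Fin m => T) i)
    have hKmem : ∀ i t, t ∈ K i ↔ ∃ y ∈ D, y i = t := by
      intro i t
      exact Subgroup.mem_map
    have hKne : ∀ i, K i ≠ ⊤ := by
      intro i h
      obtain ⟨A, hA, θ, hθ⟩ := htrans i₀ i
      have : θ t₀ ∈ K i := by rw [h]; trivial
      rw [hKmem] at this
      obtain ⟨y, hy, hyt⟩ := this
      have h1 := hθ (A⁻¹ y)
      rw [MulAut.apply_inv_self, hyt] at h1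
      have h2 := θ.injective h1
      exact ht₀ (A⁻¹ y) (hD A⁻¹ (hinv A hA) y hy) h2.symm
    let R : Subgroup (Fin m → T) := Subgroup.pi Set.univ K
    have hRmem : ∀ x, x ∈ R ↔ ∀ i, x i ∈ K i := by
      intro x
      simp only [R, Subgroup.mem_pi, Set.mem_univ, forall_true_left]
    have hDR : D ≤ R := by
      intro x hx
      rw [hRmem]
      intro i
      exact (hKmem i _).2 ⟨x, hx, rfl⟩
    have hRinv : ∀ A ∈ 𝒜, ∀ x ∈ R, A x ∈ R := by
      intro A hA x hx
      rw [hRmem] at hx ⊢
      intro j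
      obtain ⟨i, θ, hθ⟩ := hsurj A hA j
      obtain ⟨y, hy, hyx⟩ := (hKmem i _).1 (hx i)
      exact (hKmem j _).2 ⟨A y, hD A hA y hy, by rw [hθ y, hθ x, hyx]⟩
    have hRtop : R ≠ ⊤ := by
      intro h
      have : Pi.mulSingle i₀ t₀ ∈ R := by rw [h]; trivial
      rw [hRmem] at this
      have := this i₀
      rw [Pi.mulSingle_eq_same, hKmem] at this
      obtain ⟨y, hy, hyt⟩ := this
      exact ht₀ y hy hyt
    have hRD : R = D := by
      rcases hmax R hRinv hDR with h | h
      · exact h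
      · exact absurd h hRtop
    refine ⟨fun _ => MulEquiv.refl T, Or.inl ⟨K, hKne, fun x => ?_⟩⟩
    rw [← hRD, hRmem]
    rfl

end Cfsg.Agent.Lib.Helper12.OSProd
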