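import Mathlib
import Cfsg.Agent.Lib.Helper12.Coef
import Cfsg.Agent.Lib.Helper80.Schur
import Cfsg.Agent.Lib.Helper80.Orthogonality
import Cfsg.Agent.S0719

set_option autoImplicit false
set_option linter.unusedSectionVars false

/-!
The kernel `kk χ x y = ∑ g, [g • x = y] χ g` of a class function on a permutation group
(a multiple of the matrix of the central idempotent of `χ` on the permutation module), its
orthogonality and eigen-relations, and the expansion of the trace function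
`g ↦ ∑ x, B x (g⁻¹ • x)` of an invariant kernel in irreducible characters.
-/

namespace Cfsg.Agent.Lib.Helper12.TwoP1

open MulAction Cfsg.Agent.Lib.Helper12.Hecke Cfsg.Agent.Lib.Helper12.Subdeg
  Cfsg.Agent.Lib.Helper12.PermChar Cfsg.Agent.Lib.Helper12.Coef
  Cfsg.Agent.Lib.Helper3
open scoped ComplexConjugate

section

variable {G : Type*} [Group G] [Fintype G] {Ω : Type*} [Fintype Ω] [DecidableEq Ω]
  [MulAction G Ω]

/-- the kernel of a function on the group -/
noncomputable def kk (χ : G → ℂ) (x y : Ω) : ℂ := ∑ g : G, if g • x = y then χ g else 0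

theorem kk_smul {χ : G → ℂ} (hχ : Cfsg.IsClassFunction G χ) (k : G) (x y : Ω) :
    kk χ (k • x) (k • y) = kk χ x y := by
  unfold kk
  rw [← Equiv.sum_comp (MulAut.conj k).toEquiv]
  refine Finset.sum_congr rfl (fun g _ => ?_)
  have h1 : ((MulAut.conj k).toEquiv g) = k * g * k⁻¹ := rfl
  have h2 : ((k * g * k⁻¹) • k • x = k • y) ↔ (g • x = y) := by
    rw [← mul_smul, inv_mul_cancel_right, mul_smul]
    exact smul_left_cancel_iff k
  rw [h1, hχ g k]
  by_cases h : g • x = y
  · rw [if_pos (h2.mpr h), if_pos h]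
  · rw [if_neg (fun h' => h (h2.mp h')), if_neg h]

theorem kk_conj {χ : G → ℂ} (hχ : ∀ g, χ g⁻¹ = conj (χ g)) (x y : Ω) :
    kk χ y x = conj (kk χ x y) := by
  unfold kk
  rw [map_sum, ← Equiv.sum_comp (Equiv.inv G)]
  refine Finset.sum_congr rfl (fun g _ => ?_)
  have h2 : ((Equiv.inv G g) • y = x) ↔ (g • x = y) := by
    show g⁻¹ • y = x ↔ g • x = y
    rw [inv_smul_eq_iff, eq_comm]
  by_cases h : g • x = y
  · rw [if_pos (h2.mpr h), if_pos h]; exact hχ g
  · rw [if_neg (fun h' => h (h2.mp h')), if_neg h, map_zero]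

theorem sum_kk_row (χ : G → ℂ) (x : Ω) : ∑ y, kk χ x y = ∑ g, χ g := by
  unfold kk
  rw [Finset.sum_comm]
  refine Finset.sum_congr rfl (fun g _ => ?_)
  rw [Finset.sum_ite_eq, if_pos (Finset.mem_univ _)]

theorem kk_orbit {χ : G → ℂ} (hχ : Cfsg.IsClassFunction G χ) (a b y : Ω)
    (hy : y ∈ orbit (stabilizer G a) b) : kk χ a y = kk χ a b := by
  obtain ⟨h, rfl⟩ := hy
  have h1 : (h : G) • a = a := h.2
  have h2 := kk_smul hχ (h : G) a b
  rw [h1] at h2
  exact h2

variable [IsPretransitive G Ω]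

theorem coef_eq_sum_kk (a : Ω) (B : Matrix Ω Ω ℤ) (χ : G → ℂ) :
    coef a B χ = (Nat.card (stabilizer G a) : ℂ)⁻¹ * ∑ y, (B a y : ℂ) * kk χ a y := by
  unfold coef kk
  congr 1
  simp_rw [Finset.mul_sum]
  rw [Finset.sum_comm]
  refine Finset.sum_congr rfl (fun g _ => ?_)
  simp_rw [mul_ite, mul_zero]
  rw [Finset.sum_ite_eq, if_pos (Finset.mem_univ _)]

theorem kk_self (a : Ω) {χ : G → ℂ} (hχ : Cfsg.IsClassFunction G χ)
    (h1 : Cfsg.classInner (permChar G Ω) χ = 1) :
    kk χ a a = (Nat.card (stabilizer G a) : ℂ) := by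
  have h2 := coef_eq_sum_kk a (1 : Matrix Ω Ω ℤ) χ
  rw [coef_one_mat a hχ, h1, map_one] at h2
  have h3 : ∑ y, ((1 : Matrix Ω Ω ℤ) a y : ℂ) * kk χ a y = kk χ a a := by
    rw [Finset.sum_eq_single a]
    · rw [Matrix.one_apply_eq, Int.cast_one, one_mul]
    · intro y _ hy
      rw [Matrix.one_apply_ne (Ne.symm hy), Int.cast_zero, zero_mul]
    · intro h; exact absurd (Finset.mem_univ a) h
  rw [h3] at h2
  have hc := card_stab_ne_zero (G := G) a
  field_simp at h2
  exact h2.symm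

theorem coef_orbMat (a b : Ω) {χ : G → ℂ} (hχ : Cfsg.IsClassFunction G χ) :
    coef a (orbMat G a b) χ = (Nat.card (stabilizer G a) : ℂ)⁻¹ *
      ((Nat.card (orbit (stabilizer G a) b) : ℂ) * kk χ a b) := by
  classical
  rw [coef_eq_sum_kk]
  congr 1
  rw [← sum_orbMat (G := G) a b, Finset.sum_mul]
  refine Finset.sum_congr rfl (fun y _ => ?_)
  rw [Cfsg.Agent.S0719.orbMat_row]
  by_cases hy : y ∈ orbit (stabilizer G a) b
  · rw [if_pos hy, kk_orbit hχ a b y hy]
  · rw [if_neg hy, Int.cast_zero, zero_mul, zero_mul]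

theorem coef_transpose (a : Ω) {B : Matrix Ω Ω ℤ} (hB : IsInv G B) {χ : G → ℂ}
    (hχ : ∀ g, χ g⁻¹ = conj (χ g)) : coef a B.transpose χ = conj (coef a B χ) := by
  unfold coef
  rw [map_mul, map_inv₀, map_natCast, map_sum, ← Equiv.sum_comp (Equiv.inv G)]
  congr 1
  refine Finset.sum_congr rfl (fun g _ => ?_)
  rw [map_mul, map_intCast, Equiv.inv_apply, hχ g, Matrix.transpose_apply]
  congr 2
  have := hB g (g⁻¹ • a) a
  rw [smul_inv_smul] at this
  exact this.symm

theorem card_fixed_eq (g k : G) :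
    (∑ x : Ω, if k • x = g • x then (1 : ℂ) else 0) = permChar G Ω (g⁻¹ * k) := by
  have h1 : Nat.card (fixedBy Ω (g⁻¹ * k)) =
      (Finset.univ.filter (fun x : Ω => k • x = g • x)).card := by
    rw [← Nat.card_eq_finsetCard]
    apply Nat.card_congr
    apply Equiv.subtypeEquivRight
    intro x
    rw [MulAction.mem_fixedBy, Finset.mem_filter, mul_smul, inv_smul_eq_iff]
    simp
  show _ = (Nat.card (fixedBy Ω (g⁻¹ * k)) : ℂ)
  rw [h1, Finset.sum_boole]

theorem sum_kk_diag {V : Type*} [AddCommGroup V] [Module ℂ V] [FiniteDimensional ℂ V]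
    (ρ : Representation ℂ G V) [ρ.IsIrreducible] (g : G) :
    ∑ x : Ω, kk ρ.character x (g • x) =
      ((∑ k, permChar G Ω k * ρ.character k) / (Module.finrank ℂ V : ℂ)) * ρ.character g := by
  unfold kk
  rw [Finset.sum_comm]
  have h1 : ∀ k : G, (∑ x : Ω, if k • x = g • x then ρ.character k else 0) =
      ρ.character k * permChar G Ω (g⁻¹ * k) := by
    intro k
    rw [← card_fixed_eq, Finset.mul_sum]
    refine Finset.sum_congr rfl (fun x _ => ?_)
    split_ifs <;> simp
  rw [Finset.sum_congr rfl (fun k _ => h1 k), ← Equiv.sum_comp (Equiv.mulLeft g)]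
  have h2 : ∀ k : G, ρ.character (Equiv.mulLeft g k) * permChar G Ω (g⁻¹ * Equiv.mulLeft g k) =
      LinearMap.trace ℂ V (ρ g * (permChar G Ω k • ρ k)) := by
    intro k
    rw [Equiv.coe_mulLeft, inv_mul_cancel_left, mul_smul_comm, map_smul, smul_eq_mul, mul_comm,
      ← map_mul]
    rfl
  rw [Finset.sum_congr rfl (fun k _ => h2 k), ← map_sum, ← Finset.mul_sum,
    Cfsg.Agent.Lib.Helper80.sum_classFun_smul ρ (permChar G Ω) isClassFunction_permChar,
    mul_smul_comm, mul_one, map_smul, smul_eq_mul]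
  rfl

theorem sum_kk_mul {V : Type*} [AddCommGroup V] [Module ℂ V] [FiniteDimensional ℂ V]
    (ρ : Representation ℂ G V) [ρ.IsIrreducible] (a : Ω) :
    ∑ y, kk ρ.character a y * kk ρ.character y a =
      ((Nat.card G : ℂ) / (Module.finrank ℂ V : ℂ)) * kk ρ.character a a := by
  have h1 : ∀ y : Ω, kk ρ.character a y * kk ρ.character y a =
      ∑ g : G, ∑ h : G, (if g • a = y then
        ρ.character g * (if h • g • a = a then ρ.character h else 0) else 0) := by
    intro y
    unfold kk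
    rw [Finset.sum_mul]
    refine Finset.sum_congr rfl (fun g _ => ?_)
    by_cases hg : g • a = y
    · simp only [if_pos hg]
      rw [Finset.mul_sum]
      subst hg
      rfl
    · simp only [if_neg hg, zero_mul, Finset.sum_const_zero]
  rw [Finset.sum_congr rfl (fun y _ => h1 y), Finset.sum_comm]
  have h2 : ∀ g : G, (∑ y : Ω, ∑ h : G, (if g • a = y then
      ρ.character g * (if h • g • a = a then ρ.character h else 0) else 0)) =
      ∑ h : G, ρ.character g * (if h • g • a = a then ρ.character h else 0) := by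
    intro g
    rw [Finset.sum_comm]
    refine Finset.sum_congr rfl (fun h _ => ?_)
    rw [Finset.sum_ite_eq, if_pos (Finset.mem_univ _)]
  rw [Finset.sum_congr rfl (fun g _ => h2 g)]
  have h3 : ∀ g : G, (∑ h : G, ρ.character g * (if h • g • a = a then ρ.character h else 0)) =
      ∑ t : G, (if t • a = a then ρ.character g * ρ.character (t * g⁻¹) else 0) := by
    intro g
    rw [← Equiv.sum_comp (Equiv.mulRight g⁻¹)]
    refine Finset.sum_congr rfl (fun t _ => ?_)
    rw [Equiv.coe_mulRight, ← mul_smul, inv_mul_cancel_right]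
    split_ifs <;> simp
  rw [Finset.sum_congr rfl (fun g _ => h3 g), Finset.sum_comm]
  have h4 : ∀ t : G, ∑ g : G, ρ.character g * ρ.character (t * g⁻¹) =
      ((Nat.card G : ℂ) / (Module.finrank ℂ V : ℂ)) * ρ.character t := by
    intro t
    rw [← Equiv.sum_comp (Equiv.inv G)]
    have h5 : ∀ g : G, ρ.character (Equiv.inv G g) * ρ.character (t * (Equiv.inv G g)⁻¹) =
        LinearMap.trace ℂ V (ρ t * (ρ.character g⁻¹ • ρ g)) := by
      intro g
      rw [Equiv.inv_apply, inv_inv, mul_smul_comm, map_smul, smul_eq_mul, ← map_mul]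
      rfl
    rw [Finset.sum_congr rfl (fun g _ => h5 g), ← map_sum, ← Finset.mul_sum,
      Cfsg.Agent.Lib.Helper80.sum_char_inv_smul, mul_smul_comm, mul_one, map_smul, smul_eq_mul]
    rfl
  unfold kk
  rw [Finset.mul_sum]
  refine Finset.sum_congr rfl (fun t _ => ?_)
  by_cases ht : t • a = a
  · simp only [if_pos ht]
    rw [h4 t]
  · simp only [if_neg ht, Finset.sum_const_zero, mul_zero]

theorem leig {V : Type*} [AddCommGroup V] [Module ℂ V] [FiniteDimensional ℂ V]
    (ρ : Representation ℂ G V) (a : Ω)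
    (h1 : Cfsg.classInner (permChar G Ω) ρ.character = 1) {M : Matrix Ω Ω ℤ} (hM : IsInv G M)
    (u : G) :
    ∑ g : G, (M a (g • a) : ℂ) * ρ.character (u * g) =
      coef a M ρ.character *
        ∑ g : G, ((1 : Matrix Ω Ω ℤ) a (g • a) : ℂ) * ρ.character (u * g) := by
  have hc := card_stab_ne_zero (G := G) a
  have key : ∀ N : Matrix Ω Ω ℤ, ∑ g : G, (N a (g • a) : ℂ) * ρ.character (u * g) =
      (Nat.card (stabilizer G a) : ℂ) * LinearMap.trace ℂ V (ρ u * heckeHom ρ a N) := by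
    intro N
    rw [heckeHom_apply, mul_smul_comm, map_smul, smul_eq_mul, ← mul_assoc, mul_inv_cancel₀ hc,
      one_mul, Finset.mul_sum, map_sum]
    refine Finset.sum_congr rfl (fun g _ => ?_)
    rw [mul_smul_comm, map_smul, smul_eq_mul, ← map_mul]
    rfl
  rw [key M, key 1, heckeHom_eq_coef_smul a ρ h1 hM, mul_smul_comm, map_smul, smul_eq_mul]
  ring

theorem eig_aux {χ : G → ℂ} (hχ : Cfsg.IsClassFunction G χ) (a : Ω) {B : Matrix Ω Ω ℤ}
    (hB : IsInv G B) (s t : G) :
    ∑ g : G, χ g * (B (g • s • a) (t • a) : ℂ) =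
      ∑ g : G, (B.transpose a (g • a) : ℂ) * χ (s⁻¹ * t * g) := by
  rw [← Equiv.sum_comp ((Equiv.mulLeft t).trans (Equiv.mulRight s⁻¹))]
  refine Finset.sum_congr rfl (fun g _ => ?_)
  have h1 : ((Equiv.mulLeft t).trans (Equiv.mulRight s⁻¹)) g = t * g * s⁻¹ := rfl
  rw [h1, ← mul_smul, inv_mul_cancel_right, mul_smul, hB t, Matrix.transpose_apply, mul_comm]
  congr 1
  rw [← hχ (t * g * s⁻¹) s⁻¹]
  congr 1
  group

theorem eig {V : Type*} [AddCommGroup V] [Module ℂ V] [FiniteDimensional ℂ V]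
    (ρ : Representation ℂ G V) (a : Ω)
    (h1 : Cfsg.classInner (permChar G Ω) ρ.character = 1) {B : Matrix Ω Ω ℤ} (hB : IsInv G B)
    (x y : Ω) :
    ∑ g : G, ρ.character g * (B (g • x) y : ℂ) =
      coef a B.transpose ρ.character * kk ρ.character x y := by
  obtain ⟨s, rfl⟩ := exists_smul_eq G a x
  obtain ⟨t, rfl⟩ := exists_smul_eq G a y
  have hχ : Cfsg.IsClassFunction G ρ.character := fun g h => ρ.char_conj g h
  rw [eig_aux hχ a hB s t, leig ρ a h1 (isInv_transpose hB) (s⁻¹ * t)]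
  congr 1
  have h2 := eig_aux hχ a (isInv_one (G := G) (Ω := Ω)) s t
  rw [Matrix.transpose_one] at h2
  rw [← h2]
  unfold kk
  refine Finset.sum_congr rfl (fun g _ => ?_)
  rw [Matrix.one_apply]
  split_ifs <;> simp

theorem eig_left {V : Type*} [AddCommGroup V] [Module ℂ V] [FiniteDimensional ℂ V]
    (ρ : Representation ℂ G V) (a : Ω)
    (h1 : Cfsg.classInner (permChar G Ω) ρ.character = 1) {B : Matrix Ω Ω ℤ} (hB : IsInv G B)
    (x y : Ω) :
    ∑ z, (B x z : ℂ) * kk ρ.character z y =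
      coef a B.transpose ρ.character * kk ρ.character x y := by
  rw [← eig ρ a h1 hB x y]
  unfold kk
  simp_rw [Finset.mul_sum]
  rw [Finset.sum_comm]
  refine Finset.sum_congr rfl (fun g _ => ?_)
  rw [Finset.sum_eq_single (g⁻¹ • y)]
  · rw [smul_inv_smul, if_pos rfl, mul_comm]
    congr 2
    have := hB g x (g⁻¹ • y)
    rw [smul_inv_smul] at this
    exact this.symm
  · intro z _ hz
    rw [if_neg, mul_zero]
    intro h
    apply hz
    rw [← h, inv_smul_smul]
  · intro h
    exact absurd (Finset.mem_univ _) h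

theorem eig_right {V : Type*} [AddCommGroup V] [Module ℂ V] [FiniteDimensional ℂ V]
    (ρ : Representation ℂ G V) (a : Ω)
    (h1 : Cfsg.classInner (permChar G Ω) ρ.character = 1) {B : Matrix Ω Ω ℤ} (hB : IsInv G B)
    (x y : Ω) :
    ∑ z, kk ρ.character x z * (B z y : ℂ) =
      coef a B.transpose ρ.character * kk ρ.character x y := by
  rw [← eig ρ a h1 hB x y]
  unfold kk
  simp_rw [Finset.sum_mul]
  rw [Finset.sum_comm]
  refine Finset.sum_congr rfl (fun g _ => ?_)
  simp_rw [ite_mul, zero_mul]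
  rw [Finset.sum_ite_eq, if_pos (Finset.mem_univ _)]

/-- the trace function of an invariant kernel -/
noncomputable def trF (B : Matrix Ω Ω ℤ) (g : G) : ℂ := ∑ x : Ω, (B x (g⁻¹ • x) : ℂ)

theorem trF_classFunction {B : Matrix Ω Ω ℤ} (hB : IsInv G B) :
    Cfsg.IsClassFunction G (trF B) := by
  intro g h
  unfold trF
  rw [← Equiv.sum_comp (MulAction.toPerm h : Equiv.Perm Ω)]
  refine Finset.sum_congr rfl (fun x _ => ?_)
  rw [MulAction.toPerm_apply, ← mul_smul]
  have : (h * g * h⁻¹)⁻¹ * h = h * g⁻¹ := by group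
  rw [this, mul_smul, hB]

theorem sum_twist (a : Ω) {B : Matrix Ω Ω ℤ} (hB : IsInv G B) {χ : G → ℂ}
    (hχ : Cfsg.IsClassFunction G χ) (x : Ω) :
    ∑ g : G, (B x (g • x) : ℂ) * χ g = ∑ g : G, (B a (g • a) : ℂ) * χ g := by
  obtain ⟨s, rfl⟩ := exists_smul_eq G a x
  rw [← Equiv.sum_comp (MulAut.conj s).toEquiv]
  refine Finset.sum_congr rfl (fun g _ => ?_)
  have h1 : ((MulAut.conj s).toEquiv g) = s * g * s⁻¹ := rfl
  rw [h1, hχ g s, ← mul_smul, inv_mul_cancel_right, mul_smul, hB]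

theorem card_eq_stab_mul (a : Ω) :
    (Nat.card G : ℂ) = (Nat.card (stabilizer G a) : ℂ) * (Fintype.card Ω : ℂ) := by
  have h := sum_smul_eq (G := G) a (fun _ : Ω => (1 : ℕ))
  rw [Finset.sum_const, Finset.sum_const, Finset.card_univ, Finset.card_univ, smul_eq_mul,
    smul_eq_mul, smul_eq_mul, mul_one, mul_one] at h
  rw [Nat.card_eq_fintype_card (α := G), h]
  push_cast
  ring

theorem classInner_trF (a : Ω) {B : Matrix Ω Ω ℤ} (hB : IsInv G B) {χ : G → ℂ}
    (hχ : Cfsg.IsClassFunction G χ) (hinv : ∀ g, χ g⁻¹ = conj (χ g)) :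
    Cfsg.classInner (trF B) χ = coef a B χ := by
  unfold Cfsg.classInner trF
  have h1 : ∑ g : G, (∑ x : Ω, (B x (g⁻¹ • x) : ℂ)) * conj (χ g) =
      ∑ x : Ω, ∑ g : G, (B x (g • x) : ℂ) * χ g := by
    simp_rw [Finset.sum_mul]
    rw [Finset.sum_comm]
    refine Finset.sum_congr rfl (fun x _ => ?_)
    rw [← Equiv.sum_comp (Equiv.inv G)]
    refine Finset.sum_congr rfl (fun g _ => ?_)
    rw [Equiv.inv_apply, inv_inv, hinv, Complex.conj_conj]
  rw [h1, Finset.sum_congr rfl (fun x _ => sum_twist a hB hχ x), Finset.sum_const,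
    Finset.card_univ, nsmul_eq_mul, card_eq_stab_mul a]
  unfold coef
  have hc := card_stab_ne_zero (G := G) a
  have hΩ : (Fintype.card Ω : ℂ) ≠ 0 := by
    have : Nonempty Ω := ⟨a⟩
    exact_mod_cast Fintype.card_ne_zero
  field_simp

theorem trF_expansion [Fintype (Cfsg.IrrCharacter G)] (a : Ω) {B : Matrix Ω Ω ℤ}
    (hB : IsInv G B) (g : G) :
    trF B g = ∑ ψ : Cfsg.IrrCharacter G, coef a B (ψ : G → ℂ) * (ψ : G → ℂ) g := by
  rw [Cfsg.Agent.Lib.Helper80.classFun_expansion_apply (trF B) (trF_classFunction hB) g]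
  refine Finset.sum_congr rfl (fun ψ _ => ?_)
  congr 1
  obtain ⟨n, ρ, hirr, hρ⟩ := ψ.2
  have hcf : Cfsg.IsClassFunction G (ψ : G → ℂ) := by
    rw [← hρ]
    exact fun g h => ρ.char_conj g h
  have hinv : ∀ g, (ψ : G → ℂ) g⁻¹ = conj ((ψ : G → ℂ) g) := by
    rw [← hρ]
    exact fun g => Cfsg.Agent.Lib.Helper80.char_inv ρ g
  exact classInner_trF a hB hcf hinv

end

end Cfsg.Agent.Lib.Helper12.TwoP1
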