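import Mathlib
import Cfsg.Agent.Lib.Helper12.TwoP1
import Cfsg.Agent.Lib.Helper80.CharOps
import Cfsg.Agent.Lib.Helper80.SchurBound
import Cfsg.Agent.Lib.Helper75.GaloisChar
import Cfsg.Agent.Lib.Helper82.AbelianSylow
import Cfsg.Agent.Lib.Helper81.CharCore

set_option autoImplicit false
set_option linter.unusedSectionVars false

/-!
A semiregular subgroup `P` of prime order `p` in a transitive group of degree `2p`:
the two `P`-orbits, and the constituents of the permutation character.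
-/

namespace Cfsg.Agent.Lib.Helper12.TwoP2

open MulAction Cfsg.Agent.Lib.Helper12.Hecke Cfsg.Agent.Lib.Helper12.Subdeg
  Cfsg.Agent.Lib.Helper12.PermChar Cfsg.Agent.Lib.Helper12.Coef
  Cfsg.Agent.Lib.Helper12.TwoP1 Cfsg.Agent.Lib.Helper3 Cfsg.Agent.Lib.Helper74
open scoped ComplexConjugate

section porbits

variable {G : Type*} [Group G] {Ω : Type*} [Fintype Ω] [MulAction G Ω]
  (P : Subgroup G) [Fintype P]

theorem sum_two_orbits {M : Type*} [AddCommMonoid M]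
    (hsr : ∀ u : P, u ≠ 1 → ∀ x : Ω, (u : G) • x ≠ x)
    (hcard : Fintype.card Ω = 2 * Fintype.card P) (ω₁ ω₂ : Ω)
    (h12 : ∀ u : P, (u : G) • ω₁ ≠ ω₂) (f : Ω → M) :
    ∑ x, f x = ∑ u : P, f ((u : G) • ω₁) + ∑ u : P, f ((u : G) • ω₂) := by
  classical
  let e : P ⊕ P → Ω :=
    fun q => Sum.elim (fun u : P => (u : G) • ω₁) (fun u : P => (u : G) • ω₂) q
  have hfree : ∀ (u v : P) (x : Ω), (u : G) • x = (v : G) • x → u = v := by
    intro u v x h
    by_contra hne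
    have h1 : v⁻¹ * u ≠ 1 := by
      intro h2
      apply hne
      rw [inv_mul_eq_one] at h2
      exact h2.symm
    apply hsr (v⁻¹ * u) h1 x
    rw [Subgroup.coe_mul, Subgroup.coe_inv, mul_smul, h, inv_smul_smul]
  have hinj : Function.Injective e := by
    rintro (u | u) (v | v) h
    · exact congrArg Sum.inl (hfree u v ω₁ h)
    · exfalso
      have h' : (u : G) • ω₁ = (v : G) • ω₂ := h
      apply h12 (v⁻¹ * u)
      rw [Subgroup.coe_mul, Subgroup.coe_inv, mul_smul]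
      exact inv_smul_eq_iff.mpr h'
    · exfalso
      have h' : (u : G) • ω₂ = (v : G) • ω₁ := h
      apply h12 (u⁻¹ * v)
      rw [Subgroup.coe_mul, Subgroup.coe_inv, mul_smul]
      exact inv_smul_eq_iff.mpr h'.symm
    · exact congrArg Sum.inr (hfree u v ω₂ h)
  have hbij : Function.Bijective e := by
    rw [Fintype.bijective_iff_injective_and_card]
    refine ⟨hinj, ?_⟩
    rw [Fintype.card_sum, hcard]
    ring
  rw [← (Equiv.ofBijective e hbij).sum_comp f, Fintype.sum_sum_type]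
  rfl

theorem sum_diag_P {M : Type*} [AddCommMonoid M] (hcomm : ∀ u v : P, u * v = v * u)
    (hsr : ∀ u : P, u ≠ 1 → ∀ x : Ω, (u : G) • x ≠ x)
    (hcard : Fintype.card Ω = 2 * Fintype.card P) (ω₁ ω₂ : Ω)
    (h12 : ∀ u : P, (u : G) • ω₁ ≠ ω₂)
    (Φ : Ω → Ω → M) (hΦ : ∀ (z : P) (x y : Ω), Φ ((z : G) • x) ((z : G) • y) = Φ x y) (u : P) :
    ∑ x, Φ x ((u : G) • x) =
      Fintype.card P • (Φ ω₁ ((u : G) • ω₁) + Φ ω₂ ((u : G) • ω₂)) := by
  rw [sum_two_orbits P hsr hcard ω₁ ω₂ h12]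
  have h1 : ∀ (ω : Ω) (z : P), Φ ((z : G) • ω) ((u : G) • (z : G) • ω) = Φ ω ((u : G) • ω) := by
    intro ω z
    have h2 : (u : G) • (z : G) • ω = (z : G) • (u : G) • ω := by
      rw [← mul_smul, ← mul_smul, ← Subgroup.coe_mul, ← Subgroup.coe_mul, hcomm]
    rw [h2, hΦ]
  simp_rw [h1]
  rw [Finset.sum_const, Finset.sum_const, Finset.card_univ, smul_add]

end porbits

section comb

theorem exists_unique_term {I : Type*} [Fintype I] [DecidableEq I] (f : I → ℕ) (i₀ : I)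
    (h0 : f i₀ = 1) (hsum : ∑ i, f i = 2) :
    ∃ i₁, i₁ ≠ i₀ ∧ f i₁ = 1 ∧ ∀ i, i ≠ i₀ → i ≠ i₁ → f i = 0 := by
  have h1 : ∑ i ∈ Finset.univ.erase i₀, f i = 1 := by
    have := Finset.add_sum_erase Finset.univ f (Finset.mem_univ i₀)
    omega
  have h2 : ∃ i₁ ∈ Finset.univ.erase i₀, f i₁ ≠ 0 := by
    by_contra hcon
    push Not at hcon
    rw [Finset.sum_eq_zero hcon] at h1
    exact absurd h1 (by norm_num)
  obtain ⟨i₁, hi₁, hf₁⟩ := h2
  have h3 := Finset.add_sum_erase (Finset.univ.erase i₀) f hi₁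
  have h4 : f i₁ = 1 := by omega
  have h5 : ∑ i ∈ (Finset.univ.erase i₀).erase i₁, f i = 0 := by omega
  refine ⟨i₁, Finset.ne_of_mem_erase hi₁, h4, ?_⟩
  intro i hi0 hi1
  exact Finset.sum_eq_zero_iff.mp h5 i
    (Finset.mem_erase.mpr ⟨hi1, Finset.mem_erase.mpr ⟨hi0, Finset.mem_univ _⟩⟩)

theorem exists_coprime_pow {p : ℕ} (hp : p.Prime) {N : ℕ} (hN : N ≠ 0) (s : ℕ) (hs : ¬ p ∣ s) :
    ∃ k, Nat.Coprime k N ∧ k ≡ s [MOD p] := by
  obtain ⟨e, t, ht, hNe⟩ := Nat.exists_eq_pow_mul_and_not_dvd hN p hp.ne_one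
  have hcop : Nat.Coprime p t := (hp.coprime_iff_not_dvd).mpr ht
  obtain ⟨k, hk1, hk2⟩ := Nat.chineseRemainder hcop s 1
  refine ⟨k, ?_, hk1⟩
  have hkp : Nat.Coprime k p := by
    unfold Nat.Coprime
    rw [hk1.gcd_eq]
    exact (Nat.coprime_comm.mp ((hp.coprime_iff_not_dvd).mpr hs))
  have hkt : Nat.Coprime k t := by
    unfold Nat.Coprime
    rw [hk2.gcd_eq]
    exact Nat.gcd_one_left t
  rw [hNe]
  exact Nat.Coprime.mul_right (Nat.Coprime.pow_right e hkp) hkt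

theorem nat_split {I : Type*} [Fintype I] [DecidableEq I] (m N : I → ℕ) (i₂ i' : I) (D : ℕ)
    (h2' : i' ≠ i₂) (hm' : m i' ≠ 0) (hD : 0 < D)
    (hsum : ∑ i, m i * N i = 2 * D) (hm2 : m i₂ = 1) (h2 : N i₂ = D)
    (hge : D ≤ N i') :
    m i' = 1 ∧ N i' = D ∧ ∀ i, i ≠ i₂ → i ≠ i' → m i ≠ 0 → N i = 0 := by
  have e1 := Finset.add_sum_erase Finset.univ (fun i => m i * N i) (Finset.mem_univ i₂)
  have hi' : i' ∈ Finset.univ.erase i₂ := Finset.mem_erase.mpr ⟨h2', Finset.mem_univ _⟩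
  have e2 := Finset.add_sum_erase (Finset.univ.erase i₂) (fun i => m i * N i) hi'
  beta_reduce at e1 e2
  rw [hm2, h2, one_mul] at e1
  have h4 : N i' ≤ m i' * N i' := Nat.le_mul_of_pos_left _ (Nat.pos_of_ne_zero hm')
  obtain ⟨X, hX⟩ : ∃ X, X = m i' * N i' := ⟨_, rfl⟩
  rw [← hX] at e2 h4
  have h5 : N i' = D := by omega
  have h6 : X = D := by omega
  have h7 : ∑ i ∈ (Finset.univ.erase i₂).erase i', m i * N i = 0 := by omega
  refine ⟨?_, h5, ?_⟩
  · have h8 : m i' * N i' = 1 * N i' := by rw [← hX, h6, h5, one_mul]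
    exact Nat.eq_of_mul_eq_mul_right (by omega) h8
  · intro i hi2 hi' hmi
    have h9 := Finset.sum_eq_zero_iff.mp h7 i
      (Finset.mem_erase.mpr ⟨hi', Finset.mem_erase.mpr ⟨hi2, Finset.mem_univ _⟩⟩)
    rcases Nat.mul_eq_zero.mp h9 with h | h
    · exact absurd h hmi
    · exact h

theorem classInner_self_ge {A : Type*} [Group A] [Fintype A] (hcomm : ∀ a b : A, a * b = b * a)
    {φ : A → ℂ} (hφ : Cfsg.IsCharacter A φ) :
    ∃ N d : ℕ, Cfsg.classInner φ φ = N ∧ φ 1 = d ∧ d ≤ N := by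
  classical
  have : Fintype (Cfsg.IrrCharacter A) := Fintype.ofFinite _
  obtain ⟨c, hc, hexp⟩ := Cfsg.Agent.Lib.Helper80.character_expansion hφ
  refine ⟨∑ θ, c θ ^ 2, ∑ θ, c θ, ?_, ?_, ?_⟩
  · have h1 := Cfsg.Agent.Lib.Helper80.classInner_sum_irr (fun θ => (c θ : ℂ))
      (fun θ => (c θ : ℂ))
    rw [← hexp] at h1
    rw [h1]
    push_cast
    refine Finset.sum_congr rfl (fun θ _ => ?_)
    rw [Complex.conj_natCast]
    ring
  · have h1 := congrFun hexp 1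
    rw [h1]
    simp only [Finset.sum_apply, Pi.smul_apply, smul_eq_mul]
    push_cast
    refine Finset.sum_congr rfl (fun θ _ => ?_)
    rw [Cfsg.Agent.Lib.Helper82.irr_one_eq_one_of_comm hcomm θ.2, mul_one]
  · exact Finset.sum_le_sum (fun θ _ => Nat.le_self_pow two_ne_zero _)

end comb

section chars

variable {G : Type*} [Group G] [Fintype G] {Ω : Type*} [Fintype Ω] [DecidableEq Ω]
  [MulAction G Ω] [IsPretransitive G Ω] (P : Subgroup G) [Fintype P]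

theorem permChar_P (hsr : ∀ u : P, u ≠ 1 → ∀ x : Ω, (u : G) • x ≠ x) (u : P) (hu : u ≠ 1) :
    permChar G Ω (u : G) = 0 := by
  have : IsEmpty (fixedBy Ω (u : G)) := ⟨fun x => hsr u hu x.1 x.2⟩
  show (Nat.card (fixedBy Ω (u : G)) : ℂ) = 0
  rw [Nat.card_of_isEmpty, Nat.cast_zero]

theorem sum_permChar_P (hsr : ∀ u : P, u ≠ 1 → ∀ x : Ω, (u : G) • x ≠ x) (f : P → ℂ) :
    ∑ u : P, permChar G Ω (u : G) * f u = (Fintype.card Ω : ℂ) * f 1 := by
  rw [Finset.sum_eq_single 1]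
  · rw [Subgroup.coe_one, permChar_one]
  · intro u _ hu
    rw [permChar_P P hsr u hu, zero_mul]
  · intro h
    exact absurd (Finset.mem_univ _) h

theorem sum_P_nat {φ ψ : G → ℂ} (hφ : Cfsg.IsCharacter G φ) (hψ : Cfsg.IsCharacter G ψ) :
    ∃ k : ℕ, ∑ u : P, φ u * conj (ψ u) = (Fintype.card P : ℂ) * k := by
  obtain ⟨k, hk⟩ := Cfsg.Agent.Lib.Helper80.classInner_nat
    (Cfsg.Agent.Lib.Helper80.isCharacter_restrict P hφ)
    (Cfsg.Agent.Lib.Helper80.isCharacter_restrict P hψ)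
  refine ⟨k, ?_⟩
  have hc : (Fintype.card P : ℂ) ≠ 0 := by exact_mod_cast Fintype.card_ne_zero
  have h2 : ∑ u : P, φ u * conj (ψ u) =
      (Fintype.card P : ℂ) * ((Nat.card P : ℂ)⁻¹ * ∑ u : P, φ u * conj (ψ u)) := by
    rw [Nat.card_eq_fintype_card, ← mul_assoc, mul_inv_cancel₀ hc, one_mul]
  rw [h2]
  congr 1

variable [Fintype (Cfsg.IrrCharacter G)]

theorem permChar_expansion (m : Cfsg.IrrCharacter G → ℕ)
    (hm : ∀ ψ : Cfsg.IrrCharacter G, Cfsg.classInner (permChar G Ω) (ψ : G → ℂ) = m ψ) (g : G) :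
    permChar G Ω g = ∑ ψ : Cfsg.IrrCharacter G, (m ψ : ℂ) * (ψ : G → ℂ) g := by
  rw [Cfsg.Agent.Lib.Helper80.classFun_expansion_apply (permChar G Ω) isClassFunction_permChar g]
  exact Finset.sum_congr rfl (fun ψ _ => by rw [hm ψ])

theorem sum_mult_P (hsr : ∀ u : P, u ≠ 1 → ∀ x : Ω, (u : G) • x ≠ x)
    (m : Cfsg.IrrCharacter G → ℕ)
    (hm : ∀ ψ : Cfsg.IrrCharacter G, Cfsg.classInner (permChar G Ω) (ψ : G → ℂ) = m ψ)
    (f : P → ℂ) :
    ∑ ψ : Cfsg.IrrCharacter G, (m ψ : ℂ) * ∑ u : P, (ψ : G → ℂ) u * f u =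
      (Fintype.card Ω : ℂ) * f 1 := by
  rw [← sum_permChar_P P hsr f]
  simp_rw [permChar_expansion m hm, Finset.sum_mul, Finset.mul_sum]
  rw [Finset.sum_comm]
  refine Finset.sum_congr rfl (fun u _ => Finset.sum_congr rfl (fun ψ _ => ?_))
  ring

theorem permChar_pow (k : ℕ) (hk : Nat.Coprime k (Nat.card G)) (g : G) :
    permChar G Ω (g ^ k) = permChar G Ω g := by
  have h : fixedBy Ω (g ^ k) = fixedBy Ω g := by
    apply Set.Subset.antisymm
    · obtain ⟨j, hj⟩ := exists_pow_eq_self_of_coprime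
        (Nat.Coprime.coprime_dvd_right (orderOf_dvd_natCard g) hk)
      have h1 := fixedBy_subset_fixedBy_zpow (α := Ω) (g ^ k) (j : ℤ)
      rw [zpow_natCast, hj] at h1
      exact h1
    · have h1 := fixedBy_subset_fixedBy_zpow (α := Ω) g (k : ℤ)
      rw [zpow_natCast] at h1
      exact h1
  show (Nat.card (fixedBy Ω (g ^ k)) : ℂ) = (Nat.card (fixedBy Ω g) : ℂ)
  rw [h]

theorem classInner_permChar_pow (k : ℕ) (hk : Nat.Coprime k (Nat.card G)) (χ : G → ℂ) :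
    Cfsg.classInner (permChar G Ω) (fun g => χ (g ^ k)) =
      Cfsg.classInner (permChar G Ω) χ := by
  unfold Cfsg.classInner
  congr 1
  rw [← Equiv.sum_comp (powCoprime hk.symm) (fun g => permChar G Ω g * conj (χ g))]
  refine Finset.sum_congr rfl (fun g _ => ?_)
  show _ = permChar G Ω (g ^ k) * conj (χ (g ^ k))
  rw [permChar_pow k hk g]

theorem sum_P_pow (k : ℕ) (hk : Nat.Coprime k (Nat.card G)) (χ : G → ℂ) :
    ∑ u : P, χ ((u : G) ^ k) = ∑ u : P, χ u := by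
  have hk' : (Nat.card P).Coprime k :=
    (Nat.Coprime.coprime_dvd_right (Subgroup.card_subgroup_dvd_card P) hk).symm
  rw [← Equiv.sum_comp (powCoprime hk') (fun u : P => χ u)]
  refine Finset.sum_congr rfl (fun u _ => ?_)
  show _ = χ ((u ^ k : P) : G)
  rw [Subgroup.coe_pow]

theorem exists_chi2 (hsr : ∀ u : P, u ≠ 1 → ∀ x : Ω, (u : G) • x ≠ x)
    (hcard : Fintype.card Ω = 2 * Fintype.card P)
    (m : Cfsg.IrrCharacter G → ℕ)
    (hm : ∀ ψ : Cfsg.IrrCharacter G, Cfsg.classInner (permChar G Ω) (ψ : G → ℂ) = m ψ)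
    (hm1 : m (irrOne G) = 1) :
    ∃ χ₂ : Cfsg.IrrCharacter G, χ₂ ≠ irrOne G ∧ m χ₂ = 1 ∧
      ∑ u : P, (χ₂ : G → ℂ) u = Fintype.card P ∧
      ∀ ψ : Cfsg.IrrCharacter G, ψ ≠ irrOne G → ψ ≠ χ₂ → m ψ ≠ 0 →
        ∑ u : P, (ψ : G → ℂ) u = 0 := by
  classical
  have hc : (Fintype.card P : ℂ) ≠ 0 := by exact_mod_cast Fintype.card_ne_zero
  have hex : ∀ ψ : Cfsg.IrrCharacter G, ∃ k : ℕ,
      ∑ u : P, (ψ : G → ℂ) u = (Fintype.card P : ℂ) * k := by
    intro ψ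
    obtain ⟨k, hk⟩ := sum_P_nat P (isCharacter_of_irr ψ.2)
      (Cfsg.Agent.Lib.Helper80.isCharacter_one (G := G))
    refine ⟨k, ?_⟩
    rw [← hk]
    refine Finset.sum_congr rfl (fun u _ => ?_)
    rw [map_one, mul_one]
  choose aP haP using hex
  have hsum : ∑ ψ : Cfsg.IrrCharacter G, m ψ * aP ψ = 2 := by
    have h1 := sum_mult_P P hsr m hm (fun _ => 1)
    simp only [mul_one] at h1
    simp_rw [haP] at h1
    rw [hcard] at h1
    have h2 : (Fintype.card P : ℂ) * ((∑ ψ : Cfsg.IrrCharacter G, m ψ * aP ψ : ℕ) : ℂ) =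
        (Fintype.card P : ℂ) * ((2 : ℕ) : ℂ) := by
      push_cast at h1 ⊢
      rw [Finset.mul_sum]
      rw [show ((2 : ℂ) * (Fintype.card P : ℂ)) = (Fintype.card P : ℂ) * 2 by ring] at h1
      rw [← h1]
      refine Finset.sum_congr rfl (fun ψ _ => ?_)
      ring
    exact_mod_cast mul_left_cancel₀ hc h2
  have h0 : m (irrOne G) * aP (irrOne G) = 1 := by
    have h1 := haP (irrOne G)
    simp only [irrOne_apply, Finset.sum_const, Finset.card_univ, nsmul_eq_mul, mul_one] at h1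
    have h2 : (Fintype.card P : ℂ) * ((1 : ℕ) : ℂ) = (Fintype.card P : ℂ) * (aP (irrOne G) : ℂ) := by
      rw [← h1, Nat.cast_one, mul_one]
    have h3 : (1 : ℕ) = aP (irrOne G) := by exact_mod_cast mul_left_cancel₀ hc h2
    rw [hm1, ← h3]
  obtain ⟨χ₂, hne, h1, huniq⟩ := exists_unique_term (fun ψ => m ψ * aP ψ) (irrOne G) h0 hsum
  have h2 : m χ₂ = 1 ∧ aP χ₂ = 1 := by
    have h1' : m χ₂ * aP χ₂ = 1 := h1
    exact ⟨Nat.eq_one_of_mul_eq_one_right h1', Nat.eq_one_of_mul_eq_one_left h1'⟩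
  refine ⟨χ₂, hne, h2.1, ?_, ?_⟩
  · rw [haP χ₂, h2.2, Nat.cast_one, mul_one]
  · intro ψ hψ1 hψ2 hmψ
    have h3 := huniq ψ hψ1 hψ2
    have h4 : aP ψ = 0 := by
      rcases Nat.mul_eq_zero.mp h3 with h | h
      · exact absurd h hmψ
      · exact h
    rw [haP ψ, h4, Nat.cast_zero, mul_zero]

theorem chi2_pow
    (m : Cfsg.IrrCharacter G → ℕ)
    (hm : ∀ ψ : Cfsg.IrrCharacter G, Cfsg.classInner (permChar G Ω) (ψ : G → ℂ) = m ψ)
    (χ₂ : Cfsg.IrrCharacter G) (hne : χ₂ ≠ irrOne G) (hm2 : m χ₂ = 1)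
    (ha2 : ∑ u : P, (χ₂ : G → ℂ) u = Fintype.card P)
    (huniq : ∀ ψ : Cfsg.IrrCharacter G, ψ ≠ irrOne G → ψ ≠ χ₂ → m ψ ≠ 0 →
        ∑ u : P, (ψ : G → ℂ) u = 0)
    (k : ℕ) (hk : Nat.Coprime k (Nat.card G)) (g : G) :
    (χ₂ : G → ℂ) (g ^ k) = (χ₂ : G → ℂ) g := by
  have hc : (Fintype.card P : ℂ) ≠ 0 := by exact_mod_cast Fintype.card_ne_zero
  obtain ⟨ψk, hψk⟩ : ∃ ψk : Cfsg.IrrCharacter G, (ψk : G → ℂ) = fun g => (χ₂ : G → ℂ) (g ^ k) :=
    ⟨⟨fun g => (χ₂ : G → ℂ) (g ^ k),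
      Cfsg.Agent.Lib.Helper75.isIrrCharacter_pow χ₂.2 k hk⟩, rfl⟩
  have h1 : ψk ≠ irrOne G := by
    intro h
    apply hne
    apply Subtype.ext
    funext g
    have h2 : (ψk : G → ℂ) ((powCoprime hk.symm).symm g) = 1 := by rw [h]; rfl
    rw [hψk] at h2
    have h3 : ((powCoprime hk.symm).symm g) ^ k = g := (powCoprime hk.symm).apply_symm_apply g
    have h4 : (χ₂ : G → ℂ) (((powCoprime hk.symm).symm g) ^ k) = 1 := h2
    rw [h3] at h4
    rw [h4]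
    rfl
  have h2 : m ψk ≠ 0 := by
    have h3 : (m ψk : ℂ) = (m χ₂ : ℂ) := by
      rw [← hm ψk, ← hm χ₂, hψk]
      exact classInner_permChar_pow k hk _
    have h4 : m ψk = m χ₂ := by exact_mod_cast h3
    rw [h4, hm2]
    exact one_ne_zero
  have h3 : ψk = χ₂ := by
    by_contra hcon
    have h4 := huniq ψk h1 hcon h2
    rw [hψk, sum_P_pow P k hk, ha2] at h4
    exact hc h4
  have h5 : (ψk : G → ℂ) g = (χ₂ : G → ℂ) (g ^ k) := by rw [hψk]
  rw [← h5, h3]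

theorem chi2_const {p : ℕ} (hp : p.Prime) (hPcard : Fintype.card P = p) {χ : G → ℂ}
    (hpow : ∀ k : ℕ, Nat.Coprime k (Nat.card G) → ∀ g : G, χ (g ^ k) = χ g)
    (u v : P) (hu : u ≠ 1) (hv : v ≠ 1) : χ u = χ v := by
  have : Fact p.Prime := ⟨hp⟩
  have hcard' : Nat.card P = p := by rw [Nat.card_eq_fintype_card, hPcard]
  have h1 : v ∈ Subgroup.zpowers u := mem_zpowers_of_prime_card hcard' hu
  rw [← mem_powers_iff_mem_zpowers] at h1
  obtain ⟨s, hs⟩ := h1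
  have hs : u ^ s = v := hs
  have hup : u ^ p = 1 := by rw [← hPcard, pow_card_eq_one]
  have hord : orderOf u = p := orderOf_eq_prime hup hu
  have hps : ¬ p ∣ s := by
    intro h
    apply hv
    rw [← hs]
    rw [← hord] at h
    exact orderOf_dvd_iff_pow_eq_one.mp h
  obtain ⟨k, hk1, hk2⟩ := exists_coprime_pow hp (Nat.card_pos (α := G)).ne' s hps
  have h2 : u ^ k = u ^ s := by
    rw [pow_eq_pow_iff_modEq, hord]
    exact hk2
  have h3 : (v : G) = (u : G) ^ k := by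
    rw [← hs, ← h2, Subgroup.coe_pow]
  rw [h3, hpow k hk1]

theorem chi2_degree {p : ℕ} (hp : p.Prime) (hPcard : Fintype.card P = p)
    (hcard : Fintype.card Ω = 2 * Fintype.card P)
    (m : Cfsg.IrrCharacter G → ℕ) (hm1 : m (irrOne G) = 1)
    (hdegsum : ∀ deg : Cfsg.IrrCharacter G → ℕ,
      (∀ ψ : Cfsg.IrrCharacter G, (ψ : G → ℂ) 1 = deg ψ) →
        ∑ ψ : Cfsg.IrrCharacter G, m ψ * deg ψ = Fintype.card Ω)
    (χ₂ : Cfsg.IrrCharacter G) (hne : χ₂ ≠ irrOne G) (hm2 : m χ₂ = 1)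
    (ha2 : ∑ u : P, (χ₂ : G → ℂ) u = Fintype.card P)
    (hconst : ∀ u v : P, u ≠ 1 → v ≠ 1 → (χ₂ : G → ℂ) u = (χ₂ : G → ℂ) v) :
    ((χ₂ : G → ℂ) 1 = 1 ∧ ∀ u : P, (χ₂ : G → ℂ) u = 1) ∨
    ((χ₂ : G → ℂ) 1 = p ∧ ∀ u : P, u ≠ 1 → (χ₂ : G → ℂ) u = 0) ∨
    ((χ₂ : G → ℂ) 1 = 2 * (p : ℂ) - 1) := by
  classical
  have hex : ∀ ψ : Cfsg.IrrCharacter G, ∃ n : ℕ, 0 < n ∧ (ψ : G → ℂ) 1 = n :=
    fun ψ => Cfsg.Agent.Lib.Helper81.irr_one_eq ψ
  choose deg hdegpos hdeg using hex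
  have hsum := hdegsum deg hdeg
  have hle : 1 + deg χ₂ ≤ 2 * p := by
    have h1 : ∑ ψ ∈ ({irrOne G, χ₂} : Finset (Cfsg.IrrCharacter G)), m ψ * deg ψ ≤
        ∑ ψ, m ψ * deg ψ :=
      Finset.sum_le_sum_of_subset (Finset.subset_univ _)
    rw [Finset.sum_pair (Ne.symm hne), hm1, hm2, hsum, hcard, hPcard, one_mul, one_mul] at h1
    have h2 : deg (irrOne G) = 1 := by
      have := hdeg (irrOne G)
      rw [irrOne_apply] at this
      exact_mod_cast this.symm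
    omega
  have hp2 := hp.two_le
  obtain ⟨u₀, hu₀⟩ : ∃ u₀ : P, u₀ ≠ 1 := by
    have : Nontrivial P := by
      rw [← Fintype.one_lt_card_iff_nontrivial, hPcard]
      omega
    exact exists_ne 1
  have hs : (deg χ₂ : ℂ) + ((p : ℂ) - 1) * (χ₂ : G → ℂ) u₀ = p := by
    have h1 := Finset.add_sum_erase Finset.univ (fun u : P => (χ₂ : G → ℂ) u) (Finset.mem_univ 1)
    have h2 : ∑ u ∈ Finset.univ.erase (1 : P), (χ₂ : G → ℂ) u =
        ((p : ℂ) - 1) * (χ₂ : G → ℂ) u₀ := by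
      rw [Finset.sum_congr rfl (fun u hu => hconst u u₀ (Finset.ne_of_mem_erase hu) hu₀),
        Finset.sum_const, Finset.card_erase_of_mem (Finset.mem_univ _), Finset.card_univ, hPcard,
        nsmul_eq_mul, Nat.cast_sub hp.one_le, Nat.cast_one]
    rw [h2, ha2, hPcard] at h1
    simp only [Subgroup.coe_one] at h1
    rw [hdeg χ₂] at h1
    exact h1
  obtain ⟨n, ρ, hirr, hρ⟩ := χ₂.2
  have hint : IsIntegral ℤ ((χ₂ : G → ℂ) u₀) := by
    rw [← hρ]
    exact Cfsg.Agent.Lib.Helper80.isIntegral_char ρ _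
  have hp1 : ((p : ℂ) - 1) ≠ 0 := by
    intro h
    have h2 : (p : ℂ) = 1 := by linear_combination h
    have h3 : p = 1 := by exact_mod_cast h2
    omega
  obtain ⟨t, ht⟩ := Cfsg.Agent.Lib.Helper80.exists_int_of_isIntegral_of_rat hint
    (((p : ℚ) - deg χ₂) / ((p : ℚ) - 1)) (by
      push_cast
      field_simp
      linear_combination hs)
  rw [ht] at hs
  have hsZ : (deg χ₂ : ℤ) + ((p : ℤ) - 1) * t = p := by exact_mod_cast hs
  have hdpos := hdegpos χ₂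
  have ht1 : t ≤ 1 := by
    by_contra hcon
    push Not at hcon
    nlinarith
  have ht2 : -1 ≤ t := by
    by_contra hcon
    push Not at hcon
    nlinarith
  have ht3 : t = 1 ∨ t = 0 ∨ t = -1 := by omega
  rcases ht3 with rfl | rfl | rfl
  · left
    have hd : deg χ₂ = 1 := by
      have : (deg χ₂ : ℤ) = 1 := by linarith
      exact_mod_cast this
    refine ⟨by rw [hdeg χ₂, hd, Nat.cast_one], ?_⟩
    intro u
    by_cases hu : u = 1
    · rw [hu, Subgroup.coe_one, hdeg χ₂, hd, Nat.cast_one]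
    · rw [hconst u u₀ hu hu₀, ht, Int.cast_one]
  · right; left
    have hd : deg χ₂ = p := by
      have : (deg χ₂ : ℤ) = p := by linarith
      exact_mod_cast this
    refine ⟨by rw [hdeg χ₂, hd], ?_⟩
    intro u hu
    rw [hconst u u₀ hu hu₀, ht, Int.cast_zero]
  · right; right
    have hd : (deg χ₂ : ℤ) = 2 * p - 1 := by linarith
    rw [hdeg χ₂]
    exact_mod_cast hd

theorem chi2_degree_ne_one [IsPreprimitive G Ω] [Nontrivial Ω] (a : Ω)
    (χ₂ : Cfsg.IrrCharacter G) (hne : χ₂ ≠ irrOne G)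
    (hm2 : Cfsg.classInner (permChar G Ω) (χ₂ : G → ℂ) = 1) (h1 : (χ₂ : G → ℂ) 1 = 1)
    (hsr : ∀ u : P, u ≠ 1 → ∀ x : Ω, (u : G) • x ≠ x) (u₀ : P) (hu₀ : u₀ ≠ 1)
    (hP : (χ₂ : G → ℂ) u₀ = 1) : False := by
  classical
  obtain ⟨n, ρ, hirr, hρ⟩ := χ₂.2
  have hfin : (Module.finrank ℂ (Fin n → ℂ) : ℂ) = 1 := by
    rw [← ρ.char_one, hρ, h1]
  have hcf : Cfsg.IsClassFunction G (χ₂ : G → ℂ) := by
    rw [← hρ]
    exact fun g h => ρ.char_conj g h
  have hker : ∀ g : G, (χ₂ : G → ℂ) g = 1 → ρ g = 1 := by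
    intro g hg
    rw [← Cfsg.Agent.Lib.Helper80.char_eq_finrank_iff, hρ, hg, hfin]
  have hstab : ∀ h : G, h • a = a → (χ₂ : G → ℂ) h = 1 := by
    have hkk := kk_self a hcf hm2
    unfold kk at hkk
    have hcount : (∑ g : G, if g • a = a then (1 : ℂ) else 0) =
        (Nat.card (stabilizer G a) : ℂ) := by
      rw [Finset.sum_boole, card_fiber a a]
    have hnorm : ∀ g : G, ‖(χ₂ : G → ℂ) g‖ ≤ 1 := by
      intro g
      have h2 := Cfsg.Agent.Lib.Helper80.norm_char_le ρ g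
      rw [hρ] at h2
      have h3 : (Module.finrank ℂ (Fin n → ℂ) : ℝ) = 1 := by exact_mod_cast hfin
      rw [h3] at h2
      exact h2
    have hzero : ∑ g : G, (if g • a = a then (1 - ((χ₂ : G → ℂ) g).re) else 0) = 0 := by
      have h3 := congrArg Complex.re (hcount.trans hkk.symm)
      rw [Complex.re_sum, Complex.re_sum] at h3
      have h4 : ∑ g : G, (if g • a = a then (1 - ((χ₂ : G → ℂ) g).re) else 0) =
          ∑ g : G, ((if g • a = a then (1 : ℂ) else 0).re -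
            (if g • a = a then (χ₂ : G → ℂ) g else 0).re) := by
        refine Finset.sum_congr rfl (fun g _ => ?_)
        split_ifs <;> simp
      rw [h4, Finset.sum_sub_distrib, h3, sub_self]
    have hnn : ∀ g ∈ Finset.univ,
        0 ≤ (if g • a = a then (1 - ((χ₂ : G → ℂ) g).re) else 0) := by
      intro g _
      split_ifs
      · have := (Complex.re_le_norm _).trans (hnorm g)
        linarith
      · exact le_refl 0
    intro h hh
    have h5 := (Finset.sum_eq_zero_iff_of_nonneg hnn).mp hzero h (Finset.mem_univ _)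
    rw [if_pos hh] at h5
    have hre : ((χ₂ : G → ℂ) h).re = 1 := by linarith
    have him : ((χ₂ : G → ℂ) h).im = 0 := by
      have h6 := hnorm h
      have h7 : ‖(χ₂ : G → ℂ) h‖ ^ 2 = ((χ₂ : G → ℂ) h).re ^ 2 + ((χ₂ : G → ℂ) h).im ^ 2 := by
        rw [Complex.sq_norm, Complex.normSq_apply]
        ring
      have h8 : ‖(χ₂ : G → ℂ) h‖ ^ 2 ≤ 1 := by
        have := norm_nonneg ((χ₂ : G → ℂ) h)
        nlinarith
      rw [h7, hre] at h8
      have h9 : ((χ₂ : G → ℂ) h).im ^ 2 ≤ 0 := by linarith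
      have h10 : ((χ₂ : G → ℂ) h).im ^ 2 = 0 := le_antisymm h9 (sq_nonneg _)
      exact (pow_eq_zero_iff two_ne_zero).mp h10
    exact Complex.ext (by rw [hre]; rfl) (by rw [him]; rfl)
  have hcoatom := IsPreprimitive.isCoatom_stabilizer_of_isPreprimitive (G := G) a
  have hle : stabilizer G a ≤ MonoidHom.ker ρ := by
    intro h hh
    rw [MonoidHom.mem_ker]
    exact hker h (hstab h hh)
  have hu₀K : (u₀ : G) ∈ MonoidHom.ker ρ := by
    rw [MonoidHom.mem_ker]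
    exact hker _ hP
  have hu₀H : (u₀ : G) ∉ stabilizer G a := fun h => hsr u₀ hu₀ a h
  have htop : MonoidHom.ker ρ = ⊤ := by
    by_contra hcon
    have hlt : stabilizer G a < MonoidHom.ker ρ := lt_of_le_of_ne hle (by
      intro h
      apply hu₀H
      rw [h]
      exact hu₀K)
    exact hcon (hcoatom.2 _ hlt)
  apply hne
  apply Subtype.ext
  funext g
  have hg : g ∈ MonoidHom.ker ρ := by
    rw [htop]
    trivial
  rw [MonoidHom.mem_ker] at hg
  have h2 := (Cfsg.Agent.Lib.Helper80.char_eq_finrank_iff ρ g).mpr hg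
  rw [hρ, hfin] at h2
  rw [h2]
  rfl

theorem constituents_main {p : ℕ} (hPcard : Fintype.card P = p)
    (hcomm : ∀ u v : P, u * v = v * u)
    (hsr : ∀ u : P, u ≠ 1 → ∀ x : Ω, (u : G) • x ≠ x)
    (hcard : Fintype.card Ω = 2 * Fintype.card P)
    (m : Cfsg.IrrCharacter G → ℕ)
    (hm : ∀ ψ : Cfsg.IrrCharacter G, Cfsg.classInner (permChar G Ω) (ψ : G → ℂ) = m ψ)
    (χ₂ : Cfsg.IrrCharacter G) (hm2 : m χ₂ = 1)
    (hd2 : (χ₂ : G → ℂ) 1 = p) (hvan : ∀ u : P, u ≠ 1 → (χ₂ : G → ℂ) u = 0)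
    (ψ' : Cfsg.IrrCharacter G) (h2' : ψ' ≠ χ₂) (hm' : m ψ' ≠ 0) :
    m ψ' = 1 ∧
      (∑ u : P, (ψ' : G → ℂ) u * conj ((ψ' : G → ℂ) u) = p * (ψ' : G → ℂ) 1) ∧
      ∀ ψ : Cfsg.IrrCharacter G, ψ ≠ χ₂ → ψ ≠ ψ' → m ψ ≠ 0 →
        ∑ u : P, (ψ : G → ℂ) u * conj ((ψ' : G → ℂ) u) = 0 := by
  classical
  have hc : (Fintype.card P : ℂ) ≠ 0 := by exact_mod_cast Fintype.card_ne_zero
  have hex : ∀ ψ : Cfsg.IrrCharacter G, ∃ k : ℕ,
      ∑ u : P, (ψ : G → ℂ) u * conj ((ψ' : G → ℂ) u) = (Fintype.card P : ℂ) * k :=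
    fun ψ => sum_P_nat P (isCharacter_of_irr ψ.2) (isCharacter_of_irr ψ'.2)
  choose NP hNP using hex
  obtain ⟨D, hDpos, hD⟩ := Cfsg.Agent.Lib.Helper81.irr_one_eq ψ'
  have hD' : (ψ' : G → ℂ) 1 = D := hD
  have hsum : ∑ ψ : Cfsg.IrrCharacter G, m ψ * NP ψ = 2 * D := by
    have h1 := sum_mult_P P hsr m hm (fun u => conj ((ψ' : G → ℂ) u))
    simp only [Subgroup.coe_one] at h1
    simp_rw [hNP] at h1
    rw [hcard, hD', Complex.conj_natCast] at h1
    have h2 : (Fintype.card P : ℂ) * ((∑ ψ : Cfsg.IrrCharacter G, m ψ * NP ψ : ℕ) : ℂ) =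
        (Fintype.card P : ℂ) * ((2 * D : ℕ) : ℂ) := by
      push_cast at h1 ⊢
      rw [Finset.mul_sum]
      rw [show ((2 : ℂ) * (Fintype.card P : ℂ)) * (D : ℂ) = (Fintype.card P : ℂ) * (2 * D) by
        ring] at h1
      rw [← h1]
      refine Finset.sum_congr rfl (fun ψ _ => ?_)
      ring
    exact_mod_cast mul_left_cancel₀ hc h2
  have hN2 : NP χ₂ = D := by
    have h1 := hNP χ₂
    rw [Finset.sum_eq_single 1] at h1
    · rw [Subgroup.coe_one, hd2, hD', Complex.conj_natCast, ← hPcard] at h1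
      exact_mod_cast (mul_left_cancel₀ hc h1).symm
    · intro u _ hu
      rw [hvan u hu, zero_mul]
    · intro h
      exact absurd (Finset.mem_univ _) h
  have hge : D ≤ NP ψ' := by
    obtain ⟨N, d, hN, hd, hdN⟩ := classInner_self_ge hcomm
      (Cfsg.Agent.Lib.Helper80.isCharacter_restrict P (isCharacter_of_irr ψ'.2))
    have h1 : (N : ℂ) = NP ψ' := by
      rw [← hN]
      unfold Cfsg.classInner
      rw [Nat.card_eq_fintype_card]
      have h2 := hNP ψ'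
      rw [h2, ← mul_assoc, inv_mul_cancel₀ hc, one_mul]
    have h3 : (d : ℂ) = D := by
      rw [← hd, ← hD']
      rfl
    have h4 : N = NP ψ' := by exact_mod_cast h1
    have h5 : d = D := by exact_mod_cast h3
    omega
  obtain ⟨r1, r2, r3⟩ := nat_split m NP χ₂ ψ' D h2' hm' hDpos hsum hm2 hN2 hge
  refine ⟨r1, ?_, ?_⟩
  · rw [hNP ψ', r2, hD', hPcard]
  · intro ψ hψ2 hψ' hmψ
    rw [hNP ψ, r3 ψ hψ2 hψ' hmψ, Nat.cast_zero, mul_zero]

end chars

end Cfsg.Agent.Lib.Helper12.TwoP2
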