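import Mathlib

set_option autoImplicit false
set_option linter.unusedSectionVars false

/-!
A convolution lemma on a commutative group of prime order `p`: if `S * D = 0` for integer valued
functions, the sum of `S` is prime to `p` and `D` takes values in `{-1, 0, 1}`, then `D = 0`
(group algebra over `ZMod p`, Frobenius).
-/

namespace Cfsg.Agent.Lib.Helper12.TwoP3

open MonoidAlgebra in
theorem conv_eq_zero {A : Type*} [CommGroup A] [Fintype A] [DecidableEq A] {p : ℕ}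
    [Fact p.Prime] (hA : Fintype.card A = p) (S D : A → ℤ)
    (hconv : ∀ u : A, ∑ v : A, S v * D (v⁻¹ * u) = 0)
    (hS : ¬ (p : ℤ) ∣ ∑ v : A, S v) (hD : ∀ u, |D u| ≤ 1) : ∀ u, D u = 0 := by
  classical
  have hp : p.Prime := Fact.out
  have hchar : CharP (MonoidAlgebra (ZMod p) A) p := by
    apply charP_of_injective_algebraMap (R := ZMod p)
    rw [MonoidAlgebra.coe_algebraMap]
    exact (MonoidAlgebra.single_right_injective).comp (fun x y h => h)
  obtain ⟨s, hs⟩ : ∃ s : MonoidAlgebra (ZMod p) A, s = ∑ v : A, single v (S v : ZMod p) :=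
    ⟨_, rfl⟩
  obtain ⟨d, hd⟩ : ∃ d : MonoidAlgebra (ZMod p) A, d = ∑ v : A, single v (D v : ZMod p) :=
    ⟨_, rfl⟩
  have hcoeff_d : ∀ c, d.coeff c = (D c : ZMod p) := by
    intro c
    rw [hd, coeff_sum, Finsupp.finsetSum_apply]
    simp_rw [coeff_single, Finsupp.single_apply]
    rw [Finset.sum_ite_eq', if_pos (Finset.mem_univ _)]
  have hsd : s * d = 0 := by
    have hmul : s * d = ∑ v : A, ∑ w : A, single (v * w) ((S v : ZMod p) * (D w : ZMod p)) := by
      rw [hs, hd, Finset.sum_mul_sum]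
      refine Finset.sum_congr rfl (fun v _ => Finset.sum_congr rfl (fun w _ => ?_))
      rw [single_mul_single]
    apply coeff_injective
    ext c
    rw [hmul, coeff_sum, Finsupp.finsetSum_apply]
    have h1 : ∀ v : A, (∑ w : A, (single (v * w) ((S v : ZMod p) * (D w : ZMod p)) :
        MonoidAlgebra (ZMod p) A)).coeff c = (S v : ZMod p) * (D (v⁻¹ * c) : ZMod p) := by
      intro v
      rw [coeff_sum, Finsupp.finsetSum_apply]
      simp_rw [coeff_single, Finsupp.single_apply]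
      have h2 : ∀ w : A, (v * w = c) = (w = v⁻¹ * c) := by
        intro w
        apply propext
        constructor
        · intro h; rw [← h, inv_mul_cancel_left]
        · intro h; rw [h, mul_inv_cancel_left]
      simp_rw [h2]
      rw [Finset.sum_ite_eq', if_pos (Finset.mem_univ _)]
    rw [Finset.sum_congr rfl (fun v _ => h1 v)]
    have h3 := congrArg (fun z : ℤ => (z : ZMod p)) (hconv c)
    simp only [Int.cast_sum, Int.cast_mul, Int.cast_zero] at h3
    rw [h3]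
    rfl
  have hsp : s ^ p = ((∑ v : A, S v : ℤ) : ZMod p) • (1 : MonoidAlgebra (ZMod p) A) := by
    rw [hs, sum_pow_char p Finset.univ]
    have h1 : ∀ v : A, (single v (S v : ZMod p) : MonoidAlgebra (ZMod p) A) ^ p =
        (S v : ZMod p) • (1 : MonoidAlgebra (ZMod p) A) := by
      intro v
      have hv : v ^ p = 1 := by rw [← hA, pow_card_eq_one]
      rw [single_pow, ZMod.pow_card, hv, one_def, smul_single, smul_eq_mul, mul_one]
    rw [Finset.sum_congr rfl (fun v _ => h1 v), ← Finset.sum_smul, Int.cast_sum]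
  have hd0 : d = 0 := by
    have h1 : s ^ p * d = 0 := by
      have hk : s ^ p = s ^ (p - 1) * s := by
        rw [← pow_succ]
        congr 1
        have := hp.pos
        omega
      rw [hk, mul_assoc, hsd, mul_zero]
    rw [hsp, smul_mul_assoc, one_mul] at h1
    have h2 : ((∑ v : A, S v : ℤ) : ZMod p) ≠ 0 := by
      intro h
      exact hS ((ZMod.intCast_zmod_eq_zero_iff_dvd _ p).mp h)
    exact (smul_eq_zero.mp h1).resolve_left h2
  intro u
  have h1 : (D u : ZMod p) = 0 := by rw [← hcoeff_d, hd0]; rfl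
  have h2 : (p : ℤ) ∣ D u := (ZMod.intCast_zmod_eq_zero_iff_dvd _ p).mp h1
  have h3 := hD u
  have h4 : (2 : ℤ) ≤ p := by exact_mod_cast hp.two_le
  exact Int.eq_zero_of_abs_lt_dvd h2 (by omega)

theorem conv_eq_zero' {A : Type*} [Group A] [Fintype A] (hcomm : ∀ a b : A, a * b = b * a)
    {p : ℕ} (hp : p.Prime) (hA : Fintype.card A = p) (S D : A → ℤ)
    (hconv : ∀ u : A, ∑ v : A, S v * D (v⁻¹ * u) = 0)
    (hS : ¬ (p : ℤ) ∣ ∑ v : A, S v) (hD : ∀ u, |D u| ≤ 1) : ∀ u, D u = 0 := by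
  classical
  have : Fact p.Prime := ⟨hp⟩
  let _ : CommGroup A := { (inferInstance : Group A) with mul_comm := hcomm }
  exact conv_eq_zero hA S D hconv hS hD

/-- the arithmetic of the subdegrees: orbits `O y` of size `β (2 β + 1)` with
`∑ 1 / (2 β + 1) = -1` and `∑ 1 / (2 β + 1) ^ 2 = 1` over the points -/
theorem arith {Ω : Type*} [DecidableEq Ω] (T : Finset Ω) (O : Ω → Finset Ω) (β : Ω → ℤ)
    (hO_sub : ∀ y ∈ T, O y ⊆ T) (hO_self : ∀ y ∈ T, y ∈ O y)
    (hO_eq : ∀ y ∈ T, ∀ z ∈ O y, O z = O y)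
    (hβ_const : ∀ y ∈ T, ∀ z ∈ O y, β z = β y)
    (hcard : ∀ y ∈ T, ((O y).card : ℤ) = β y * (2 * β y + 1))
    (hβ0 : ∀ y ∈ T, β y ≠ 0) (hβ1 : ∀ y ∈ T, β y ≠ -1)
    (hsum1 : ∑ y ∈ T, (1 : ℚ) / (2 * β y + 1) = -1)
    (hsum2 : ∑ y ∈ T, (1 : ℚ) / (2 * β y + 1) ^ 2 = 1) :
    ∃ A : ℕ, 0 < A ∧ ∃ yp ∈ T, ∃ ym ∈ T, β yp = A ∧ β ym = -(A + 1) ∧
      ∀ y ∈ T, y ∈ O yp ∨ y ∈ O ym := by
  have hr_ne : ∀ y ∈ T, (2 * (β y : ℚ) + 1) ≠ 0 := by
    intro y hy h
    have h1 : (2 * β y + 1 : ℤ) = 0 := by exact_mod_cast h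
    omega
  have hOsum1 : ∀ y ∈ T, ∑ z ∈ O y, (1 : ℚ) / (2 * β z + 1) = β y := by
    intro y hy
    rw [Finset.sum_congr rfl (fun z hz => by rw [hβ_const y hy z hz]), Finset.sum_const,
      nsmul_eq_mul]
    have h2 : ((O y).card : ℚ) = β y * (2 * β y + 1) := by exact_mod_cast hcard y hy
    rw [h2, mul_one_div, mul_div_assoc, div_self (hr_ne y hy), mul_one]
  have hOsum2 : ∀ y ∈ T, ∑ z ∈ O y, (1 : ℚ) / (2 * β z + 1) ^ 2 =
      (β y : ℚ) / (2 * β y + 1) := by
    intro y hy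
    rw [Finset.sum_congr rfl (fun z hz => by rw [hβ_const y hy z hz]), Finset.sum_const,
      nsmul_eq_mul]
    have h2 : ((O y).card : ℚ) = β y * (2 * β y + 1) := by exact_mod_cast hcard y hy
    have h3 := hr_ne y hy
    rw [h2, pow_two, one_div, mul_inv, ← mul_assoc, mul_assoc (β y : ℚ), mul_inv_cancel₀ h3,
      mul_one, div_eq_mul_inv]
  have hdisj : ∀ y ∈ T, ∀ y' ∈ T, y' ∉ O y → Disjoint (O y') (O y) := by
    intro y hy y' hy' hnot
    rw [Finset.disjoint_left]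
    intro z hz' hz
    apply hnot
    have e1 := hO_eq y hy z hz
    have e2 := hO_eq y' hy' z hz'
    rw [← e1, e2]
    exact hO_self y' hy'
  obtain ⟨ym, hym, hneg⟩ : ∃ y ∈ T, β y < 0 := by
    by_contra hcon
    push Not at hcon
    have h1 : 0 ≤ ∑ y ∈ T, (1 : ℚ) / (2 * β y + 1) := Finset.sum_nonneg (fun y hy => by
      have h1 : (0 : ℚ) ≤ β y := by exact_mod_cast hcon y hy
      positivity)
    rw [hsum1] at h1
    norm_num at h1
  have hb2 : β ym ≤ -2 := by
    have := hβ1 ym hym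
    omega
  have hnegO : ∀ y ∈ T, β y < 0 → y ∈ O ym := by
    intro y hy hyneg
    by_contra hnot
    have hd := hdisj ym hym y hy hnot
    have hyb2 : β y ≤ -2 := by
      have := hβ1 y hy
      omega
    have hsub : O y ∪ O ym ⊆ T := Finset.union_subset (hO_sub y hy) (hO_sub ym hym)
    have h1 : ∑ z ∈ O y ∪ O ym, (1 : ℚ) / (2 * β z + 1) ^ 2 ≤
        ∑ z ∈ T, (1 : ℚ) / (2 * β z + 1) ^ 2 :=
      Finset.sum_le_sum_of_subset_of_nonneg hsub (fun z _ _ => by positivity)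
    rw [Finset.sum_union hd, hOsum2 y hy, hOsum2 ym hym, hsum2] at h1
    have key : ∀ t : ℤ, t ≤ -2 → (1 : ℚ) / 2 < t / (2 * t + 1) := by
      intro t ht
      have h3 : (t : ℚ) ≤ -2 := by exact_mod_cast ht
      have h2 : (2 * (t : ℚ) + 1) < 0 := by linarith
      rw [lt_div_iff_of_neg h2]
      linarith
    have k1 := key _ hyb2
    have k2 := key _ hb2
    linarith
  obtain ⟨Tp, hTp⟩ : ∃ Tp, Tp = T \ O ym := ⟨_, rfl⟩
  have hTpT : ∀ y ∈ Tp, y ∈ T := by
    intro y hy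
    rw [hTp] at hy
    exact (Finset.mem_sdiff.mp hy).1
  have hTp_pos : ∀ y ∈ Tp, 0 < β y := by
    intro y hy
    rw [hTp, Finset.mem_sdiff] at hy
    by_contra hcon
    push Not at hcon
    have h1 : β y < 0 := lt_of_le_of_ne hcon (hβ0 y hy.1)
    exact hy.2 (hnegO y hy.1 h1)
  have hTsum1 : ∑ y ∈ Tp, (1 : ℚ) / (2 * β y + 1) = -1 - β ym := by
    have h1 := Finset.sum_sdiff (hO_sub ym hym) (f := fun y => (1 : ℚ) / (2 * β y + 1))
    rw [hOsum1 ym hym, hsum1] at h1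
    rw [hTp]
    linarith
  have hTsum2 : ∑ y ∈ Tp, (1 : ℚ) / (2 * β y + 1) ^ 2 =
      1 - (β ym : ℚ) / (2 * β ym + 1) := by
    have h1 := Finset.sum_sdiff (hO_sub ym hym) (f := fun y => (1 : ℚ) / (2 * β y + 1) ^ 2)
    rw [hOsum2 ym hym, hsum2] at h1
    rw [hTp]
    linarith
  obtain ⟨b, hb⟩ : ∃ b : ℤ, b = -β ym := ⟨_, rfl⟩
  have hb2' : 2 ≤ b := by omega
  have hβb : (β ym : ℚ) = -b := by
    rw [hb]
    push_cast
    ring
  have hbQ : (2 : ℚ) ≤ b := by exact_mod_cast hb2'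
  have hOTp : ∀ y ∈ Tp, O y ⊆ Tp := by
    intro y hy z hz
    have hyT := hTpT y hy
    rw [hTp, Finset.mem_sdiff] at hy ⊢
    refine ⟨hO_sub y hyT hz, fun hz' => ?_⟩
    have e1 := hO_eq y hyT z hz
    have e2 := hO_eq ym hym z hz'
    apply hy.2
    rw [← e2, e1]
    exact hO_self y hyT
  have hle : ∀ y ∈ Tp, β y ≤ b - 1 := by
    intro y hy
    have hyT := hTpT y hy
    have h1 : ∑ z ∈ O y, (1 : ℚ) / (2 * β z + 1) ≤ ∑ z ∈ Tp, (1 : ℚ) / (2 * β z + 1) :=
      Finset.sum_le_sum_of_subset_of_nonneg (hOTp y hy) (fun z hz _ => by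
        have h2 : (0 : ℚ) < β z := by exact_mod_cast hTp_pos z hz
        positivity)
    rw [hOsum1 y hyT, hTsum1, hβb] at h1
    have h3 : (β y : ℚ) ≤ b - 1 := by linarith
    exact_mod_cast h3
  have heq : ∀ y ∈ Tp, β y = b - 1 := by
    have hzero : ∑ y ∈ Tp, (1 : ℚ) / (2 * β y + 1) *
        (1 / (2 * β y + 1) - 1 / (2 * b - 1)) = 0 := by
      have h1 : ∀ y ∈ Tp, (1 : ℚ) / (2 * β y + 1) * (1 / (2 * β y + 1) - 1 / (2 * b - 1)) =
          1 / (2 * β y + 1) ^ 2 - (1 / (2 * b - 1)) * (1 / (2 * β y + 1)) := by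
        intro y _
        rw [← one_div_pow]
        ring
      rw [Finset.sum_congr rfl h1, Finset.sum_sub_distrib, ← Finset.mul_sum, hTsum1, hTsum2, hβb]
      have h2 : (2 * (b : ℚ) - 1) ≠ 0 := by linarith
      have h3 : (2 * (-(b : ℚ)) + 1) ≠ 0 := by linarith
      have e : (-(b : ℚ)) / (2 * (-(b : ℚ)) + 1) = b / (2 * b - 1) := by
        rw [div_eq_div_iff h3 h2]
        ring
      rw [e]
      obtain ⟨s, hs⟩ : ∃ s : ℚ, s = 2 * b - 1 := ⟨_, rfl⟩
      rw [← hs] at h2 ⊢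
      have hb' : (b : ℚ) = (s + 1) / 2 := by linarith
      rw [hb']
      field_simp
      ring
    have hnn : ∀ y ∈ Tp, 0 ≤ (1 : ℚ) / (2 * β y + 1) *
        (1 / (2 * β y + 1) - 1 / (2 * b - 1)) := by
      intro y hy
      have h1 : (0 : ℚ) < β y := by exact_mod_cast hTp_pos y hy
      have h2 : (β y : ℚ) ≤ b - 1 := by exact_mod_cast hle y hy
      apply mul_nonneg (by positivity)
      rw [sub_nonneg]
      apply one_div_le_one_div_of_le (by linarith) (by linarith)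
    intro y hy
    have h0 := (Finset.sum_eq_zero_iff_of_nonneg hnn).mp hzero y hy
    have h1 : (0 : ℚ) < β y := by exact_mod_cast hTp_pos y hy
    have h3 : (1 : ℚ) / (2 * β y + 1) ≠ 0 := by positivity
    have h4 : (1 : ℚ) / (2 * β y + 1) - 1 / (2 * b - 1) = 0 :=
      (mul_eq_zero.mp h0).resolve_left h3
    have h5 : (2 * (β y : ℚ) + 1) = 2 * b - 1 := by
      have h6 := sub_eq_zero.mp h4
      have h7 : (2 * (β y : ℚ) + 1) ≠ 0 := by linarith
      have h8 : (2 * (b : ℚ) - 1) ≠ 0 := by linarith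
      field_simp at h6
      linarith
    have h9 : (β y : ℚ) = b - 1 := by linarith
    exact_mod_cast h9
  obtain ⟨yp, hyp⟩ : Tp.Nonempty := by
    by_contra hcon
    rw [Finset.not_nonempty_iff_eq_empty] at hcon
    rw [hcon, Finset.sum_empty, hβb] at hTsum1
    linarith
  have hypT := hTpT yp hyp
  have hcardTp : (Tp.card : ℚ) = (b - 1) * (2 * b - 1) := by
    have h1 : ∑ y ∈ Tp, (1 : ℚ) / (2 * β y + 1) = Tp.card * (1 / (2 * b - 1)) := by
      have h2 : ∀ y ∈ Tp, (1 : ℚ) / (2 * β y + 1) = 1 / (2 * b - 1) := by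
        intro y hy
        rw [heq y hy]
        push_cast
        ring_nf
      rw [Finset.sum_congr rfl h2, Finset.sum_const, nsmul_eq_mul]
    rw [hTsum1, hβb] at h1
    have h8 : (2 * (b : ℚ) - 1) ≠ 0 := by linarith
    rw [mul_one_div, eq_div_iff h8] at h1
    linarith
  have hOeq : O yp = Tp := by
    apply Finset.eq_of_subset_of_card_le (hOTp yp hyp)
    have h1 := hcard yp hypT
    rw [heq yp hyp] at h1
    have h2 : (Tp.card : ℤ) = (b - 1) * (2 * b - 1) := by exact_mod_cast hcardTp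
    have h3 : (Tp.card : ℤ) ≤ (O yp).card := by
      rw [h1, h2]
      ring_nf
      exact le_refl _
    exact_mod_cast h3
  refine ⟨(b - 1).toNat, by omega, yp, hypT, ym, hym, ?_, ?_, ?_⟩
  · rw [heq yp hyp]
    omega
  · omega
  · intro y hy
    by_cases hyO : y ∈ O ym
    · right
      exact hyO
    · left
      rw [hOeq, hTp, Finset.mem_sdiff]
      exact ⟨hy, hyO⟩

end Cfsg.Agent.Lib.Helper12.TwoP3
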