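import Mathlib
import Cfsg.Agent.Lib.Helper12.TwoP2

set_option autoImplicit false
set_option linter.unusedSectionVars false

/-!
The main case of Wielandt's theorem on primitive groups of degree `2p`: a semiregular subgroup `P`
of order `p`, and the permutation character is multiplicity free with a constituent `χ₂` of degree
`p` vanishing on `P ∖ 1`.  For every orbital `B` the function
`u ↦ B a (u⁻¹ a) + B ω₂ (u⁻¹ ω₂)` on `P` has sum `n + β` and square sum `2 n - 2 β ^ 2`, where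
`n` is the subdegree and `β` the eigenvalue of `B` on `χ₂`.
-/

namespace Cfsg.Agent.Lib.Helper12.TwoP4

open MulAction Cfsg.Agent.Lib.Helper12.Hecke Cfsg.Agent.Lib.Helper12.Subdeg
  Cfsg.Agent.Lib.Helper12.PermChar Cfsg.Agent.Lib.Helper12.Coef
  Cfsg.Agent.Lib.Helper12.TwoP1 Cfsg.Agent.Lib.Helper12.TwoP2
  Cfsg.Agent.Lib.Helper3 Cfsg.Agent.Lib.Helper74
open scoped ComplexConjugate

section

variable {G : Type*} [Group G] [Fintype G] {Ω : Type*} [Fintype Ω] [DecidableEq Ω]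
  [MulAction G Ω] [IsPretransitive G Ω] [Fintype (Cfsg.IrrCharacter G)]

/-- the data of the main case -/
structure MainCase (P : Subgroup G) [Fintype P] (p : ℕ) (a ω₂ : Ω)
    (m : Cfsg.IrrCharacter G → ℕ) (χ₂ : Cfsg.IrrCharacter G) : Prop where
  hp : p.Prime
  hPcard : Fintype.card P = p
  hcomm : ∀ u v : P, u * v = v * u
  hsr : ∀ u : P, u ≠ 1 → ∀ x : Ω, (u : G) • x ≠ x
  hcard : Fintype.card Ω = 2 * Fintype.card P
  h12 : ∀ u : P, (u : G) • a ≠ ω₂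
  hm : ∀ ψ : Cfsg.IrrCharacter G, Cfsg.classInner (permChar G Ω) (ψ : G → ℂ) = m ψ
  hne : χ₂ ≠ irrOne G
  hm1 : m (irrOne G) = 1
  hm2 : m χ₂ = 1
  hd2 : (χ₂ : G → ℂ) 1 = p
  hvan : ∀ u : P, u ≠ 1 → (χ₂ : G → ℂ) u = 0
  hmf : ∀ ψ : Cfsg.IrrCharacter G, m ψ ≠ 0 → m ψ = 1
  hYself : ∀ ψ : Cfsg.IrrCharacter G, ψ ≠ χ₂ → m ψ ≠ 0 →
    ∑ u : P, (ψ : G → ℂ) u * conj ((ψ : G → ℂ) u) = p * (ψ : G → ℂ) 1
  hYorth : ∀ ψ ψ' : Cfsg.IrrCharacter G, ψ ≠ χ₂ → ψ' ≠ χ₂ → ψ ≠ ψ' → m ψ ≠ 0 → m ψ' ≠ 0 →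
    ∑ u : P, (ψ : G → ℂ) u * conj ((ψ' : G → ℂ) u) = 0

omit [Fintype G] [Fintype Ω] [DecidableEq Ω] [IsPretransitive G Ω]
  [Fintype (Cfsg.IrrCharacter G)] in
theorem orbMat_diag {a b : Ω} (hb : b ≠ a) (x : Ω) : orbMat G a b x x = 0 := by
  classical
  unfold orbMat
  rw [if_neg]
  rintro ⟨g, h1, h2⟩
  exact hb (MulAction.injective g (h2.trans h1.symm))

omit [Fintype G] [Fintype Ω] [DecidableEq Ω] [IsPretransitive G Ω]
  [Fintype (Cfsg.IrrCharacter G)] in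
theorem orbMat_01 (a b x y : Ω) : orbMat G a b x y = 0 ∨ orbMat G a b x y = 1 := by
  classical
  unfold orbMat
  split_ifs
  · right; rfl
  · left; rfl

omit [Fintype Ω] [DecidableEq Ω] [MulAction G Ω] [IsPretransitive G Ω]
  [Fintype (Cfsg.IrrCharacter G)] in
theorem irr_inv (ψ : Cfsg.IrrCharacter G) (g : G) :
    (ψ : G → ℂ) g⁻¹ = conj ((ψ : G → ℂ) g) := by
  obtain ⟨n, ρ, hirr, hρ⟩ := ψ.2
  rw [← hρ]
  exact Cfsg.Agent.Lib.Helper80.char_inv ρ g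

/-- the two-point function of an orbital on `P` -/
noncomputable def mB (P : Subgroup G) (a ω₂ b : Ω) (u : P) : ℤ :=
  orbMat G a b a ((u : G)⁻¹ • a) + orbMat G a b ω₂ ((u : G)⁻¹ • ω₂)

variable {P : Subgroup G} [Fintype P] {p : ℕ} {a ω₂ : Ω} {m : Cfsg.IrrCharacter G → ℕ}
  {χ₂ : Cfsg.IrrCharacter G}

theorem trF_P (h : MainCase P p a ω₂ m χ₂) {B : Matrix Ω Ω ℤ} (hB : IsInv G B) (u : P) :
    trF B (u : G) = (p : ℂ) * ((B a ((u : G)⁻¹ • a) + B ω₂ ((u : G)⁻¹ • ω₂) : ℤ) : ℂ) := by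
  unfold trF
  have h1 := sum_diag_P P h.hcomm h.hsr h.hcard a ω₂ h.h12 (fun x y => (B x y : ℂ))
    (fun z x y => by rw [hB]) u⁻¹
  rw [Subgroup.coe_inv] at h1
  rw [h1, h.hPcard, nsmul_eq_mul]
  push_cast
  ring

open Classical in
theorem chi2_P (h : MainCase P p a ω₂ m χ₂) (u : P) :
    (χ₂ : G → ℂ) u = if u = 1 then (p : ℂ) else 0 := by
  by_cases hu : u = 1
  · rw [if_pos hu, hu, Subgroup.coe_one, h.hd2]
  · rw [if_neg hu, h.hvan u hu]

theorem orbital_sums (h : MainCase P p a ω₂ m χ₂) (b : Ω) (hb : b ≠ a) :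
    ∃ β : ℤ, coef a (orbMat G a b) (χ₂ : G → ℂ) = β ∧
      ∑ u : P, mB P a ω₂ b u = (Nat.card (orbit (stabilizer G a) b) : ℤ) + β ∧
      ∑ u : P, (mB P a ω₂ b u) ^ 2 =
        2 * (Nat.card (orbit (stabilizer G a) b) : ℤ) - 2 * β ^ 2 := by
  classical
  have hp := h.hp
  have hpC : (p : ℂ) ≠ 0 := by exact_mod_cast hp.ne_zero
  obtain ⟨B, hBdef⟩ : ∃ B, B = orbMat G a b := ⟨_, rfl⟩
  have hB : IsInv G B := by
    rw [hBdef]
    exact isInv_orbMat a b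
  obtain ⟨n, hn⟩ : ∃ n : ℕ, n = Nat.card (orbit (stabilizer G a) b) := ⟨_, rfl⟩
  obtain ⟨c, hc⟩ : ∃ c : Cfsg.IrrCharacter G → ℂ, c = fun ψ : Cfsg.IrrCharacter G => coef a B (ψ : G → ℂ) := ⟨_, rfl⟩
  have hc0 : ∀ ψ, m ψ = 0 → c ψ = 0 := by
    intro ψ hψ
    rw [hc]
    exact coef_eq_zero a B ψ.2 (by rw [h.hm ψ, hψ, Nat.cast_zero])
  have hc1 : c (irrOne G) = n := by
    rw [hc]
    show coef a B (fun _ : G => (1 : ℂ)) = n
    rw [coef_one, hBdef, sum_orbMat, hn]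
  have hχP := chi2_P h
  have hexp : ∀ u : P, (p : ℂ) * (mB P a ω₂ b u : ℂ) = ∑ ψ, c ψ * (ψ : G → ℂ) u := by
    intro u
    rw [hc, ← trF_expansion a hB (u : G), trF_P h hB u, hBdef]
    rfl
  have hsP : ∀ ψ : Cfsg.IrrCharacter G, ψ ≠ irrOne G → ψ ≠ χ₂ →
      c ψ * ∑ u : P, (ψ : G → ℂ) u = 0 := by
    intro ψ h1 h2
    by_cases hmψ : m ψ = 0
    · rw [hc0 ψ hmψ, zero_mul]
    · have h3 := h.hYorth ψ (irrOne G) h2 h.hne.symm h1 hmψ (by rw [h.hm1]; exact one_ne_zero)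
      simp only [irrOne_apply, map_one, mul_one] at h3
      rw [h3, mul_zero]
  have hsP1 : ∑ u : P, (irrOne G : G → ℂ) u = p := by
    simp only [irrOne_apply, Finset.sum_const, Finset.card_univ, h.hPcard, nsmul_eq_mul, mul_one]
  have hsP2 : ∑ u : P, (χ₂ : G → ℂ) u = p := by
    simp_rw [hχP]
    rw [Finset.sum_ite_eq', if_pos (Finset.mem_univ _)]
  have hQ1 : (p : ℂ) * ((∑ u : P, mB P a ω₂ b u : ℤ) : ℂ) = (n : ℂ) * p + c χ₂ * p := by
    push_cast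
    rw [Finset.mul_sum, Finset.sum_congr rfl (fun u _ => hexp u), Finset.sum_comm]
    simp_rw [← Finset.mul_sum]
    rw [Finset.sum_eq_add (irrOne G) χ₂ h.hne.symm]
    · rw [hsP1, hsP2, hc1]
    · intro ψ _ hψ
      exact hsP ψ hψ.1 hψ.2
    · intro hh
      exact absurd (Finset.mem_univ _) hh
    · intro hh
      exact absurd (Finset.mem_univ _) hh
  obtain ⟨bz, hbz⟩ : ∃ bz : ℤ, bz = ∑ u : P, mB P a ω₂ b u - n := ⟨_, rfl⟩
  have hβ : c χ₂ = bz := by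
    rw [hbz]
    apply mul_right_cancel₀ hpC
    have h1 : c χ₂ * p = (p : ℂ) * ((∑ u : P, mB P a ω₂ b u : ℤ) : ℂ) - n * p := by
      rw [hQ1]
      ring
    rw [h1]
    push_cast
    ring
  refine ⟨bz, by rw [← hβ, hc, hBdef], by rw [hbz, ← hn]; ring, ?_⟩
  have hR : ∀ u : P, ((p : ℂ) * ((mB P a ω₂ b u - if u = 1 then bz else 0 : ℤ) : ℂ)) =
      ∑ ψ ∈ Finset.univ.erase χ₂, c ψ * (ψ : G → ℂ) u := by
    intro u
    have h1 := Finset.add_sum_erase Finset.univ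
      (fun ψ : Cfsg.IrrCharacter G => c ψ * (ψ : G → ℂ) u) (Finset.mem_univ χ₂)
    beta_reduce at h1
    rw [← hexp u, hβ, hχP u] at h1
    rw [eq_sub_of_add_eq' h1]
    push_cast
    split_ifs <;> ring
  have hG : ∑ u : P, (∑ ψ ∈ Finset.univ.erase χ₂, c ψ * (ψ : G → ℂ) u) *
      conj (∑ ψ ∈ Finset.univ.erase χ₂, c ψ * (ψ : G → ℂ) u) =
      ∑ ψ ∈ Finset.univ.erase χ₂, c ψ * conj (c ψ) * ((p : ℂ) * (ψ : G → ℂ) 1) := by
    simp_rw [map_sum, Finset.sum_mul_sum]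
    rw [Finset.sum_comm]
    refine Finset.sum_congr rfl (fun ψ hψ => ?_)
    rw [Finset.sum_comm]
    have hψ2 : ψ ≠ χ₂ := Finset.ne_of_mem_erase hψ
    have hinner : ∀ ψ' : Cfsg.IrrCharacter G,
        ∑ u : P, c ψ * (ψ : G → ℂ) u * conj (c ψ' * (ψ' : G → ℂ) u) =
        c ψ * conj (c ψ') * ∑ u : P, (ψ : G → ℂ) u * conj ((ψ' : G → ℂ) u) := by
      intro ψ'
      rw [Finset.mul_sum]
      refine Finset.sum_congr rfl (fun u _ => ?_)
      rw [map_mul]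
      ring
    simp_rw [hinner]
    rw [Finset.sum_eq_single ψ]
    · by_cases hmψ : m ψ = 0
      · rw [hc0 ψ hmψ]
        simp
      · rw [h.hYself ψ hψ2 hmψ]
    · intro ψ' hψ' hne'
      have hψ'2 : ψ' ≠ χ₂ := Finset.ne_of_mem_erase hψ'
      by_cases hmψ : m ψ = 0
      · rw [hc0 ψ hmψ]
        simp
      · by_cases hmψ' : m ψ' = 0
        · rw [hc0 ψ' hmψ']
          simp
        · rw [h.hYorth ψ ψ' hψ2 hψ'2 (Ne.symm hne') hmψ hmψ', mul_zero]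
    · intro hh
      exact absurd hψ hh
  have hR2 : ∑ ψ : Cfsg.IrrCharacter G, (ψ : G → ℂ) 1 * (c ψ * conj (c ψ)) = 2 * (p : ℂ) * n := by
    have h1 := sum_degree_mul_coef (G := G) a (B * B.transpose)
    have h2 : ∀ ψ : Cfsg.IrrCharacter G,
        coef a (B * B.transpose) (ψ : G → ℂ) = c ψ * conj (c ψ) := by
      intro ψ
      by_cases hmψ : m ψ = 0
      · rw [hc0 ψ hmψ, zero_mul]
        exact coef_eq_zero a _ ψ.2 (by rw [h.hm ψ, hmψ, Nat.cast_zero])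
      · have hm1 : m ψ = 1 := h.hmf ψ hmψ
        rw [coef_mul a ψ.2 (by rw [h.hm ψ, hm1, Nat.cast_one]) hB (isInv_transpose hB),
          coef_transpose a hB (irr_inv ψ), hc]
    simp_rw [h2] at h1
    rw [h1]
    have h3 : ((B * B.transpose) a a : ℤ) = n := by
      rw [Matrix.mul_apply]
      simp_rw [Matrix.transpose_apply]
      rw [hn, ← Cfsg.Agent.S0719.sum_orbMat_int (G := G) a b, hBdef]
      refine Finset.sum_congr rfl (fun z _ => ?_)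
      rcases orbMat_01 (G := G) a b a z with h0 | h0 <;> rw [h0] <;> norm_num
    rw [h3, card_eq_stab_mul (G := G) a, h.hcard, h.hPcard]
    have hcs := card_stab_ne_zero (G := G) a
    push_cast
    field_simp
  have hfinal : ((p : ℂ) ^ 2) *
      ((∑ u : P, (mB P a ω₂ b u - if u = 1 then bz else 0) ^ 2 : ℤ) : ℂ) =
      (p : ℂ) * (2 * p * n - p * (bz : ℂ) ^ 2) := by
    have e1 := Finset.add_sum_erase Finset.univ
      (fun ψ : Cfsg.IrrCharacter G => (ψ : G → ℂ) 1 * (c ψ * conj (c ψ))) (Finset.mem_univ χ₂)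
    beta_reduce at e1
    rw [hR2, hβ, h.hd2, map_intCast] at e1
    have e2 : ∑ ψ ∈ Finset.univ.erase χ₂, c ψ * conj (c ψ) * ((p : ℂ) * (ψ : G → ℂ) 1) =
        p * (2 * p * n - p * (bz : ℂ) ^ 2) := by
      have e3 : ∑ ψ ∈ Finset.univ.erase χ₂, c ψ * conj (c ψ) * ((p : ℂ) * (ψ : G → ℂ) 1) =
          p * ∑ ψ ∈ Finset.univ.erase χ₂, (ψ : G → ℂ) 1 * (c ψ * conj (c ψ)) := by
        rw [Finset.mul_sum]
        refine Finset.sum_congr rfl (fun ψ _ => ?_)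
        ring
      rw [e3, eq_sub_of_add_eq' e1]
      ring
    rw [← e2, ← hG]
    push_cast
    rw [Finset.mul_sum]
    refine Finset.sum_congr rfl (fun u _ => ?_)
    rw [← hR u, map_mul, Complex.conj_natCast, map_intCast]
    push_cast
    ring
  have hZ : ∑ u : P, (mB P a ω₂ b u - if u = 1 then bz else 0) ^ 2 = 2 * (n : ℤ) - bz ^ 2 := by
    have h1 : ((p : ℂ) ^ 2) *
        ((∑ u : P, (mB P a ω₂ b u - if u = 1 then bz else 0) ^ 2 : ℤ) : ℂ) =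
        (p : ℂ) ^ 2 * ((2 * (n : ℤ) - bz ^ 2 : ℤ) : ℂ) := by
      rw [hfinal]
      push_cast
      ring
    exact_mod_cast mul_left_cancel₀ (pow_ne_zero 2 hpC) h1
  have hmB1 : mB P a ω₂ b 1 = 0 := by
    unfold mB
    rw [Subgroup.coe_one, inv_one, one_smul, one_smul, orbMat_diag hb, orbMat_diag hb, add_zero]
  have hsplit : ∑ u : P, (mB P a ω₂ b u - if u = 1 then bz else 0) ^ 2 =
      ∑ u : P, (mB P a ω₂ b u) ^ 2 + bz ^ 2 := by
    have e1 := Finset.add_sum_erase Finset.univ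
      (fun u : P => (mB P a ω₂ b u - if u = 1 then bz else 0) ^ 2) (Finset.mem_univ 1)
    have e2 := Finset.add_sum_erase Finset.univ
      (fun u : P => (mB P a ω₂ b u) ^ 2) (Finset.mem_univ 1)
    beta_reduce at e1 e2
    rw [← e1, ← e2, hmB1, if_pos rfl]
    have e3 : ∑ u ∈ Finset.univ.erase (1 : P), (mB P a ω₂ b u - if u = 1 then bz else 0) ^ 2 =
        ∑ u ∈ Finset.univ.erase (1 : P), (mB P a ω₂ b u) ^ 2 := by
      refine Finset.sum_congr rfl (fun u hu => ?_)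
      rw [if_neg (Finset.ne_of_mem_erase hu), sub_zero]
    rw [e3]
    ring
  rw [← hn]
  linarith

end

end Cfsg.Agent.Lib.Helper12.TwoP4
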