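import Mathlib
import Cfsg.Agent.Lib.Helper12.TwoP4
import Cfsg.Agent.Lib.Helper12.TwoP3

set_option autoImplicit false
set_option linter.unusedSectionVars false

/-!
The main case of Wielandt's theorem on primitive groups of degree `2p`: rank `3` and the
subdegrees.
-/

namespace Cfsg.Agent.Lib.Helper12.TwoP5

open MulAction Cfsg.Agent.Lib.Helper12.Hecke Cfsg.Agent.Lib.Helper12.Subdeg
  Cfsg.Agent.Lib.Helper12.PermChar Cfsg.Agent.Lib.Helper12.Coef
  Cfsg.Agent.Lib.Helper12.TwoP1 Cfsg.Agent.Lib.Helper12.TwoP2 Cfsg.Agent.Lib.Helper12.TwoP3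
  Cfsg.Agent.Lib.Helper12.TwoP4
  Cfsg.Agent.Lib.Helper3 Cfsg.Agent.Lib.Helper74
open scoped ComplexConjugate

section orbits

theorem rank_three_of_orbits {G : Type*} [Group G] {Ω : Type*} [Fintype Ω] [MulAction G Ω]
    (a b c : Ω) (hb : b ≠ a) (hc : c ≠ a) (hcb : c ∉ orbit (stabilizer G a) b)
    (hall : ∀ y : Ω, y = a ∨ y ∈ orbit (stabilizer G a) b ∨ y ∈ orbit (stabilizer G a) c) :
    Nat.card (orbitRel.Quotient (stabilizer G a) Ω) = 3 ∧
      Nat.card (orbit (stabilizer G a) b) + Nat.card (orbit (stabilizer G a) c) + 1 =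
        Fintype.card Ω := by
  classical
  have : Fintype (orbitRel.Quotient (stabilizer G a) Ω) := Fintype.ofFinite _
  have hmem : ∀ x y : Ω, (Quotient.mk'' x : orbitRel.Quotient (stabilizer G a) Ω) =
      Quotient.mk'' y ↔ x ∈ orbit (stabilizer G a) y := by
    intro x y
    rw [Quotient.eq'']
    rfl
  have hself : ∀ y, y ∈ orbit (stabilizer G a) a → y = a := by
    intro y hy
    rw [orbit_stabilizer_self] at hy
    exact hy
  have hab : (Quotient.mk'' a : orbitRel.Quotient (stabilizer G a) Ω) ≠ Quotient.mk'' b := by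
    intro h
    exact hb (hself b ((hmem b a).mp h.symm))
  have hac : (Quotient.mk'' a : orbitRel.Quotient (stabilizer G a) Ω) ≠ Quotient.mk'' c := by
    intro h
    exact hc (hself c ((hmem c a).mp h.symm))
  have hbc : (Quotient.mk'' b : orbitRel.Quotient (stabilizer G a) Ω) ≠ Quotient.mk'' c := by
    intro h
    exact hcb ((hmem c b).mp h.symm)
  have huniv : (Finset.univ : Finset (orbitRel.Quotient (stabilizer G a) Ω)) =
      {Quotient.mk'' a, Quotient.mk'' b, Quotient.mk'' c} := by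
    ext q
    simp only [Finset.mem_univ, Finset.mem_insert, Finset.mem_singleton, true_iff]
    induction q using Quotient.inductionOn' with
    | h y =>
      rcases hall y with rfl | h | h
      · left; rfl
      · right; left; exact (hmem y b).mpr h
      · right; right; exact (hmem y c).mpr h
  constructor
  · rw [Nat.card_eq_fintype_card, ← Finset.card_univ, huniv,
      Finset.card_insert_of_notMem (by simp [hab, hac]),
      Finset.card_insert_of_notMem (by simp [hbc]), Finset.card_singleton]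
  · rw [card_eq_sum_orbits (G := stabilizer G a), huniv,
      Finset.sum_insert (by simp [hab, hac]), Finset.sum_pair hbc]
    simp only [orbitRel.Quotient.orbit_mk]
    rw [orbit_stabilizer_self]
    simp
    omega

open Classical in
theorem card_orbit_filter {G : Type*} [Group G] {Ω : Type*} [Fintype Ω] [MulAction G Ω] (y : Ω) :
    (Finset.univ.filter (fun z : Ω => z ∈ orbit G y)).card = Nat.card (orbit G y) := by
  rw [← Nat.card_eq_finsetCard]
  apply Nat.card_congr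
  apply Equiv.subtypeEquivRight
  intro x
  simp

end orbits

section

variable {G : Type*} [Group G] [Fintype G] {Ω : Type*} [Fintype Ω] [DecidableEq Ω]
  [MulAction G Ω] [IsPretransitive G Ω] [Fintype (Cfsg.IrrCharacter G)]
  {P : Subgroup G} [Fintype P] {p : ℕ} {a ω₂ : Ω} {m : Cfsg.IrrCharacter G → ℕ}
  {χ₂ : Cfsg.IrrCharacter G}

omit [Fintype G] [Fintype Ω] [DecidableEq Ω] [MulAction G Ω] [IsPretransitive G Ω]
  [Fintype (Cfsg.IrrCharacter G)] in
theorem irr_cf (ψ : Cfsg.IrrCharacter G) : Cfsg.IsClassFunction G (ψ : G → ℂ) := by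
  obtain ⟨n, ρ, hirr, hρ⟩ := ψ.2
  rw [← hρ]
  exact fun g h => ρ.char_conj g h

theorem kk_T (h : MainCase P p a ω₂ m χ₂) (u : P) (hu : u ≠ 1) :
    kk (χ₂ : G → ℂ) a ((u : G) • a) + kk (χ₂ : G → ℂ) ω₂ ((u : G) • ω₂) = 0 := by
  obtain ⟨n, ρ, hirr, hρ⟩ := χ₂.2
  have h1 := sum_kk_diag (Ω := Ω) ρ (u : G)
  rw [hρ, h.hvan u hu, mul_zero] at h1
  have h2 := sum_diag_P P h.hcomm h.hsr h.hcard a ω₂ h.h12 (kk (χ₂ : G → ℂ))
    (fun z x y => kk_smul (irr_cf χ₂) (z : G) x y) u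
  rw [h1, h.hPcard, nsmul_eq_mul] at h2
  have hpC : (p : ℂ) ≠ 0 := by exact_mod_cast h.hp.ne_zero
  exact (mul_eq_zero.mp h2.symm).resolve_left hpC

omit [Fintype (Cfsg.IrrCharacter G)] [IsPretransitive G Ω] in
theorem kk_of_orbMat {χ : G → ℂ} (hχ : Cfsg.IsClassFunction G χ) {a b x y : Ω}
    (hxy : orbMat G a b x y = 1) : kk χ x y = kk χ a b := by
  obtain ⟨g, rfl, rfl⟩ := (orbMat_eq_one_iff G a b x y).mp hxy
  exact kk_smul hχ g a b

theorem kk_eq (b : Ω) (β : ℂ) (hβ : coef a (orbMat G a b) (χ₂ : G → ℂ) = β) :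
    (Nat.card (orbit (stabilizer G a) b) : ℂ) * kk (χ₂ : G → ℂ) a b =
      (Nat.card (stabilizer G a) : ℂ) * β := by
  rw [← hβ, coef_orbMat a b (irr_cf χ₂), ← mul_assoc,
    mul_inv_cancel₀ (card_stab_ne_zero (G := G) a), one_mul]

theorem subdegree_of_ne_zero (h : MainCase P p a ω₂ m χ₂) (b : Ω) (hb : b ≠ a) (β : ℤ)
    (hβ : coef a (orbMat G a b) (χ₂ : G → ℂ) = β) (hβ0 : β ≠ 0)
    (hs1 : ∑ u : P, mB P a ω₂ b u = (Nat.card (orbit (stabilizer G a) b) : ℤ) + β)
    (hs2 : ∑ u : P, (mB P a ω₂ b u) ^ 2 =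
      2 * (Nat.card (orbit (stabilizer G a) b) : ℤ) - 2 * β ^ 2) :
    (Nat.card (orbit (stabilizer G a) b) : ℤ) = β * (2 * β + 1) := by
  have hkk_ne : kk (χ₂ : G → ℂ) a b ≠ 0 := by
    intro h0
    have h1 := kk_eq (χ₂ := χ₂) (a := a) b β hβ
    rw [h0, mul_zero] at h1
    have h2 := card_stab_ne_zero (G := G) a
    have h3 : (β : ℂ) ≠ 0 := by exact_mod_cast hβ0
    exact (mul_ne_zero h2 h3) h1.symm
  have hm01 : ∀ u : P, (mB P a ω₂ b u) ^ 2 = mB P a ω₂ b u := by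
    intro u
    unfold mB
    rcases orbMat_01 (G := G) a b a ((u : G)⁻¹ • a) with h0 | h1 <;>
      rcases orbMat_01 (G := G) a b ω₂ ((u : G)⁻¹ • ω₂) with h0' | h1'
    · rw [h0, h0']; norm_num
    · rw [h0, h1']; norm_num
    · rw [h1, h0']; norm_num
    · exfalso
      have hu : u⁻¹ ≠ 1 := by
        intro hu1
        rw [inv_eq_one] at hu1
        rw [hu1, Subgroup.coe_one, inv_one, one_smul, orbMat_diag hb] at h1
        exact zero_ne_one h1
      have hT := kk_T h u⁻¹ hu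
      rw [Subgroup.coe_inv, kk_of_orbMat (irr_cf χ₂) h1, kk_of_orbMat (irr_cf χ₂) h1'] at hT
      apply hkk_ne
      have h2 : (2 : ℂ) * kk (χ₂ : G → ℂ) a b = 0 := by rw [two_mul]; exact hT
      exact (mul_eq_zero.mp h2).resolve_left two_ne_zero
  rw [Finset.sum_congr rfl (fun u _ => hm01 u)] at hs2
  linear_combination hs1 - hs2

theorem structure_of_zero (b : Ω)
    (hs1 : ∑ u : P, mB P a ω₂ b u = (Nat.card (orbit (stabilizer G a) b) : ℤ))
    (hs2 : ∑ u : P, (mB P a ω₂ b u) ^ 2 = 2 * (Nat.card (orbit (stabilizer G a) b) : ℤ)) :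
    (∀ u : P, orbMat G a b a ((u : G) • a) = orbMat G a b ω₂ ((u : G) • ω₂)) ∧
      2 * ∑ u : P, orbMat G a b a ((u : G) • a) =
        (Nat.card (orbit (stabilizer G a) b) : ℤ) := by
  have hnn : ∀ u ∈ (Finset.univ : Finset P),
      0 ≤ mB P a ω₂ b u * (2 - mB P a ω₂ b u) := by
    intro u _
    unfold mB
    rcases orbMat_01 (G := G) a b a ((u : G)⁻¹ • a) with h0 | h1 <;>
      rcases orbMat_01 (G := G) a b ω₂ ((u : G)⁻¹ • ω₂) with h0' | h1'
    · rw [h0, h0']; norm_num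
    · rw [h0, h1']; norm_num
    · rw [h1, h0']; norm_num
    · rw [h1, h1']; norm_num
  have hz : ∑ u : P, mB P a ω₂ b u * (2 - mB P a ω₂ b u) = 0 := by
    have h1 : ∀ u : P, mB P a ω₂ b u * (2 - mB P a ω₂ b u) =
        2 * mB P a ω₂ b u - (mB P a ω₂ b u) ^ 2 := by
      intro u
      ring
    rw [Finset.sum_congr rfl (fun u _ => h1 u), Finset.sum_sub_distrib, ← Finset.mul_sum, hs1,
      hs2, sub_self]
  have heq' : ∀ u : P, orbMat G a b a ((u : G)⁻¹ • a) = orbMat G a b ω₂ ((u : G)⁻¹ • ω₂) := by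
    intro u
    have h0 := (Finset.sum_eq_zero_iff_of_nonneg hnn).mp hz u (Finset.mem_univ _)
    unfold mB at h0
    rcases orbMat_01 (G := G) a b a ((u : G)⁻¹ • a) with h1 | h1 <;>
      rcases orbMat_01 (G := G) a b ω₂ ((u : G)⁻¹ • ω₂) with h1' | h1'
    · rw [h1, h1']
    · rw [h1, h1'] at h0; norm_num at h0
    · rw [h1, h1'] at h0; norm_num at h0
    · rw [h1, h1']
  have heq : ∀ u : P, orbMat G a b a ((u : G) • a) = orbMat G a b ω₂ ((u : G) • ω₂) := by
    intro u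
    have h1 := heq' u⁻¹
    rw [Subgroup.coe_inv, inv_inv] at h1
    exact h1
  refine ⟨heq, ?_⟩
  rw [← hs1, Finset.mul_sum, ← Equiv.sum_comp (Equiv.inv P)]
  refine Finset.sum_congr rfl (fun u _ => ?_)
  unfold mB
  rw [Equiv.inv_apply, Subgroup.coe_inv, ← heq' u]
  ring

theorem point_data (h : MainCase P p a ω₂ m χ₂) :
    ∃ bb : Ω → ℤ, (∀ y, y ≠ a → coef a (orbMat G a y) (χ₂ : G → ℂ) = bb y) ∧
      (∀ y, y ≠ a → ∑ u : P, mB P a ω₂ y u =
        (Nat.card (orbit (stabilizer G a) y) : ℤ) + bb y) ∧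
      (∀ y, y ≠ a → ∑ u : P, (mB P a ω₂ y u) ^ 2 =
        2 * (Nat.card (orbit (stabilizer G a) y) : ℤ) - 2 * bb y ^ 2) := by
  have hex : ∀ y : Ω, ∃ β : ℤ, y ≠ a → (coef a (orbMat G a y) (χ₂ : G → ℂ) = β ∧
      ∑ u : P, mB P a ω₂ y u = (Nat.card (orbit (stabilizer G a) y) : ℤ) + β ∧
      ∑ u : P, (mB P a ω₂ y u) ^ 2 =
        2 * (Nat.card (orbit (stabilizer G a) y) : ℤ) - 2 * β ^ 2) := by
    intro y
    by_cases hy : y = a
    · exact ⟨0, fun h' => absurd hy h'⟩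
    · obtain ⟨β, h1, h2, h3⟩ := orbital_sums h y hy
      exact ⟨β, fun _ => ⟨h1, h2, h3⟩⟩
  choose bb hbb using hex
  exact ⟨bb, fun y hy => (hbb y hy).1, fun y hy => (hbb y hy).2.1, fun y hy => (hbb y hy).2.2⟩

theorem bb_const (bb : Ω → ℤ)
    (hbb1 : ∀ y, y ≠ a → coef a (orbMat G a y) (χ₂ : G → ℂ) = bb y) (y : Ω) (hy : y ≠ a)
    (z : Ω) (hz : z ∈ orbit (stabilizer G a) y) :
    z ≠ a ∧ bb z = bb y ∧ orbit (stabilizer G a) z = orbit (stabilizer G a) y := by
  have heq : orbit (stabilizer G a) z = orbit (stabilizer G a) y := MulAction.orbit_eq_iff.mpr hz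
  have hza : z ≠ a := by
    rintro rfl
    have h1 : y ∈ orbit (stabilizer G z) z := by
      rw [heq]
      exact mem_orbit_self y
    rw [orbit_stabilizer_self] at h1
    exact hy h1
  refine ⟨hza, ?_, heq⟩
  have h1 := kk_eq (χ₂ := χ₂) (a := a) z (bb z) (hbb1 z hza)
  have h2 := kk_eq (χ₂ := χ₂) (a := a) y (bb y) (hbb1 y hy)
  rw [heq, kk_orbit (irr_cf χ₂) a y z hz, h2] at h1
  have h3 := mul_left_cancel₀ (card_stab_ne_zero (G := G) a) h1
  exact_mod_cast h3.symm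

theorem factO (h : MainCase P p a ω₂ m χ₂) :
    ∑ y, kk (χ₂ : G → ℂ) a y = 0 ∧
    ∑ y, kk (χ₂ : G → ℂ) a y * kk (χ₂ : G → ℂ) y a =
      2 * (Nat.card (stabilizer G a) : ℂ) ^ 2 := by
  constructor
  · rw [sum_kk_row]
    have h1 := Cfsg.Agent.Lib.Helper80.classInner_irr χ₂ (irrOne G)
    rw [if_neg h.hne] at h1
    unfold Cfsg.classInner at h1
    simp only [irrOne_apply, map_one, mul_one] at h1
    have hG : (Nat.card G : ℂ) ≠ 0 := by exact_mod_cast (Nat.card_pos (α := G)).ne'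
    exact (mul_eq_zero.mp h1).resolve_left (inv_ne_zero hG)
  · obtain ⟨n, ρ, hirr, hρ⟩ := χ₂.2
    have h1 := sum_kk_mul (Ω := Ω) ρ a
    have h2 : (Module.finrank ℂ (Fin n → ℂ) : ℂ) = p := by
      rw [← ρ.char_one, hρ, h.hd2]
    rw [hρ, h2] at h1
    rw [h1, kk_self a (irr_cf χ₂) (by rw [h.hm χ₂, h.hm2, Nat.cast_one]),
      card_eq_stab_mul (G := G) a, h.hcard, h.hPcard]
    have hpC : (p : ℂ) ≠ 0 := by exact_mod_cast h.hp.ne_zero
    push_cast
    field_simp

theorem point_sums (h : MainCase P p a ω₂ m χ₂) (bb : Ω → ℤ)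
    (hbb1 : ∀ y, y ≠ a → coef a (orbMat G a y) (χ₂ : G → ℂ) = bb y) :
    ∑ y ∈ Finset.univ.erase a,
        ((bb y : ℚ) / (Nat.card (orbit (stabilizer G a) y) : ℚ)) = -1 ∧
    ∑ y ∈ Finset.univ.erase a,
        ((bb y : ℚ) / (Nat.card (orbit (stabilizer G a) y) : ℚ)) ^ 2 = 1 := by
  obtain ⟨f1, f2⟩ := factO h
  have hH := card_stab_ne_zero (G := G) a
  have hself := kk_self a (irr_cf χ₂) (by rw [h.hm χ₂, h.hm2, Nat.cast_one])
  have hkk : ∀ y, y ≠ a → kk (χ₂ : G → ℂ) a y = (Nat.card (stabilizer G a) : ℂ) *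
      (((bb y : ℚ) / (Nat.card (orbit (stabilizer G a) y) : ℚ) : ℚ) : ℂ) := by
    intro y hy
    have h1 := kk_eq (χ₂ := χ₂) (a := a) y (bb y) (hbb1 y hy)
    have hn : (Nat.card (orbit (stabilizer G a) y) : ℂ) ≠ 0 := by
      have h2 : 0 < Nat.card (orbit (stabilizer G a) y) :=
        Nat.card_pos_iff.mpr ⟨(nonempty_orbit y).to_subtype, inferInstance⟩
      exact_mod_cast h2.ne'
    push_cast
    rw [mul_div_assoc', eq_div_iff hn, mul_comm]
    exact h1
  have hkk' : ∀ y, y ≠ a → kk (χ₂ : G → ℂ) y a = (Nat.card (stabilizer G a) : ℂ) *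
      (((bb y : ℚ) / (Nat.card (orbit (stabilizer G a) y) : ℚ) : ℚ) : ℂ) := by
    intro y hy
    rw [kk_conj (irr_inv χ₂) a y, hkk y hy, map_mul, map_natCast, map_ratCast]
  constructor
  · have e1 := Finset.add_sum_erase Finset.univ (fun y => kk (χ₂ : G → ℂ) a y)
      (Finset.mem_univ a)
    beta_reduce at e1
    rw [f1, hself, Finset.sum_congr rfl (fun y hy => hkk y (Finset.ne_of_mem_erase hy)),
      ← Finset.mul_sum] at e1
    have e2 : (Nat.card (stabilizer G a) : ℂ) * ((1 + ∑ y ∈ Finset.univ.erase a,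
        ((bb y : ℚ) / (Nat.card (orbit (stabilizer G a) y) : ℚ)) : ℚ) : ℂ) = 0 := by
      push_cast
      push_cast at e1
      linear_combination e1
    have e3 := (mul_eq_zero.mp e2).resolve_left hH
    have e4 : (1 : ℚ) + ∑ y ∈ Finset.univ.erase a,
        ((bb y : ℚ) / (Nat.card (orbit (stabilizer G a) y) : ℚ)) = 0 := by exact_mod_cast e3
    linarith
  · have e1 := Finset.add_sum_erase Finset.univ
      (fun y => kk (χ₂ : G → ℂ) a y * kk (χ₂ : G → ℂ) y a) (Finset.mem_univ a)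
    beta_reduce at e1
    have e0 : ∀ y ∈ Finset.univ.erase a, kk (χ₂ : G → ℂ) a y * kk (χ₂ : G → ℂ) y a =
        (Nat.card (stabilizer G a) : ℂ) ^ 2 *
          ((((bb y : ℚ) / (Nat.card (orbit (stabilizer G a) y) : ℚ)) ^ 2 : ℚ) : ℂ) := by
      intro y hy
      rw [hkk y (Finset.ne_of_mem_erase hy), hkk' y (Finset.ne_of_mem_erase hy)]
      push_cast
      ring
    rw [f2, hself, Finset.sum_congr rfl e0, ← Finset.mul_sum] at e1
    have e2 : (Nat.card (stabilizer G a) : ℂ) ^ 2 * ((1 + ∑ y ∈ Finset.univ.erase a,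
        ((bb y : ℚ) / (Nat.card (orbit (stabilizer G a) y) : ℚ)) ^ 2 : ℚ) : ℂ) =
        (Nat.card (stabilizer G a) : ℂ) ^ 2 * ((2 : ℚ) : ℂ) := by
      push_cast
      push_cast at e1
      linear_combination e1
    have e3 := mul_left_cancel₀ (pow_ne_zero 2 hH) e2
    have e4 : (1 : ℚ) + ∑ y ∈ Finset.univ.erase a,
        ((bb y : ℚ) / (Nat.card (orbit (stabilizer G a) y) : ℚ)) ^ 2 = 2 := by exact_mod_cast e3
    linarith

theorem subdegree_ge_two [IsPreprimitive G Ω] (h : MainCase P p a ω₂ m χ₂) (bb : Ω → ℤ)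
    (hbb1 : ∀ y, y ≠ a → coef a (orbMat G a y) (χ₂ : G → ℂ) = bb y)
    (hbb2 : ∀ y, y ≠ a → ∑ u : P, mB P a ω₂ y u =
        (Nat.card (orbit (stabilizer G a) y) : ℤ) + bb y)
    (hbb3 : ∀ y, y ≠ a → ∑ u : P, (mB P a ω₂ y u) ^ 2 =
        2 * (Nat.card (orbit (stabilizer G a) y) : ℤ) - 2 * bb y ^ 2)
    (y₀ : Ω) (hy₀ : y₀ ≠ a) : 2 ≤ Nat.card (orbit (stabilizer G a) y₀) := by
  by_contra hcon
  have hpos : ∀ y : Ω, 0 < Nat.card (orbit (stabilizer G a) y) :=
    fun y => Nat.card_pos_iff.mpr ⟨(nonempty_orbit y).to_subtype, inferInstance⟩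
  have h1 : Nat.card (orbit (stabilizer G a) y₀) = 1 := by
    have := hpos y₀
    omega
  have hfix : ∀ g ∈ stabilizer G a, g • y₀ = y₀ := by
    intro g hg
    have hsub : Subsingleton (orbit (stabilizer G a) y₀) :=
      (Nat.card_eq_one_iff_unique.mp h1).1
    have e := hsub.elim ⟨(⟨g, hg⟩ : stabilizer G a) • y₀, mem_orbit _ _⟩
      ⟨y₀, mem_orbit_self _⟩
    exact congrArg Subtype.val e
  have hall := Cfsg.Agent.S0719.fixes_all_of_fixes_one a y₀ hy₀ hfix
  have hn1 : ∀ y : Ω, Nat.card (orbit (stabilizer G a) y) = 1 := by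
    intro y
    have e : orbit (stabilizer G a) y = {y} := by
      ext z
      constructor
      · rintro ⟨g, rfl⟩
        exact hall g.1 g.2 y
      · rintro rfl
        exact mem_orbit_self _
    rw [e]
    simp
  have hb : ∀ y, y ≠ a → bb y = -1 := by
    intro y hy
    by_cases hb0 : bb y = 0
    · exfalso
      obtain ⟨_, h2S⟩ := structure_of_zero (P := P) (a := a) (ω₂ := ω₂) y
        (by rw [hbb2 y hy, hb0, add_zero]) (by rw [hbb3 y hy, hb0]; ring)
      rw [hn1 y] at h2S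
      push_cast at h2S
      omega
    · have e := subdegree_of_ne_zero h y hy (bb y) (hbb1 y hy) hb0 (hbb2 y hy) (hbb3 y hy)
      rw [hn1 y] at e
      push_cast at e
      rcases Int.eq_one_or_neg_one_of_mul_eq_one e.symm with e1 | e1
      · rw [e1] at e
        norm_num at e
      · exact e1
  obtain ⟨_, hq2⟩ := point_sums h bb hbb1
  have e : ∀ y ∈ Finset.univ.erase a,
      ((bb y : ℚ) / (Nat.card (orbit (stabilizer G a) y) : ℚ)) ^ 2 = 1 := by
    intro y hy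
    rw [hb y (Finset.ne_of_mem_erase hy), hn1 y]
    norm_num
  rw [Finset.sum_congr rfl e, Finset.sum_const, Finset.card_erase_of_mem (Finset.mem_univ _),
    Finset.card_univ, h.hcard, h.hPcard, nsmul_eq_mul, mul_one] at hq2
  have hp2 := h.hp.two_le
  have e5 : (2 * p - 1 : ℕ) = 1 := by exact_mod_cast hq2
  omega

theorem no_zero (h : MainCase P p a ω₂ m χ₂) (bb : Ω → ℤ)
    (hbb1 : ∀ y, y ≠ a → coef a (orbMat G a y) (χ₂ : G → ℂ) = bb y)
    (hbb2 : ∀ y, y ≠ a → ∑ u : P, mB P a ω₂ y u =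
        (Nat.card (orbit (stabilizer G a) y) : ℤ) + bb y)
    (hbb3 : ∀ y, y ≠ a → ∑ u : P, (mB P a ω₂ y u) ^ 2 =
        2 * (Nat.card (orbit (stabilizer G a) y) : ℤ) - 2 * bb y ^ 2)
    (c : ℂ) (hc : c ≠ 0) (sg : Ω → ℤ) (hsg1 : ∀ y, |sg y| ≤ 1)
    (hsg : ∀ y, y ≠ a → kk (χ₂ : G → ℂ) a y = c * sg y)
    (yp : Ω) (hyp : yp ≠ a) (hbp : 0 < bb yp)
    (y₀ : Ω) (hy₀ : y₀ ≠ a) (h0 : bb y₀ = 0) : False := by
  classical
  have hcf := irr_cf χ₂
  obtain ⟨B, hBdef⟩ : ∃ B, B = orbMat G a y₀ := ⟨_, rfl⟩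
  have hB : IsInv G B := by
    rw [hBdef]
    exact isInv_orbMat a y₀
  obtain ⟨hS, h2S⟩ := structure_of_zero (P := P) (a := a) (ω₂ := ω₂) y₀
    (by rw [hbb2 y₀ hy₀, h0, add_zero]) (by rw [hbb3 y₀ hy₀, h0]; ring)
  rw [← hBdef] at hS h2S
  obtain ⟨S, hSdef⟩ : ∃ S : P → ℤ, S = fun u : P => B a ((u : G) • a) := ⟨_, rfl⟩
  have hSapp : ∀ u : P, S u = B a ((u : G) • a) := by
    intro u
    rw [hSdef]
  have hS01 : ∀ u, S u = 0 ∨ S u = 1 := by
    intro u
    rw [hSapp, hBdef]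
    exact orbMat_01 _ _ _ _
  have hS1 : S 1 = 0 := by
    rw [hSapp, Subgroup.coe_one, one_smul, hBdef, orbMat_diag hy₀]
  have hSsum : ¬ (p : ℤ) ∣ ∑ v : P, S v := by
    have h1 : 0 < ∑ v : P, S v := by
      have h3 : 0 < Nat.card (orbit (stabilizer G a) y₀) :=
        Nat.card_pos_iff.mpr ⟨(nonempty_orbit y₀).to_subtype, inferInstance⟩
      have h2S' : 2 * ∑ v : P, S v = (Nat.card (orbit (stabilizer G a) y₀) : ℤ) := by
        rw [← h2S]
        congr 1
        exact Finset.sum_congr rfl (fun u _ => hSapp u)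
      omega
    have h2 : ∑ v : P, S v < p := by
      have e1 := Finset.add_sum_erase Finset.univ S (Finset.mem_univ 1)
      have e2 : ∑ v ∈ Finset.univ.erase (1 : P), S v ≤
          ∑ v ∈ Finset.univ.erase (1 : P), (1 : ℤ) :=
        Finset.sum_le_sum (fun v _ => by rcases hS01 v with h | h <;> rw [h] <;> norm_num)
      rw [Finset.sum_const, Finset.card_erase_of_mem (Finset.mem_univ _), Finset.card_univ,
        h.hPcard, nsmul_eq_mul, mul_one, Nat.cast_sub h.hp.one_le] at e2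
      rw [hS1, zero_add] at e1
      rw [← e1]
      push_cast at e2
      omega
    intro hdvd
    have h3 := Int.le_of_dvd h1 hdvd
    omega
  obtain ⟨n, ρ, hirr, hρ⟩ := χ₂.2
  have h1ρ : Cfsg.classInner (permChar G Ω) ρ.character = 1 := by
    rw [hρ, h.hm χ₂, h.hm2, Nat.cast_one]
  have hcoefT : coef a B.transpose (χ₂ : G → ℂ) = 0 := by
    rw [coef_transpose a hB (irr_inv χ₂), hBdef, hbb1 y₀ hy₀, h0, Int.cast_zero, map_zero]
  have E1 : ∀ x y : Ω, ∑ z, (B x z : ℂ) * kk (χ₂ : G → ℂ) z y = 0 := by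
    intro x y
    have e := eig_left ρ a h1ρ hB x y
    rw [hρ, hcoefT, zero_mul] at e
    exact e
  have E2 : ∀ x y : Ω, ∑ z, kk (χ₂ : G → ℂ) x z * (B z y : ℂ) = 0 := by
    intro x y
    have e := eig_right ρ a h1ρ hB x y
    rw [hρ, hcoefT, zero_mul] at e
    exact e
  have hkP : ∀ (v u : P) (x y : Ω), kk (χ₂ : G → ℂ) ((v : G) • x) ((u : G) • y) =
      kk (χ₂ : G → ℂ) x (((v⁻¹ * u : P) : G) • y) := by
    intro v u x y
    have h1 := kk_smul hcf (v : G) x (((v⁻¹ * u : P) : G) • y)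
    rw [← mul_smul, ← Subgroup.coe_mul, mul_inv_cancel_left] at h1
    exact h1
  have hBP : ∀ (v u : P) (x y : Ω), B ((v : G) • x) ((u : G) • y) =
      B x (((v⁻¹ * u : P) : G) • y) := by
    intro v u x y
    have h1 := hB (v : G) x (((v⁻¹ * u : P) : G) • y)
    rw [← mul_smul, ← Subgroup.coe_mul, mul_inv_cancel_left] at h1
    exact h1
  have hinv : ∀ (u v : P), (v⁻¹ * u)⁻¹ * u = v := by
    intro u v
    rw [mul_inv_rev, inv_inv, mul_assoc, h.hcomm v u, ← mul_assoc, inv_mul_cancel, one_mul]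
  have hconv : ∀ u : P, ∑ v : P, (S v : ℂ) *
      (kk (χ₂ : G → ℂ) a (((v⁻¹ * u : P) : G) • a) -
        kk (χ₂ : G → ℂ) ω₂ (((v⁻¹ * u : P) : G) • ω₂)) = 0 := by
    intro u
    have e1 := E1 a ((u : G) • a)
    rw [sum_two_orbits P h.hsr h.hcard a ω₂ h.h12] at e1
    have e2 := E2 ω₂ ((u : G) • ω₂)
    rw [sum_two_orbits P h.hsr h.hcard a ω₂ h.h12] at e2
    simp_rw [hkP] at e1
    simp_rw [hBP] at e2
    have r1 : ∑ v : P, kk (χ₂ : G → ℂ) ω₂ ((v : G) • a) *
        (B a (((v⁻¹ * u : P) : G) • ω₂) : ℂ) =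
        ∑ v : P, kk (χ₂ : G → ℂ) ω₂ (((v⁻¹ * u : P) : G) • a) * (B a ((v : G) • ω₂) : ℂ) := by
      rw [← Equiv.sum_comp ((Equiv.inv P).trans (Equiv.mulRight u))]
      refine Finset.sum_congr rfl (fun v _ => ?_)
      simp only [Equiv.trans_apply, Equiv.inv_apply, Equiv.coe_mulRight, hinv]
    have r2 : ∑ v : P, kk (χ₂ : G → ℂ) ω₂ ((v : G) • ω₂) *
        (B ω₂ (((v⁻¹ * u : P) : G) • ω₂) : ℂ) =
        ∑ v : P, kk (χ₂ : G → ℂ) ω₂ (((v⁻¹ * u : P) : G) • ω₂) *
          (B ω₂ ((v : G) • ω₂) : ℂ) := by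
      rw [← Equiv.sum_comp ((Equiv.inv P).trans (Equiv.mulRight u))]
      refine Finset.sum_congr rfl (fun v _ => ?_)
      simp only [Equiv.trans_apply, Equiv.inv_apply, Equiv.coe_mulRight, hinv]
    rw [r1, r2] at e2
    have e3 : ∑ v : P, (B a ((v : G) • ω₂) : ℂ) *
        kk (χ₂ : G → ℂ) ω₂ (((v⁻¹ * u : P) : G) • a) =
        ∑ v : P, kk (χ₂ : G → ℂ) ω₂ (((v⁻¹ * u : P) : G) • a) * (B a ((v : G) • ω₂) : ℂ) :=
      Finset.sum_congr rfl (fun v _ => mul_comm _ _)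
    rw [e3] at e1
    have e4 : ∑ v : P, (S v : ℂ) * (kk (χ₂ : G → ℂ) a (((v⁻¹ * u : P) : G) • a) -
        kk (χ₂ : G → ℂ) ω₂ (((v⁻¹ * u : P) : G) • ω₂)) =
        ∑ v : P, (B a ((v : G) • a) : ℂ) * kk (χ₂ : G → ℂ) a (((v⁻¹ * u : P) : G) • a) -
        ∑ v : P, kk (χ₂ : G → ℂ) ω₂ (((v⁻¹ * u : P) : G) • ω₂) *
          (B ω₂ ((v : G) • ω₂) : ℂ) := by
      rw [← Finset.sum_sub_distrib]
      refine Finset.sum_congr rfl (fun v _ => ?_)
      rw [hSapp, ← hS v]
      ring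
    rw [e4]
    linear_combination e1 - e2
  obtain ⟨D, hDdef⟩ : ∃ D : P → ℤ,
      D = fun w : P => if w = 1 then 0 else sg ((w : G) • a) := ⟨_, rfl⟩
  have hDapp : ∀ w : P, D w = if w = 1 then 0 else sg ((w : G) • a) := by
    intro w
    rw [hDdef]
  have hD1 : ∀ w, |D w| ≤ 1 := by
    intro w
    rw [hDapp]
    split_ifs
    · simp
    · exact hsg1 _
  have hω₂ : kk (χ₂ : G → ℂ) ω₂ ω₂ = kk (χ₂ : G → ℂ) a a := by
    obtain ⟨g, hg⟩ := exists_smul_eq G a ω₂
    rw [← hg]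
    exact kk_smul hcf g a a
  have hk : ∀ w : P, kk (χ₂ : G → ℂ) a ((w : G) • a) - kk (χ₂ : G → ℂ) ω₂ ((w : G) • ω₂) =
      2 * c * (D w : ℂ) := by
    intro w
    by_cases hw : w = 1
    · rw [hDapp, if_pos hw, hw, Subgroup.coe_one, one_smul, one_smul, hω₂, sub_self,
        Int.cast_zero, mul_zero]
    · have hT := kk_T h w hw
      have hwa : (w : G) • a ≠ a := h.hsr w hw a
      rw [hDapp, if_neg hw]
      have e := hsg _ hwa
      linear_combination 2 * e - hT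
  have hconvZ : ∀ u : P, ∑ v : P, S v * D (v⁻¹ * u) = 0 := by
    intro u
    have e := hconv u
    simp_rw [hk] at e
    have e' : (2 * c) * ((∑ v : P, S v * D (v⁻¹ * u) : ℤ) : ℂ) = 0 := by
      rw [← e]
      push_cast
      rw [Finset.mul_sum]
      refine Finset.sum_congr rfl (fun v _ => ?_)
      ring
    have e'' := (mul_eq_zero.mp e').resolve_left (mul_ne_zero two_ne_zero hc)
    exact_mod_cast e''
  have hDzero := conv_eq_zero' h.hcomm h.hp h.hPcard S D hconvZ hSsum hD1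
  have hkk0 : ∀ w : P, w ≠ 1 → kk (χ₂ : G → ℂ) a ((w : G) • a) = 0 ∧
      kk (χ₂ : G → ℂ) ω₂ ((w : G) • ω₂) = 0 := by
    intro w hw
    have h1 := hk w
    rw [hDzero w, Int.cast_zero, mul_zero] at h1
    have hT := kk_T h w hw
    constructor
    · linear_combination (1 / 2 : ℂ) * h1 + (1 / 2 : ℂ) * hT
    · linear_combination (1 / 2 : ℂ) * hT - (1 / 2 : ℂ) * h1
  have hkkp : kk (χ₂ : G → ℂ) a yp ≠ 0 := by
    intro hz
    have h1 := kk_eq (χ₂ := χ₂) (a := a) yp (bb yp) (hbb1 yp hyp)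
    rw [hz, mul_zero] at h1
    have h2 := card_stab_ne_zero (G := G) a
    have h3 : (bb yp : ℂ) ≠ 0 := by exact_mod_cast hbp.ne'
    exact (mul_ne_zero h2 h3) h1.symm
  have hmBz : ∀ u : P, mB P a ω₂ yp u = 0 := by
    intro u
    by_cases hu : u = 1
    · rw [hu]
      unfold mB
      rw [Subgroup.coe_one, inv_one, one_smul, one_smul, orbMat_diag hyp, orbMat_diag hyp,
        add_zero]
    · have hu' : u⁻¹ ≠ 1 := by rwa [Ne, inv_eq_one]
      obtain ⟨k1, k2⟩ := hkk0 u⁻¹ hu'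
      rw [Subgroup.coe_inv] at k1 k2
      unfold mB
      rcases orbMat_01 (G := G) a yp a ((u : G)⁻¹ • a) with e1 | e1
      · rcases orbMat_01 (G := G) a yp ω₂ ((u : G)⁻¹ • ω₂) with e2 | e2
        · rw [e1, e2, add_zero]
        · exfalso
          rw [kk_of_orbMat hcf e2] at k2
          exact hkkp k2
      · exfalso
        rw [kk_of_orbMat hcf e1] at k1
        exact hkkp k1
  have hsum := hbb2 yp hyp
  rw [Finset.sum_congr rfl (fun u _ => hmBz u), Finset.sum_const_zero] at hsum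
  have hnn : (0 : ℤ) ≤ (Nat.card (orbit (stabilizer G a) yp) : ℤ) := Nat.cast_nonneg _
  omega

theorem main_case [IsPreprimitive G Ω] (h : MainCase P p a ω₂ m χ₂) :
    Nat.card (orbitRel.Quotient (stabilizer G a) Ω) = 3 ∧ ∃ A : ℕ, 0 < A ∧
      p = 2 * A ^ 2 + 2 * A + 1 ∧ ∀ b : Ω, b ≠ a →
        Nat.card (orbit (stabilizer G a) b) = A * (2 * A + 1) ∨
        Nat.card (orbit (stabilizer G a) b) = (A + 1) * (2 * A + 1) := by
  classical
  obtain ⟨bb, hbb1, hbb2, hbb3⟩ := point_data h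
  have hn2 : ∀ y, y ≠ a → 2 ≤ Nat.card (orbit (stabilizer G a) y) :=
    fun y hy => subdegree_ge_two h bb hbb1 hbb2 hbb3 y hy
  obtain ⟨hq1, hq2⟩ := point_sums h bb hbb1
  have hn : ∀ y, y ≠ a → bb y ≠ 0 →
      (Nat.card (orbit (stabilizer G a) y) : ℤ) = bb y * (2 * bb y + 1) :=
    fun y hy h0 => subdegree_of_ne_zero h y hy (bb y) (hbb1 y hy) h0 (hbb2 y hy) (hbb3 y hy)
  have hconst := bb_const (χ₂ := χ₂) (a := a) bb hbb1
  obtain ⟨T, hT⟩ : ∃ T : Finset Ω, T = (Finset.univ.erase a).filter (fun y => bb y ≠ 0) :=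
    ⟨_, rfl⟩
  obtain ⟨O, hO⟩ : ∃ O : Ω → Finset Ω,
      O = fun y => Finset.univ.filter (fun z => z ∈ orbit (stabilizer G a) y) := ⟨_, rfl⟩
  have hTmem : ∀ y, y ∈ T ↔ y ≠ a ∧ bb y ≠ 0 := by
    intro y
    rw [hT]
    simp
  have hOmem : ∀ y z, z ∈ O y ↔ z ∈ orbit (stabilizer G a) y := by
    intro y z
    rw [hO]
    simp
  have hOcard : ∀ y, (O y).card = Nat.card (orbit (stabilizer G a) y) := by
    intro y
    rw [hO]
    exact card_orbit_filter y
  have hqT : ∀ y, y ≠ a → bb y ≠ 0 →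
      (bb y : ℚ) / (Nat.card (orbit (stabilizer G a) y) : ℚ) = 1 / (2 * (bb y : ℚ) + 1) := by
    intro y hy h0
    have e : (Nat.card (orbit (stabilizer G a) y) : ℚ) = (bb y : ℚ) * (2 * (bb y : ℚ) + 1) := by
      exact_mod_cast hn y hy h0
    have hb : (bb y : ℚ) ≠ 0 := by exact_mod_cast h0
    rw [e, div_mul_eq_div_div, div_self hb]
  have hβ1 : ∀ y, y ≠ a → bb y ≠ -1 := by
    intro y hy h1
    have e := hn y hy (by rw [h1]; norm_num)
    rw [h1] at e
    have e2 := hn2 y hy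
    have e3 : (Nat.card (orbit (stabilizer G a) y) : ℤ) = 1 := by
      rw [e]
      norm_num
    omega
  obtain ⟨A, hA, yp, hyp, ym, hym, hbp, hbm, hTall⟩ := arith T O bb
    (by
      intro y hy z hz
      rw [hTmem] at hy ⊢
      rw [hOmem] at hz
      obtain ⟨h1, h2, _⟩ := hconst y hy.1 z hz
      exact ⟨h1, by rw [h2]; exact hy.2⟩)
    (by
      intro y _
      rw [hOmem]
      exact mem_orbit_self y)
    (by
      intro y hy z hz
      rw [hTmem] at hy
      rw [hOmem] at hz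
      ext w
      rw [hOmem, hOmem, (hconst y hy.1 z hz).2.2])
    (by
      intro y hy z hz
      rw [hTmem] at hy
      rw [hOmem] at hz
      exact (hconst y hy.1 z hz).2.1)
    (by
      intro y hy
      rw [hTmem] at hy
      rw [hOcard]
      exact hn y hy.1 hy.2)
    (by
      intro y hy
      exact ((hTmem y).mp hy).2)
    (by
      intro y hy
      exact hβ1 y ((hTmem y).mp hy).1)
    (by
      rw [hT, Finset.sum_filter]
      refine Eq.trans ?_ hq1
      refine Finset.sum_congr rfl (fun y hy => ?_)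
      by_cases hb0 : bb y = 0
      · rw [if_neg (not_not.mpr hb0), hb0]
        simp
      · rw [if_pos hb0, hqT y (Finset.ne_of_mem_erase hy) hb0])
    (by
      rw [hT, Finset.sum_filter]
      refine Eq.trans ?_ hq2
      refine Finset.sum_congr rfl (fun y hy => ?_)
      by_cases hb0 : bb y = 0
      · rw [if_neg (not_not.mpr hb0), hb0]
        simp
      · rw [if_pos hb0, hqT y (Finset.ne_of_mem_erase hy) hb0, one_div_pow])
  have hypT := (hTmem yp).mp hyp
  have hymT := (hTmem ym).mp hym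
  have hnp : Nat.card (orbit (stabilizer G a) yp) = A * (2 * A + 1) := by
    have e := hn yp hypT.1 hypT.2
    rw [hbp] at e
    exact_mod_cast e
  have hnm : Nat.card (orbit (stabilizer G a) ym) = (A + 1) * (2 * A + 1) := by
    have e := hn ym hymT.1 hymT.2
    rw [hbm] at e
    have e' : (Nat.card (orbit (stabilizer G a) ym) : ℤ) = ((A + 1) * (2 * A + 1) : ℕ) := by
      rw [e]
      push_cast
      ring
    exact_mod_cast e'
  obtain ⟨c, hcdef⟩ : ∃ c : ℂ, c = (Nat.card (stabilizer G a) : ℂ) / (2 * (A : ℂ) + 1) :=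
    ⟨_, rfl⟩
  have hH := card_stab_ne_zero (G := G) a
  have hsne : (2 * (A : ℂ) + 1) ≠ 0 := by
    have e0 : (2 * A + 1 : ℕ) ≠ 0 := by omega
    have e : ((2 * A + 1 : ℕ) : ℂ) ≠ 0 := by exact_mod_cast e0
    push_cast at e
    exact e
  have hc : c ≠ 0 := by
    rw [hcdef]
    exact div_ne_zero hH hsne
  have hsg1 : ∀ y, |Int.sign (bb y)| ≤ 1 := by
    intro y
    rcases lt_trichotomy (bb y) 0 with h1 | h1 | h1
    · rw [Int.sign_eq_neg_one_of_neg h1]
      norm_num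
    · rw [h1, Int.sign_zero]
      norm_num
    · rw [Int.sign_eq_one_of_pos h1]
      norm_num
  have hsg : ∀ y, y ≠ a → kk (χ₂ : G → ℂ) a y = c * ((Int.sign (bb y) : ℤ) : ℂ) := by
    intro y hy
    have e := kk_eq (χ₂ := χ₂) (a := a) y (bb y) (hbb1 y hy)
    have hnC : (Nat.card (orbit (stabilizer G a) y) : ℂ) ≠ 0 := by
      have e2 := hn2 y hy
      exact_mod_cast (by omega : Nat.card (orbit (stabilizer G a) y) ≠ 0)
    by_cases hb0 : bb y = 0
    · rw [hb0, Int.cast_zero, mul_zero] at e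
      rw [hb0, Int.sign_zero, Int.cast_zero, mul_zero]
      exact (mul_eq_zero.mp e).resolve_left hnC
    · have hyT : y ∈ T := (hTmem y).mpr ⟨hy, hb0⟩
      rcases hTall y hyT with hO1 | hO1
      · rw [hOmem] at hO1
        obtain ⟨_, e1, e2⟩ := hconst yp hypT.1 y hO1
        rw [e2, hnp, e1, hbp] at e
        have hAC : (A : ℂ) ≠ 0 := by exact_mod_cast hA.ne'
        have e3 : kk (χ₂ : G → ℂ) a y * (2 * (A : ℂ) + 1) = (Nat.card (stabilizer G a) : ℂ) := by
          apply mul_left_cancel₀ hAC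
          push_cast at e
          linear_combination e
        rw [e1, hbp, Int.sign_eq_one_of_pos (by exact_mod_cast hA), Int.cast_one, mul_one, hcdef]
        exact eq_div_of_mul_eq hsne e3
      · rw [hOmem] at hO1
        obtain ⟨_, e1, e2⟩ := hconst ym hymT.1 y hO1
        rw [e2, hnm, e1, hbm] at e
        have hA1 : ((A : ℂ) + 1) ≠ 0 := by
          have e0 : (A + 1 : ℕ) ≠ 0 := by omega
          have e5 : ((A + 1 : ℕ) : ℂ) ≠ 0 := by exact_mod_cast e0
          push_cast at e5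
          exact e5
        have e3 : kk (χ₂ : G → ℂ) a y * (2 * (A : ℂ) + 1) =
            -(Nat.card (stabilizer G a) : ℂ) := by
          apply mul_left_cancel₀ hA1
          push_cast at e
          linear_combination e
        have hsign : Int.sign (-((A : ℤ) + 1)) = -1 := Int.sign_eq_neg_one_of_neg (by omega)
        rw [e1, hbm, hsign, hcdef, Int.cast_neg, Int.cast_one, mul_neg, mul_one, ← neg_div]
        exact eq_div_of_mul_eq hsne e3
  have hall0 : ∀ y, y ≠ a → bb y ≠ 0 := by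
    intro y hy h0
    exact no_zero h bb hbb1 hbb2 hbb3 c hc (fun y => Int.sign (bb y)) hsg1 hsg yp hypT.1
      (by rw [hbp]; exact_mod_cast hA) y hy h0
  have hall : ∀ y : Ω, y = a ∨ y ∈ orbit (stabilizer G a) yp ∨
      y ∈ orbit (stabilizer G a) ym := by
    intro y
    by_cases hy : y = a
    · left
      exact hy
    · right
      have hyT : y ∈ T := (hTmem y).mpr ⟨hy, hall0 y hy⟩
      rcases hTall y hyT with h1 | h1
      · left
        exact (hOmem yp y).mp h1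
      · right
        exact (hOmem ym y).mp h1
  have hmp : ym ∉ orbit (stabilizer G a) yp := by
    intro hmem
    have e := (hconst yp hypT.1 ym hmem).2.1
    rw [hbp, hbm] at e
    omega
  obtain ⟨hrank, hcount⟩ := rank_three_of_orbits a yp ym hypT.1 hymT.1 hmp hall
  refine ⟨hrank, A, hA, ?_, ?_⟩
  · rw [hnp, hnm, h.hcard, h.hPcard] at hcount
    have e : 2 * p = 2 * (2 * A ^ 2 + 2 * A + 1) := by
      rw [← hcount]
      ring
    omega
  · intro b hb
    rcases hall b with h1 | h1 | h1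
    · exact absurd h1 hb
    · left
      rw [(hconst yp hypT.1 b h1).2.2, hnp]
    · right
      rw [(hconst ym hymT.1 b h1).2.2, hnm]

end

end Cfsg.Agent.Lib.Helper12.TwoP5
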